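import Cfsg.Agent.H7.AM1

/-! S5586: lifting the nodes of the `Y₅₅₃` diagram. -/

set_option autoImplicit false
set_option linter.unusedSectionVars false
set_option linter.unusedVariables false
set_option synthInstance.maxSize 2000
set_option synthInstance.maxHeartbeats 200000
set_option maxRecDepth 4000

namespace H15.AM
open Cfsg H15 H19 H0 H0.Mo H0.Y Subgroup Function H7.AM
open H14.Mn (Mon zM)

universe u

local notation "εx" => H7.AM.ex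

/-- commuting nodes -/
def cm (l : List ℕ) : Prop := ∀ i ∈ l, i < 14 ∧ ∀ j ∈ l, εx i j ≠ 3
/-- commuting nodes, each of them an even number of times -/
def ok (l : List ℕ) : Prop := cm l ∧ ∀ i ∈ l, l.count i % 2 = 0
/-- a clique of at most five nodes -/
def cl (L : List ℕ) : Prop := (∀ i ∈ L, i < 13) ∧ L.Nodup ∧ cm L ∧ L.length ≤ 5
/-- a triad of the clique -/
def tz (L a : List ℕ) : Prop := ∃ i ∈ L, ∃ j ∈ L, ∃ k ∈ L, i ≠ j ∧ i ≠ k ∧ j ≠ k ∧ a = [i, j, k]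
/-- two triads with two common nodes -/
def a2 (L a b : List ℕ) : Prop := ∃ c ∈ L, ∃ d ∈ L, c ≠ d ∧ ok (a ++ b ++ [c, d])
/-- the nodes commuting with `5` and `10` -/
def D9 : List ℕ := [0, 1, 2, 3, 6, 7, 8, 11, 12]
/-- the exchange of two arms -/
def τ (i : ℕ) : ℕ := if i = 0 ∨ 10 < i then i else if i < 6 then i + 5 else i - 5

instance (l : List ℕ) : Decidable (cm l) := by unfold cm; infer_instance
instance (l : List ℕ) : Decidable (ok l) := by unfold ok; infer_instance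
instance (l : List ℕ) : Decidable (cl l) := by unfold cl; infer_instance
instance (l a : List ℕ) : Decidable (tz l a) := by unfold tz; infer_instance
instance (l a b : List ℕ) : Decidable (a2 l a b) := by unfold a2; infer_instance

/-- products of nodes -/
abbrev PP (g : ℕ → Mon) (l : List ℕ) : Mon := (l.map g).prod

structure Y0 (E : Set Mon) (g : ℕ → Mon) : Prop where
  tp : ∀ i < 13, g i ∈ E
  ne : ∀ i < 13, ∀ j < 13, i ≠ j → g i ≠ g j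
  cox : ∀ i < 14, ∀ j < 14, (g i * g j) ^ εx i j = 1

theorem τ_lt : ∀ i < 14, τ i < 14 ∧ (i < 13 → τ i < 13) ∧ τ (τ i) = i ∧ ∀ j < 14, εx (τ i) (τ j) = εx i j := by decide

section
variable {E : Set Mon} {Nx : Subgroup Mon} {g : ℕ → Mon} (Y : Y0 E g) {l l' L a b c : List ℕ} {i j : ℕ}
include Y

theorem Y0.swap : Y0 E (g ∘ τ) :=
  ⟨fun i hi => Y.tp _ ((τ_lt i (by omega)).2.1 hi), fun i hi j hj n => Y.ne _ ((τ_lt i (by omega)).2.1 hi) _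
    ((τ_lt j (by omega)).2.1 hj) fun e => n (by rw [← (τ_lt i (by omega)).2.2.1, e, (τ_lt j (by omega)).2.2.1]),
    fun i hi j hj => (τ_lt i hi).2.2.2 j hj ▸ Y.cox _ (τ_lt i hi).1 _ (τ_lt j hj).1⟩

theorem Y0.com (h : cm l) (hi : i ∈ l) (hj : j ∈ l) : g i * g i = 1 ∧ Commute (g i) (g j) :=
  cm_of Y.cox (h i hi).1 (h j hj).1 ((h i hi).2 j hj)

theorem Y0.pz : ∀ (n : ℕ) (l : List ℕ), l.length ≤ n → cm l → (∀ i, l.count i % 2 = 0) → PP g l = 1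
  | _, [], _, _, _ => rfl
  | 0, _ :: _, h, _, _ => by simp at h
  | n + 1, i :: l, h, c, e => by
    have m : i ∈ l := List.count_pos_iff.1 (by have := e i; rw [List.count_cons_self] at this; omega)
    have p := List.perm_cons_erase m
    have s : ∀ j ∈ l.erase i, j ∈ i :: l := fun j hj => List.mem_cons_of_mem _ (List.mem_of_mem_erase hj)
    have := Y0.pz n (l.erase i) (by rw [List.length_erase_of_mem m]; simp at h; omega)
      (fun j hj => ⟨(c j (s j hj)).1, fun k hk => (c j (s j hj)).2 k (s k hk)⟩) fun j => by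
        have h1 := e j
        have h2 := p.count_eq j
        rw [List.count_cons] at h1 h2
        split_ifs at h1 h2 <;> omega
    rw [PP, List.map_cons, List.prod_cons, (p.map g).prod_eq' (List.pairwise_map.2 (List.pairwise_of_forall_mem_list fun a ha b hb =>
      (Y.com c (by simp [ha]) (by simp [hb])).2)), List.map_cons, List.prod_cons, ← mul_assoc, (Y.com c (i := i) (j := i) (by simp) (by simp)).1, one_mul]
    exact this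

theorem Y0.one (h : ok l) : PP g l = 1 := Y.pz _ l le_rfl h.1 fun i => by
  by_cases m : i ∈ l
  exacts [h.2 i m, by rw [List.count_eq_zero_of_not_mem m]]

theorem Y0.pe (h : ok (l ++ l')) : PP g l = PP g l' := by
  have h1 := Y.one h
  have h2 := Y.pz _ (l' ++ l') le_rfl (fun i hi => ⟨(h.1 i (by simp at hi; simp [hi])).1, fun j hj =>
    (h.1 i (by simp at hi; simp [hi])).2 j (by simp at hj; simp [hj])⟩) fun i => by rw [List.count_append]; omega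
  rw [PP, List.map_append, List.prod_append] at h1 h2
  exact mul_right_cancel (h1.trans h2.symm)

theorem Y0.cq (h : (∀ i ∈ L, i < 13) ∧ L.Nodup ∧ cm L) : Cq E (L.map g) :=
  ⟨fun a ha => let ⟨i, hi, e⟩ := List.mem_map.1 ha; e ▸ Y.tp i (h.1 i hi), List.pairwise_map.2 (h.2.1.imp_of_mem fun ha hb n =>
    ⟨Y.ne _ (h.1 _ hb) _ (h.1 _ ha) (Ne.symm n), (Y.com h.2.2 ha hb).2⟩)⟩

theorem Y0.cen (h : ∀ i ∈ a, i < 14 ∧ εx j i ≠ 3) (hj : j < 14) : g j ∈ C[PP g a] :=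
  mem_cent1.2 (Commute.list_prod_right _ _ fun x hx =>
    let ⟨i, hi, e⟩ := List.mem_map.1 hx; e ▸ (cm_of Y.cox hj (h i hi).1 (h i hi).2).2)

theorem Y0.dm (h : cl [i, j]) : Dm (g i) (g j) := by simpa using (Y.cq ⟨h.1, h.2.1, h.2.2.1⟩).2

theorem Y0.x0 (h : i ∈ D9) : X0 E (g 5) (g 10) (g i) := by
  obtain ⟨a, b, c⟩ := (by decide : ∀ i ∈ D9, i < 13 ∧ cl [5, i] ∧ cl [10, i]) i h
  exact ⟨Y.tp i a, Y.dm b, Y.dm c⟩

theorem Y0.nb {w : Mon} (h : cl L) (B : Ba w (L.map g)) (t : tz L a) : Nb w (PP g a) := by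
  obtain ⟨i, hi, j, hj, k, hk, n1, n2, n3, rfl⟩ := t
  simpa [PP] using B _ (List.mem_map_of_mem hi) _ (List.mem_map_of_mem hj) _ (List.mem_map_of_mem hk)
    (Y.ne _ (h.1 _ hi) _ (h.1 _ hj) n1) (Y.ne _ (h.1 _ hi) _ (h.1 _ hk) n2) (Y.ne _ (h.1 _ hj) _ (h.1 _ hk) n3)

theorem Y0.aa (F : Ft E Nx) (h : cl L) (t : a2 L a b) : A2 zM (PP g a * PP g b) := by
  obtain ⟨c, hc, d, hd, n, o⟩ := t
  rw [← List.prod_append, ← List.map_append, show ((a ++ b).map g).prod = _ from Y.pe o]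
  simpa [PP] using F.c2 _ _ (Y.cq (L := [c, d]) ⟨by simpa using ⟨h.1 c hc, h.1 d hd⟩, by simpa using n, fun i hi =>
    ⟨(o.1 i (List.mem_append_right _ hi)).1, fun j hj => (o.1 i (List.mem_append_right _ hi)).2 j (List.mem_append_right _ hj)⟩⟩)

/-- `g₉ g₈ g₁₀ g₉` exchanges `g₈` and `g₁₀` -/
theorem Y0.sw : g 9 * (g 8 * g 10) * g 9 * g 10 = g 8 * (g 9 * (g 8 * g 10) * g 9) ∧
    g 9 * (g 8 * g 10) * g 9 * g 8 = g 10 * (g 9 * (g 8 * g 10) * g 9) := by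
  have s : ∀ i < 14, ∀ x, g i * (g i * x) = x := fun i hi x => by
    rw [← mul_assoc, (cm_of Y.cox hi hi (by simp [H7.AM.ex])).1, one_mul]
  have b : ∀ i < 14, ∀ j < 14, εx i j = 3 → ∀ x, g i * (g j * (g i * x)) = g j * (g i * (g j * x)) := fun i hi j hj e x => by
    have := Y.cox i hi j hj
    rw [e, pow_three] at this
    calc _ = g j * (g i * (g j * (g j * (g i * (g j * (g i * (g j * (g i * x)))))))) := by simp only [s _ hi, s _ hj]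
      _ = g j * (g i * (g j * (g j * (g i * g j * (g i * g j * (g i * g j)) * (g j * x))))) := by simp only [mul_assoc, s _ hj]
      _ = _ := by rw [this, one_mul, s _ hj]
  have c : ∀ x, g 8 * (g 10 * x) = g 10 * (g 8 * x) := fun x => (Y.com (l := [8, 10]) (by decide) (by simp) (by simp)).2.left_comm x
  constructor <;> rw [← mul_one (_ * g _), ← mul_one (g _ * (_ * g 9))] <;> simp only [mul_assoc]
  · rw [b 10 (by decide) 9 (by decide) rfl, b 9 (by decide) 8 (by decide) rfl]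
  · rw [c, b 8 (by decide) 9 (by decide) rfl, b 9 (by decide) 10 (by decide) rfl, c]

variable {Γ : Type u} [Group Γ] {P : Type u} [MulAction Γ P] {φ : Γ →* Mon} {pr : P → Mon} {sp : P → P → Prop}
  (K : Sk φ pr sp) (F : Ft E Nx) {p q r : P} {γ δ : Γ}
include K

theorem fx (e : φ γ = g j) (h : γ • p = p) (s : sp p q) (hq : pr q = PP g a) (c : j < 14 ∧ ∀ i ∈ a, i < 14 ∧ εx j i ≠ 3) :
    γ • q = q := K.fix h s (by rw [e, hq]; exact Y.cen c.2 c.1)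

theorem cx (hi : i < 14) (hj : j < 14) (e : φ γ = g i) (e' : φ δ = g j) (h : ∃ p : P, γ • p = p ∧ δ • p = p) :
    (γ * δ) ^ εx i j = 1 :=
  let ⟨p, h1, h2⟩ := h
  K.inj _ p (MulAction.mem_stabilizer_iff.1 (pow_mem ((MulAction.stabilizer Γ p).mul_mem h1 h2) _))
    (by rw [map_pow, map_mul, e, e', Y.cox i hi j hj])

include F

theorem st (L b : List ℕ) (hp : pr p = PP g a) (h : cl L ∧ tz L a ∧ tz L b ∧ a2 L a b) : ∃ q, sp p q ∧ pr q = PP g b := by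
  obtain ⟨w, B⟩ := F.b5 _ (Y.cq ⟨h.1.1, h.1.2.1, h.1.2.2.1⟩) (by simpa using h.1.2.2.2)
  exact K.ex p _ w (hp ▸ Y.aa F h.1 h.2.2.2) (hp ▸ Y.nb h.1 B h.2.1) (Y.nb h.1 B h.2.2.1)

theorem tr (L : List ℕ) (hp : pr p = PP g a) (hq : pr q = PP g b) (hr : pr r = PP g c) (s : sp p q) (s' : sp p r)
    (h : cl L ∧ tz L a ∧ tz L b ∧ tz L c ∧ a2 L b c) : sp q r := by
  obtain ⟨w, B⟩ := F.b5 _ (Y.cq ⟨h.1.1, h.1.2.1, h.1.2.2.1⟩) (by simpa using h.1.2.2.2)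
  exact K.tri w s s' (hq ▸ hr ▸ Y.aa F h.1 h.2.2.2.2) (hp ▸ Y.nb h.1 B h.2.1) (hq ▸ Y.nb h.1 B h.2.2.1)
    (hr ▸ Y.nb h.1 B h.2.2.2.1)

end

section
variable {Γ : Type u} [Group Γ] {P : Type u} [MulAction Γ P]

/-- the nodes other than `4` and `9` -/
structure Bs (φ : Γ →* Mon) (pr : P → Mon) (sp : P → P → Prop) (g : ℕ → Mon) (s : ℕ → P) (y : ℕ → Γ) : Prop where
  pr : ∀ d ∈ D9, pr (s d) = PP g [5, 10, d]
  sp : ∀ d ∈ D9, ∀ d' ∈ D9, cl [d, d'] → sp (s d) (s d')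
  im : ∀ i < 14, i ≠ 4 → i ≠ 9 → φ (y i) = g i
  fx : ∀ i < 14, i ≠ 4 → i ≠ 9 → ∀ d ∈ D9, εx i d ≠ 3 → y i • s d = s d

variable {φ : Γ →* Mon} {pr : P → Mon} {sp : P → P → Prop} {E : Set Mon} {Nx : Subgroup Mon} {g : ℕ → Mon} {s : ℕ → P}
  {y : ℕ → Γ}

theorem Bs.swap (Y : Y0 E g) (B : Bs φ pr sp g s y) : Bs φ pr sp (g ∘ τ) (s ∘ τ) (y ∘ τ) := by
  have k : ∀ d ∈ D9, d < 14 ∧ τ d ∈ D9 ∧ ok ([5, 10, τ d] ++ [10, 5, τ d]) ∧ ∀ d' ∈ D9, cl [d, d'] → cl [τ d, τ d'] := by decide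
  have k' : ∀ i < 14, i ≠ 4 → i ≠ 9 → τ i ≠ 4 ∧ τ i ≠ 9 := by decide
  exact ⟨fun d h => (B.pr _ (k d h).2.1).trans (Y.pe (k d h).2.2.1), fun d h d' h' c => B.sp _ (k d h).2.1 _ (k d' h').2.1
    ((k d h).2.2.2 d' h' c), fun i hi a b => B.im _ (τ_lt i hi).1 (k' i hi a b).1 (k' i hi a b).2, fun i hi a b d h e =>
    B.fx _ (τ_lt i hi).1 (k' i hi a b).1 (k' i hi a b).2 _ (k d h).2.1 (by rwa [(τ_lt i hi).2.2.2 d (k d h).1])⟩

/-- the node `9` -/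
theorem arm (Y : Y0 E g) (K : Sk φ pr sp) (F : Ft E Nx) (B : Bs φ pr sp g s y) : ∃ γ : Γ, φ γ = g 9 ∧
    (∀ j < 14, j ≠ 4 → j ≠ 9 → ∃ p : P, γ • p = p ∧ y j • p = p) ∧
    (∃ q, sp (s 0) q ∧ pr q = PP g [5, 0, 12] ∧ γ • q = q) ∧ (γ * (y 8 * y 10) * γ) • s 8 = s 8 := by
  have p0 := B.pr 0 (by decide)
  have p3 := B.pr 3 (by decide)
  have p8 := B.pr 8 (by decide)
  obtain ⟨B1, s1, q1⟩ := st Y K F [5, 10, 3, 0] [5, 3, 0] p3 (by decide)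
  obtain ⟨B2, s2, q2⟩ := st Y K F [5, 10, 3, 7] [5, 3, 7] p3 (by decide)
  obtain ⟨B3, s3, q3⟩ := st Y K F [5, 10, 3, 11] [5, 3, 11] p3 (by decide)
  obtain ⟨B4, s4, q4⟩ := st Y K F [5, 10, 0, 12] [5, 0, 12] p0 (by decide)
  obtain ⟨B5, s5, q5⟩ := st Y K F [5, 3, 0, 8] [5, 3, 8] q1 (by decide)
  have t12 := tr Y K F [5, 10, 3, 0, 7] p3 q1 q2 s1 s2 (by decide)
  have t23 := tr Y K F [5, 10, 3, 7, 11] p3 q2 q3 s2 s3 (by decide)
  have t01 := tr Y K F [5, 10, 3, 0] p3 p0 q1 (B.sp 3 (by decide) 0 (by decide) (by decide)) s1 (by decide)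
  have t14 := tr Y K F [5, 10, 0, 3, 12] p0 q1 q4 t01 s4 (by decide)
  obtain ⟨γ, e, f1⟩ := K.lift B1 (g 9) (q1 ▸ Y.cen (by decide) (by decide))
  have f2 := fx Y K e f1 t12 q2 (by decide)
  have f3 := fx Y K e f2 t23 q3 (by decide)
  have f4 := fx Y K e f1 t14 q4 (by decide)
  have h : ∀ {q a}, sp (s 3) q → pr q = PP g a → ∀ j, (j < 14 ∧ j ≠ 4 ∧ j ≠ 9 ∧ εx j 3 ≠ 3) ∧ (j < 14 ∧ ∀ i ∈ a, i < 14 ∧ εx j i ≠ 3) →
      y j • q = q := fun t e j c => fx Y K (B.im j c.1.1 c.1.2.1 c.1.2.2.1) (B.fx j c.1.1 c.1.2.1 c.1.2.2.1 3 (by decide) c.1.2.2.2) t e c.2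
  refine ⟨γ, e, fun j hj n4 n9 => ?_, ⟨B4, s4, q4, f4⟩, ?_⟩
  · rcases (by decide : ∀ j < 14, j ≠ 4 → j ≠ 9 → j = 2 ∨ ((j < 14 ∧ j ≠ 4 ∧ j ≠ 9 ∧ εx j 3 ≠ 3) ∧ (j < 14 ∧ ∀ i ∈ [5, 3, 0], i < 14 ∧ εx j i ≠ 3)) ∨
      ((j < 14 ∧ j ≠ 4 ∧ j ≠ 9 ∧ εx j 3 ≠ 3) ∧ (j < 14 ∧ ∀ i ∈ [5, 3, 7], i < 14 ∧ εx j i ≠ 3)) ∨
      ((j < 14 ∧ j ≠ 4 ∧ j ≠ 9 ∧ εx j 3 ≠ 3) ∧ (j < 14 ∧ ∀ i ∈ [5, 3, 11], i < 14 ∧ εx j i ≠ 3))) j hj n4 n9 with rfl | c | c | c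
    exacts [⟨B4, f4, fx Y K (B.im 2 hj n4 n9) (B.fx 2 hj n4 n9 0 (by decide) (by decide)) s4 q4 (by decide)⟩,
      ⟨B1, f1, h s1 q1 j c⟩, ⟨B2, f2, h s2 q2 j c⟩, ⟨B3, f3, h s3 q3 j c⟩]
  have w1 : (γ * (y 8 * y 10) * γ) • B1 = B1 := by
    rw [mul_smul, mul_smul, mul_smul, f1, h s1 q1 10 (by decide), h s1 q1 8 (by decide), f1]
  have eW : φ (γ * (y 8 * y 10) * γ) = g 9 * (g 8 * g 10) * g 9 := by
    rw [map_mul, map_mul, map_mul, e, B.im 8 (by decide) (by decide) (by decide), B.im 10 (by decide) (by decide) (by decide)]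
  generalize γ * (y 8 * y 10) * γ = W at w1 eW ⊢
  have c : ∀ j, j < 14 ∧ εx 9 j ≠ 3 ∧ εx 8 j ≠ 3 ∧ εx 10 j ≠ 3 → φ W * g j = g j * φ W := fun j c => by
    have k := fun i hi e => (cm_of Y.cox (i := i) hi c.1 e).2
    rw [eW]
    exact (((k 9 (by decide) c.2.1).mul_left ((k 8 (by decide) c.2.2.1).mul_left (k 10 (by decide) c.2.2.2))).mul_left
      (k 9 (by decide) c.2.1)).eq
  obtain ⟨a1, a2⟩ := Y.sw
  rw [← eW] at a1 a2
  have ev : ∀ {i j k i' j' k'}, φ W * g i = g i' * φ W → φ W * g j = g j' * φ W → φ W * g k = g k' * φ W →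
      φ W * PP g [i, j, k] * (φ W)⁻¹ = PP g [i', j', k'] := fun a b c => by
    simp only [PP, List.map_cons, List.map_nil, List.prod_cons, List.prod_nil, mul_one]
    rw [mul_inv_eq_iff_eq_mul, ← mul_assoc, a, mul_assoc, ← mul_assoc (φ W), b, mul_assoc, c]; simp only [mul_assoc]
  have w3 : W • s 3 = B5 := K.uniq (w1 ▸ K.smul W (K.symm s1)) s5 (by
    rw [K.eqv, p3, q5, ev (c 5 (by decide)) a1 (c 3 (by decide))]; exact Y.pe (by decide))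
  have s38 := B.sp 3 (by decide) 8 (by decide) (by decide)
  have t35 := tr Y K F [5, 10, 3, 8, 0] q1 p3 q5 (K.symm s1) s5 (by decide)
  have t85 := tr Y K F [5, 10, 3, 8] p3 p8 q5 s38 t35 (by decide)
  exact K.uniq (w3 ▸ K.smul W s38) (K.symm t85) (by rw [K.eqv, p8, ev (c 5 (by decide)) a1 a2]; exact Y.pe (by decide))

theorem x0_cj (F : Ft E Nx) {a b d n : Mon} (hn : n ∈ Nx ⊓ (C[a] ⊓ C[b])) (h : X0 E a b d) : X0 E a b (n * d * n⁻¹) :=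
  ⟨F.cj n hn.1 d h.1, by simpa only [mem_cent1.1 hn.2.1, mul_inv_cancel_right] using h.2.1.cj n,
    by simpa only [mem_cent1.1 hn.2.2, mul_inv_cancel_right] using h.2.2.cj n⟩

/-- the elements which keep the section -/
def FF (F : Ft E Nx) (φ : Γ →* Mon) (a b : Mon) (σ : Mon → P) : Subgroup Γ where
  carrier := {γ | φ γ ∈ Nx ⊓ (C[a] ⊓ C[b]) ∧ Ev φ E a b σ γ}
  one_mem' := ⟨by simp, fun d _ => by simp⟩
  mul_mem' := fun {x y} hx hy => ⟨map_mul φ x y ▸ mul_mem hx.1 hy.1, fun d h => by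
    rw [mul_smul, hy.2 d h, hx.2 _ (x0_cj F hy.1 h), map_mul]; simp only [mul_assoc, mul_inv_rev]⟩
  inv_mem' := fun {x} hx => ⟨map_inv φ x ▸ inv_mem hx.1, fun d h => by
    rw [inv_smul_eq_iff, map_inv, hx.2 _ (x0_cj F (inv_mem hx.1) h)]; simp [mul_assoc]⟩

end

theorem nd : ND.{u} := fun Γ _ φ P _ pr sp E Nx g σ K F Y' S => by
  have Y : Y0 E g := ⟨Y'.tp, Y'.ne, Y'.cox⟩
  have pd : ∀ d ∈ D9, pr (σ (g d)) = PP g [5, 10, d] := fun d h => by simpa [PP] using S.pr _ (Y.x0 h)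
  have sd : ∀ d ∈ D9, ∀ d' ∈ D9, cl [d, d'] → sp (σ (g d)) (σ (g d')) := fun d h d' h' c => S.sp _ _ (Y.x0 h) (Y.x0 h') (Y.dm c)
  have l : ∀ i, ∃ γ : Γ, i < 14 → i ≠ 4 → i ≠ 9 → φ γ = g i ∧ (i < 13 → γ ∈ FF F φ (g 5) (g 10) σ) ∧
      ∀ d ∈ D9, εx i d ≠ 3 → γ • σ (g d) = σ (g d) := fun i => by
    by_cases h : i < 14 ∧ i ≠ 4 ∧ i ≠ 9
    swap
    · exact ⟨1, fun a b c => absurd ⟨a, b, c⟩ h⟩
    obtain ⟨d, hd, c, c'⟩ := (by decide : ∀ i < 14, i ≠ 4 → i ≠ 9 → ∃ d ∈ D9, (∀ j ∈ [5, 10, d], j < 14 ∧ εx i j ≠ 3) ∧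
      (i = 13 → d = 0)) i h.1 h.2.1 h.2.2
    obtain ⟨γ, e, f⟩ := K.lift (σ (g d)) (g i) (pd d hd ▸ Y.cen c h.1)
    have cj : ∀ j < 14, εx i j ≠ 3 → φ γ * g j * (φ γ)⁻¹ = g j := fun j a b => by
      rw [e, (cm_of Y.cox h.1 a b).2.eq, mul_inv_cancel_right]
    refine ⟨γ, fun _ _ _ => ⟨e, ?_⟩⟩
    by_cases h13 : i = 13
    · subst h13
      rw [c' rfl] at f
      have k : ∀ {d d'}, γ • σ (g d) = σ (g d) → d ∈ D9 ∧ d' ∈ D9 ∧ cl [d, d'] ∧ 13 < 14 ∧ (∀ i ∈ [5, 10, d'], i < 14 ∧ εx 13 i ≠ 3) →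
        γ • σ (g d') = σ (g d') := fun f c => fx Y K e f (sd _ c.1 _ c.2.1 c.2.2.1) (pd _ c.2.1) c.2.2.2
      refine ⟨fun a => absurd a (by decide), fun d hd c => ?_⟩
      rcases (by decide : ∀ d ∈ D9, εx 13 d ≠ 3 → d = 0 ∨
        (0 ∈ D9 ∧ d ∈ D9 ∧ cl [0, d] ∧ 13 < 14 ∧ (∀ i ∈ [5, 10, d], i < 14 ∧ εx 13 i ≠ 3)) ∨
        (3 ∈ D9 ∧ d ∈ D9 ∧ cl [3, d] ∧ 13 < 14 ∧ (∀ i ∈ [5, 10, d], i < 14 ∧ εx 13 i ≠ 3))) d hd c with rfl | c | c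
      exacts [f, k f c, k (k f (by decide)) c]
    have m : φ γ ∈ Nx ⊓ (C[g 5] ⊓ C[g 10]) := ⟨e ▸ F.mem _ (Y.tp i (by omega)),
      mem_cent1.2 (mul_inv_eq_iff_eq_mul.1 (cj 5 (by decide) (c 5 (by simp)).2)),
      mem_cent1.2 (mul_inv_eq_iff_eq_mul.1 (cj 10 (by decide) (c 10 (by simp)).2))⟩
    have v := S.rig γ m _ (Y.x0 hd) (by rw [cj d (c d (by simp)).1 (c d (by simp)).2, f])
    exact ⟨fun _ => ⟨m, v⟩, fun d hd c => by rw [v _ (Y.x0 hd), cj d ((by decide : ∀ d ∈ D9, d < 14) d hd) c]⟩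
  choose y hy using l
  have B : Bs φ pr sp g (fun d => σ (g d)) y := ⟨pd, sd, fun i a b c => (hy i a b c).1, fun i a b c => (hy i a b c).2.2⟩
  obtain ⟨y9, e9, c9, ⟨B4, s4, q4, f4⟩, w9⟩ := arm Y K F B
  obtain ⟨y4, e4, c4, ⟨B4', s4', q4', f4'⟩, w4⟩ := arm Y.swap K F (B.swap Y)
  replace q4' : pr B4' = PP g [10, 0, 12] := q4'
  replace e4 : φ y4 = g 4 := e4
  obtain ⟨Z, s5, q5⟩ := st Y K F [5, 0, 12, 2] [0, 12, 2] q4 (by decide)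
  have t1 := tr Y K F [5, 10, 0, 12] (pd 0 (by decide)) q4 q4' s4 s4' (by decide)
  have t2 := tr Y K F [5, 10, 0, 12, 2] q4 q4' q5 t1 s5 (by decide)
  have z9 := fx Y K e9 f4 s5 q5 (by decide)
  have z4 := fx Y K e4 f4' t2 q5 (by decide)
  let y' : ℕ → Γ := fun i => if i = 4 then y4 else if i = 9 then y9 else y i
  have ey : ∀ i, i ≠ 4 → i ≠ 9 → y' i = y i := fun i a b => by simp [y', a, b]
  have im : ∀ i < 14, φ (y' i) = g i := fun i hi => by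
    by_cases a : i = 4
    · exact a ▸ e4
    by_cases b : i = 9
    · exact b ▸ e9
    rw [ey i a b, B.im i hi a b]
  have c4' : ∀ j < 14, ∃ p : P, y4 • p = p ∧ y' j • p = p := fun j hj => by
    by_cases a : j = 4
    · exact ⟨Z, z4, a ▸ z4⟩
    by_cases b : j = 9
    · exact ⟨Z, z4, b ▸ z9⟩
    obtain ⟨a', b'⟩ := (by decide : ∀ i < 14, i ≠ 4 → i ≠ 9 → τ i ≠ 4 ∧ τ i ≠ 9) j hj a b
    have := c4 _ (τ_lt j hj).1 a' b'
    rwa [comp_apply, (τ_lt j hj).2.2.1, ← ey j a b] at this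
  have c9' : ∀ j < 14, ∃ p : P, y9 • p = p ∧ y' j • p = p := fun j hj => by
    by_cases a : j = 4
    · exact ⟨Z, z9, a ▸ z4⟩
    by_cases b : j = 9
    · exact ⟨Z, z9, b ▸ z9⟩
    exact ey j a b ▸ c9 j hj a b
  have mF : ∀ i, i < 13 ∧ i ≠ 4 ∧ i ≠ 9 → y i ∈ FF F φ (g 5) (g 10) σ := fun i c => (hy i (by omega) c.2.1 c.2.2).2.1 c.1
  have inj : ∀ {a b : Γ}, a ∈ FF F φ (g 5) (g 10) σ → b ∈ FF F φ (g 5) (g 10) σ → φ a = φ b → a = b := fun {a b} ha hb e =>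
    mul_inv_eq_one.1 (K.inj _ (σ (g 0)) (by
      rw [(mul_mem ha (inv_mem hb)).2 _ (Y.x0 (by decide)), map_mul, map_inv, e]; simp) (by simp [e]))
  have i0 : ∀ i, i < 14 ∧ i ≠ 4 ∧ i ≠ 9 → φ (y i) = g i := fun i c => B.im i c.1 c.2.1 c.2.2
  have sb : ∀ d ∈ D9, ∀ i, i < 14 ∧ i ≠ 4 ∧ i ≠ 9 ∧ εx i d ≠ 3 → y i ∈ MulAction.stabilizer Γ (σ (g d)) :=
    fun d h i c => B.fx i c.1 c.2.1 c.2.2.1 d h c.2.2.2
  have X : Xr y := by
    refine ⟨inj ?_ (one_mem _) ?_, inj (mF _ (by decide)) ?_ ?_, inj (mF _ (by decide)) ?_ ?_, inj (mF _ (by decide)) ?_ ?_,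
      inj (mF _ (by decide)) ?_ ?_, K.toPt.rel (p := σ (g 8)) (one_smul _ _) (MulAction.mem_stabilizer_iff.1 ?_) ?_,
      K.toPt.rel (p := σ (g 3)) (one_smul _ _) (MulAction.mem_stabilizer_iff.1 ?_) ?_⟩
    any_goals
      simp (disch := decide) only [map_pow, map_mul, map_one, i0]
      first | exact Y'.xr.sp | exact Y'.xr.f1 | exact Y'.xr.f1' | exact Y'.xr.f2 | exact Y'.xr.f2' | exact Y'.xr.f3 | exact Y'.xr.f3'
    all_goals
      refine pow_mem ?_ _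
      repeat' apply mul_mem
    all_goals first | exact mF _ (by decide) | exact sb _ (by decide) _ (by decide)
  refine ⟨y', im, fun i hi j hj => cx Y K hi hj (im i hi) (im j hj) ?_, ⟨X.sp, X.f1, X.f1', X.f2, X.f2', X.f3, X.f3'⟩,
    fun i hi a b => ey i a b ▸ (mF i ⟨hi, a, b⟩).2, B.fx 13 (by decide) (by decide) (by decide) 3 (by decide) (by decide), w4, w9⟩
  by_cases a : i = 4
  · exact a ▸ c4' j hj
  by_cases b : i = 9
  · exact b ▸ c9' j hj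
  by_cases a' : j = 4
  · exact a' ▸ (c4' i hi).imp fun _ => And.symm
  by_cases b' : j = 9
  · exact b' ▸ (c9' i hi).imp fun _ => And.symm
  obtain ⟨d, hd, c, c'⟩ := (by decide : ∀ i < 14, ∀ j < 14, ∃ d ∈ D9, εx i d ≠ 3 ∧ εx j d ≠ 3) i hi j hj
  exact ⟨_, ey i a b ▸ B.fx i hi a b d hd c, ey j a' b' ▸ B.fx j hj a' b' d hd c'⟩

end H15.AM
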