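import Cfsg.Agent.H15.AM1

/-! S5586: the section, the family of points over triads, two full points. -/

set_option autoImplicit false
set_option linter.unusedSectionVars false
set_option linter.unusedVariables false

namespace H15.AM
open Cfsg H15 H19 H0 H0.Mo H0.Y Subgroup Function H7.AM
open H14.Mn (Mon zM)

universe u

section
variable {E : Set Mon} {Nx : Subgroup Mon} {l : List Mon} {a b c d w : Mon} {n : ℕ}

theorem dmi (h : Cq E l) (hn : l.length = n) {i j : ℕ} (hi : i < n) (hj : j < n) (ne : i ≠ j) : Dm (l.getD i 1) (l.getD j 1) := by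
  subst hn
  rw [List.getD_eq_getElem _ _ hi, List.getD_eq_getElem _ _ hj]
  rcases ne.lt_or_gt with k | k
  exacts [List.pairwise_iff_getElem.1 h.2 i j hi hj k, (List.pairwise_iff_getElem.1 h.2 j i hj hi k).symm]

theorem mmi (hn : l.length = n) {i : ℕ} (hi : i < n) : l.getD i 1 ∈ l := by
  subst hn; rw [List.getD_eq_getElem _ _ hi]; exact List.getElem_mem _

/-- subcliques by their indices -/
theorem cqi (h : Cq E l) (hn : l.length = n) (I : List ℕ) (hI : I.Nodup ∧ ∀ i ∈ I, i < n) : Cq E (I.map (l.getD · 1)) :=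
  ⟨fun a ha => let ⟨i, hi, e⟩ := List.mem_map.1 ha; e ▸ h.1 _ (mmi hn (hI.2 i hi)),
    List.pairwise_map.2 (hI.1.imp_of_mem fun ha hb ne => dmi h hn (hI.2 _ ha) (hI.2 _ hb) ne)⟩

theorem nbi (h : Cq E l) (hn : l.length = n) (B : Ba w l) (i j k : ℕ) (hI : i < n ∧ j < n ∧ k < n ∧ i ≠ j ∧ i ≠ k ∧ j ≠ k) :
    Nb w (l.getD i 1 * (l.getD j 1 * l.getD k 1)) :=
  let ⟨a, b, c, d, e, f⟩ := hI
  B _ (mmi hn a) _ (mmi hn b) _ (mmi hn c) (dmi h hn a b d).1.symm (dmi h hn a c e).1.symm (dmi h hn b c f).1.symm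

theorem cqx (h : Cq E [a, b]) (hl : ∀ d ∈ l, X0 E a b d) (p : l.Pairwise Dm) : Cq E (a :: b :: l) :=
  Cq.cons.2 ⟨h.1 a (by simp), List.forall_mem_cons.2 ⟨dmi h rfl (i := 0) (j := 1) (by simp) (by simp) (by simp),
    fun d hd => (hl d hd).2.1⟩, Cq.cons.2 ⟨h.1 b (by simp), fun d hd => (hl d hd).2.2, fun d hd => (hl d hd).1, p⟩⟩

theorem tri2 (F : Ft E Nx) (h : Cq E [a, b, c, d]) : A2 zM (a * (b * c) * (a * (b * d))) := by
  have ab : Commute a b := (dmi h (n := 4) rfl (i := 0) (j := 1) (by simp) (by simp) (by simp)).2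
  have ac : Commute a c := (dmi h (n := 4) rfl (i := 0) (j := 2) (by simp) (by simp) (by simp)).2
  have bc : Commute b c := (dmi h (n := 4) rfl (i := 1) (j := 2) (by simp) (by simp) (by simp)).2
  rw [(ab.mul_right ac |>.eq), mul_assoc, ← mul_assoc a, F.sq a (h.1 a (by simp)), one_mul, bc.eq, mul_assoc, ← mul_assoc b,
    F.sq b (h.1 b (by simp)), one_mul]
  exact F.c2 _ _ (cqi h (n := 4) rfl [2, 3] (by decide))

theorem tr3 (F : Ft E Nx) {a' b' c' : Mon} (h : Cq E [a, b, c]) (h' : Cq E [a', b', c']) :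
    ∃ n ∈ Nx, n * a * n⁻¹ = a' ∧ n * b * n⁻¹ = b' ∧ n * c * n⁻¹ = c' := by
  simpa using F.tr _ _ h h' rfl (by simp)

theorem cj3 (n a b c : Mon) : n * (a * (b * c)) * n⁻¹ = n * a * n⁻¹ * (n * b * n⁻¹ * (n * c * n⁻¹)) := by group

theorem cen_cj {n : Mon} : n * a * n⁻¹ = a ↔ n ∈ C[a] := mul_inv_eq_iff_eq_mul.trans mem_cent1.symm

end

theorem sg (cl : H7.AM.CL.{u}) : SG.{u} := fun Γ _ φ P _ pr sp E Nx a b K F h => by
  classical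
  have G := F.gr a b h
  obtain ⟨x, hx⟩ := G.ex
  have q3 := cqx h (l := [x]) (by simpa) (by simp)
  obtain ⟨w, B⟩ := F.b5 _ q3 (by simp)
  obtain ⟨p₀, hp⟩ := K.onto _ (nbi q3 (n := 3) rfl B 0 1 2 (by decide)).2.1
  have nc : ∀ {x y : {d // X0 E a b d}}, x ≠ y → ¬ Dm x.1 y.1 → ¬ Commute x.1 y.1 := fun n k c => k ⟨fun e => n (Subtype.ext e.symm), c⟩
  obtain ⟨σ, h1, -, h2⟩ := cl {d // X0 E a b d} {v : {d // X0 E a b d} × P // pr v.2 = a * (b * v.1.1)} (fun x y => Dm x.1 y.1)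
    (fun v => v.1.1) (fun v w => Dm v.1.1.1 w.1.1.1 ∧ sp v.1.2 w.1.2) (fun _ _ => Dm.symm) (fun _ k => k.1 rfl)
    (fun _ _ k => ⟨k.1.symm, K.symm k.2⟩) (fun _ _ k => k.1)
    (fun p y k => by
      have q := cqx h (l := [p.1.1.1, y.1]) (by simpa using ⟨p.1.1.2, y.2⟩) (by simpa using k)
      obtain ⟨w, B⟩ := F.b5 _ q (by simp)
      obtain ⟨r, s, e⟩ := K.ex p.1.2 _ w (p.2 ▸ tri2 F q) (p.2 ▸ nbi q (n := 4) rfl B 0 1 2 (by decide))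
        (nbi q (n := 4) rfl B 0 1 3 (by decide))
      exact ⟨⟨(y, r), e⟩, ⟨k, s⟩, rfl⟩)
    (fun p q q' k k' e => Subtype.ext (Prod.ext e (K.uniq k.2 k'.2 (by rw [q.2, q'.2, show q.1.1 = q'.1.1 from e]))))
    (fun p q r k k' m => by
      have t := cqx h (l := [p.1.1.1, q.1.1.1, r.1.1.1]) (by simpa using ⟨p.1.1.2, q.1.1.2, r.1.1.2⟩) (by simpa using ⟨⟨k.1, k'.1⟩, m⟩)
      obtain ⟨w, B⟩ := F.b5 _ t (by simp)
      exact ⟨m, K.tri w k.2 k'.2 (q.2 ▸ r.2 ▸ tri2 F (cqi t (n := 5) rfl [0, 1, 3, 4] (by decide)))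
        (p.2 ▸ nbi t (n := 5) rfl B 0 1 2 (by decide)) (q.2 ▸ nbi t (n := 5) rfl B 0 1 3 (by decide))
        (r.2 ▸ nbi t (n := 5) rfl B 0 1 4 (by decide))⟩)
    (fun x y k => let ⟨w, m, k⟩ := G.d2 _ _ x.2 y.2 k; ⟨⟨w, m⟩, k⟩)
    (fun x y w w' n k k1 k2 k3 k4 n' k' =>
      let ⟨v, m, k⟩ := G.mu _ _ _ _ x.2 y.2 w.2 w'.2 (nc n k) (nc n' k') k1 k2 k3 k4; ⟨⟨v, m⟩, k⟩)
    (fun x y w k n n' k1 k2 => let ⟨v, m, k⟩ := G.pe _ _ _ x.2 y.2 w.2 k (nc n k1) (nc n' k2); ⟨⟨v, m⟩, k⟩) ⟨(⟨x, hx⟩, p₀), hp⟩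
  obtain ⟨s, hs⟩ : ∃ s : Mon → P, ∀ d h, s d = (σ ⟨d, h⟩).1.2 :=
    ⟨fun d => if h : X0 E a b d then (σ ⟨d, h⟩).1.2 else p₀, fun d h => dif_pos h⟩
  have s1 : ∀ d, X0 E a b d → pr (s d) = a * (b * d) := fun d h => by rw [hs d h, (σ _).2, show (σ _).1.1 = _ from h1 _]
  have s2 : ∀ d d', X0 E a b d → X0 E a b d' → Dm d d' → sp (s d) (s d') := fun d d' h h' k => by
    rw [hs d h, hs d' h']; exact (h2 ⟨d, h⟩ ⟨d', h'⟩ k).2
  refine ⟨s, s1, s2, fun γ m d hd e d' hd' => ?_⟩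
  have st : ∀ d d', X0 E a b d → X0 E a b d' → Dm d d' → γ • s d = s (φ γ * d * (φ γ)⁻¹) → γ • s d' = s (φ γ * d' * (φ γ)⁻¹) :=
    fun d d' h h' k e => K.uniq (e ▸ K.smul γ (s2 d d' h h' k)) (s2 _ _ (x0_cj F m h) (x0_cj F m h') (k.cj _)) (by
      rw [K.eqv, s1 _ h', s1 _ (x0_cj F m h'), cj3, cen_cj.2 m.2.1, cen_cj.2 m.2.2])
  by_cases k : Dm d d'
  · exact st d d' hd hd' k e
  obtain ⟨w, m, k, k'⟩ := G.d2 _ _ hd hd' k
  exact st _ _ m hd' k'.symm (st _ _ hd m k e)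

theorem g1 : G1.{u} := fun Γ _ φ P _ pr sp E Nx g σ y ψ K F Y' S N hψ hy => by
  classical
  have Y : Y0 E g := ⟨Y'.tp, Y'.ne, Y'.cox⟩
  have ev : ∀ n ∈ Nx, n * g 5 * n⁻¹ = g 5 → n * g 10 * n⁻¹ = g 10 → ∀ d ∈ D9, ψ n • σ (g d) = σ (n * g d * n⁻¹) :=
    fun n a b c d hd => by
    have := (Y'.gf ((FF F φ (g 5) (g 10) σ).comap ψ) (fun i hi a b => by
      obtain ⟨c, d⟩ := (by decide : ∀ i < 13, i ≠ 4 → i ≠ 9 → H7.AM.ex i 5 ≠ 3 ∧ H7.AM.ex i 10 ≠ 3) i hi a b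
      refine ⟨?_, hy i (by omega) ▸ N.ev i hi a b⟩
      rw [hψ]
      exact ⟨F.mem _ (Y.tp i hi), mem_cent1.2 (cm_of Y.cox (by omega) (by decide) c).2,
        mem_cent1.2 (cm_of Y.cox (by omega) (by decide) d).2⟩) ⟨a, cen_cj.1 b, cen_cj.1 c⟩).2 _ (Y.x0 hd)
    rwa [hψ] at this
  obtain ⟨T, wd⟩ : ∃ T : Mon → Mon → Mon → P, ∀ n ∈ Nx, T (n * g 5 * n⁻¹) (n * g 10 * n⁻¹) (n * g 3 * n⁻¹) = ψ n • σ (g 3) := by
    refine ⟨fun a b c => if h : ∃ n ∈ Nx, n * g 5 * n⁻¹ = a ∧ n * g 10 * n⁻¹ = b ∧ n * g 3 * n⁻¹ = c then ψ h.choose • σ (g 3)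
      else σ (g 3), fun n hn => ?_⟩
    have h : ∃ m ∈ Nx, m * g 5 * m⁻¹ = n * g 5 * n⁻¹ ∧ m * g 10 * m⁻¹ = n * g 10 * n⁻¹ ∧ m * g 3 * m⁻¹ = n * g 3 * n⁻¹ :=
      ⟨n, hn, rfl, rfl, rfl⟩
    obtain ⟨hm, a, b, c⟩ := h.choose_spec
    have k : ∀ x, h.choose * x * h.choose⁻¹ = n * x * n⁻¹ → n⁻¹ * h.choose * x * (n⁻¹ * h.choose)⁻¹ = x := fun x e => by
      rw [mul_inv_rev, mul_assoc n⁻¹, ← mul_assoc, mul_assoc n⁻¹, e]; group
    have := ev _ (mul_mem (inv_mem hn) hm) (k _ a) (k _ b) 3 (by decide)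
    rw [k _ c, map_mul, map_inv, mul_smul, inv_smul_eq_iff] at this
    exact (dif_pos h).trans this
  have q : ∀ d ∈ D9, Cq E [g 5, g 10, g d] := fun d hd => cqx (Y.cq (L := [5, 10]) (by decide)) (by simpa using Y.x0 hd) (by simp)
  have q3 := q 3 (by decide)
  have eqv : ∀ n ∈ Nx, ∀ a b c, Cq E [a, b, c] → ψ n • T a b c = T (n * a * n⁻¹) (n * b * n⁻¹) (n * c * n⁻¹) := fun n hn a b c h => by
    obtain ⟨m, hm, rfl, rfl, rfl⟩ := tr3 F q3 h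
    rw [wd m hm, ← mul_smul, ← map_mul, ← wd _ (mul_mem hn hm)]; simp only [mul_assoc, mul_inv_rev]
  have t0 : ∀ d ∈ D9, T (g 5) (g 10) (g d) = σ (g d) := fun d hd => by
    obtain ⟨m, hm, a, b, c⟩ := tr3 F q3 (q d hd)
    have := wd m hm
    rwa [ev m hm a b 3 (by decide), a, b, c] at this
  have pm : ∀ v ∈ Nx, ψ v • σ (g 3) = σ (g 3) → ∀ n ∈ Nx, T (n * g 5 * n⁻¹) (n * g 10 * n⁻¹) (n * g 3 * n⁻¹) =
      T (n * (v * g 5 * v⁻¹) * n⁻¹) (n * (v * g 10 * v⁻¹) * n⁻¹) (n * (v * g 3 * v⁻¹) * n⁻¹) := fun v hv e n hn => by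
    have := wd _ (mul_mem hn hv)
    rw [map_mul, mul_smul, e, ← wd n hn] at this
    simpa only [mul_assoc, mul_inv_rev] using this.symm
  have mN : ∀ i j k, i < 13 ∧ j < 13 ∧ k < 13 → g i * (g j * g k) * g i ∈ Nx := fun i j k h =>
    mul_mem (mul_mem (F.mem _ (Y.tp _ h.1)) (mul_mem (F.mem _ (Y.tp _ h.2.1)) (F.mem _ (Y.tp _ h.2.2)))) (F.mem _ (Y.tp _ h.1))
  have fw : ∀ i j k m, i < 14 ∧ j < 14 ∧ k < 14 ∧ m < 14 ∧ H7.AM.ex i m ≠ 3 ∧ H7.AM.ex j m ≠ 3 ∧ H7.AM.ex k m ≠ 3 →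
      g i * (g j * g k) * g i * g m * (g i * (g j * g k) * g i)⁻¹ = g m := fun i j k m ⟨a, b, c, d, e, f, h⟩ =>
    mul_inv_eq_iff_eq_mul.2 (((cm_of Y.cox a d e).2.mul_left ((cm_of Y.cox b d f).2.mul_left (cm_of Y.cox c d h).2)).mul_left
      (cm_of Y.cox a d e).2).eq
  have yw : ∀ i j k, i < 14 ∧ j < 14 ∧ k < 14 → ψ (g i * (g j * g k) * g i) = y i * (y j * y k) * y i := fun i j k h => by
    rw [map_mul, map_mul, map_mul, hy i h.1, hy j h.2.1, hy k h.2.2]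
  have s13 : ∀ a b c, Cq E [a, b, c] → T a b c = T c b a := fun a b c h => by
    obtain ⟨n, hn, rfl, rfl, rfl⟩ := tr3 F q3 h
    have := pm _ (mN 4 3 5 (by decide)) (yw 4 3 5 (by decide) ▸ N.w1) n hn
    rwa [fw 4 3 5 10 (by decide), mul_inv_eq_iff_eq_mul.2 (show g 4 * (g 3 * g 5) * g 4 * g 5 = g 3 * (g 4 * (g 3 * g 5) * g 4) from Y.swap.sw.1),
      mul_inv_eq_iff_eq_mul.2 (show g 4 * (g 3 * g 5) * g 4 * g 3 = g 5 * (g 4 * (g 3 * g 5) * g 4) from Y.swap.sw.2)] at this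
  have s2 : ∀ a b c, Cq E [a, b, c] → T a b c = T a c b := fun a b c h => by
    obtain ⟨n, hn, rfl, rfl, rfl⟩ := tr3 F q3 h
    obtain ⟨k, hk, a, b, c⟩ := tr3 F (q 8 (by decide)) q3
    have e := ev k hk a b 8 (by decide)
    rw [c] at e
    have w : ∀ {W x x' z z'}, W * x * W⁻¹ = x' → k * x * k⁻¹ = z → k * x' * k⁻¹ = z' → k * W * k⁻¹ * z * (k * W * k⁻¹)⁻¹ = z' :=
      fun a b c => by rw [← b, ← c, ← a]; group
    have := pm _ (mul_mem (mul_mem hk (mN 9 8 10 (by decide))) (inv_mem hk)) (by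
      rw [← e, map_mul, map_mul, map_inv, mul_smul, mul_smul, inv_smul_smul, yw 9 8 10 (by decide), N.w2]) n hn
    rwa [w (fw 9 8 10 5 (by decide)) a a, w (mul_inv_eq_iff_eq_mul.2 Y.sw.1) b c, w (mul_inv_eq_iff_eq_mul.2 Y.sw.2) c b] at this
  refine ⟨T, ⟨fun a b c h => ?_, eqv, fun a b c h => ?_, s2, fun a b c d h => ?_⟩, t0 3 (by decide)⟩
  · obtain ⟨n, hn, rfl, rfl, rfl⟩ := tr3 F q3 h
    rw [wd n hn, K.eqv, hψ, S.pr _ (Y.x0 (by decide)), cj3]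
  · rw [s2 a b c h, s13 a c b (cqi h (n := 3) rfl [0, 2, 1] (by decide)), s2 b c a (cqi h (n := 3) rfl [1, 2, 0] (by decide))]
  · obtain ⟨n, hn, rfl, rfl, rfl, rfl⟩ : ∃ n ∈ Nx, n * g 5 * n⁻¹ = a ∧ n * g 10 * n⁻¹ = b ∧ n * g 3 * n⁻¹ = c ∧ n * g 0 * n⁻¹ = d := by
      simpa using F.tr _ _ (Y.cq (L := [5, 10, 3, 0]) (by decide)) h rfl (by simp)
    rw [← eqv n hn _ _ _ q3, ← eqv n hn _ _ _ (q 0 (by decide)), t0 3 (by decide), t0 0 (by decide)]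
    exact K.smul _ (S.sp _ _ (Y.x0 (by decide)) (Y.x0 (by decide)) (Y.dm (by decide)))

theorem g2 : G2.{u} := fun Γ _ φ P _ pr ad E Nx g ψ S V K F Y' hψ T hu => by
  have Y : Y0 E g := ⟨Y'.tp, Y'.ne, Y'.cox⟩
  obtain ⟨b, c, r, q, e, u1, u2⟩ := Y'.oc
  obtain ⟨w, B⟩ := F.o8 _ q rfl e
  have cq := cqi q (n := 8) rfl
  have nb : ∀ i j k, i < 8 ∧ j < 8 ∧ k < 8 ∧ i ≠ j ∧ i ≠ k ∧ j ≠ k → Nb w (pr (S ([g 5, b, c, g 10, g 3, g 1, g 7, r].getD i 1)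
      ([g 5, b, c, g 10, g 3, g 1, g 7, r].getD j 1) ([g 5, b, c, g 10, g 3, g 1, g 7, r].getD k 1))) := fun i j k h => by
    rw [T.pr _ _ _ (cq [i, j, k] (by simp; omega))]; exact nbi q rfl B i j k h
  obtain ⟨W, a0, eW⟩ := V.ex _ w (nb 0 3 4 (by decide)).symm
  have sh : ∀ {p q}, ad W p → Sp pr ad p q → Nb w (pr q) → ad W q := fun {p q} a s n => by
    obtain ⟨q', a', e⟩ := V.ex W _ (eW ▸ n)
    rwa [K.uniq s ⟨e ▸ s.1, W, a, a'⟩ e.symm]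
  replace a0 : ad W (S (g 5) (g 10) (g 3)) := V.symm a0
  have a1 : ad W (S (g 5) (g 10) b) := sh a0 (T.sp _ _ _ _ (cq [0, 3, 4, 1] (by decide))) (nb 0 3 1 (by decide))
  rw [T.s2 (g 5) (g 10) b (cq [0, 3, 1] (by decide))] at a1
  have a2 : ad W (S (g 5) b c) := sh a1 (T.sp _ _ _ _ (cq [0, 1, 3, 2] (by decide))) (nb 0 1 2 (by decide))
  rw [T.s1 (g 5) (g 10) (g 3) (cq [0, 3, 4] (by decide)), T.s2 (g 10) (g 5) (g 3) (cq [3, 0, 4] (by decide))] at a0 hu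
  have s3 : Sp pr ad (S (g 10) (g 3) (g 5)) (S (g 10) (g 3) (g 1)) := T.sp _ _ _ _ (cq [3, 4, 0, 5] (by decide))
  have a3 := sh a0 s3 (nb 3 4 5 (by decide))
  have q3 : Cq E [g 5, b, c] := cq [0, 1, 2] (by decide)
  have p2 := T.pr _ _ _ q3
  have p3 : pr (S (g 10) (g 3) (g 1)) = g 10 * (g 3 * g 1) := T.pr _ _ _ (cq [3, 4, 5] (by decide))
  have s4 : Sp pr ad (S (g 5) b c) (S (g 10) (g 3) (g 1)) := ⟨by
    have q2 : Cq E [r, g 7] := cq [7, 6] (by decide)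
    have : g 5 * (b * c) * (g 10 * (g 3 * g 1)) * (g 7 * r) = 1 := by simpa [mul_assoc] using e
    rw [p2, p3, eq_inv_of_mul_eq_one_left this, mul_inv_rev, inv_eq_of_mul_eq_one_right (F.sq r (q2.1 _ (by simp))),
      inv_eq_of_mul_eq_one_right (F.sq _ (q2.1 (g 7) (by simp)))]
    exact F.c2 _ _ q2, W, a2, a3⟩
  have f3 := K.fix hu s3 (by rw [hψ, p3]; simpa [PP] using Y.cen (a := [10, 3, 1]) (j := 13) (by decide) (by decide))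
  have f4 := K.fix f3 (K.symm s4) (by rwa [hψ, p2])
  let H := (MulAction.stabilizer Γ (S (g 5) b c)).comap ψ
  have mH : ∀ {n}, n ∈ H ↔ ψ n • S (g 5) b c = S (g 5) b c := Iff.rfl
  have h2 := F.core2 _ _ _ _ H q3 (fun n hn => by
    rw [mH, T.eqv n hn.1 _ _ _ q3, cen_cj.2 hn.2.1, cen_cj.2 hn.2.2.1, cen_cj.2 hn.2.2.2]) f4
    (mem_cent1.2 (cm_of Y.cox (by decide) (by decide) (by decide)).2) u1 u2
  have tc : ∀ {n x a a' : Mon}, n * a * n⁻¹ = a' → x ∈ C[a'] → n⁻¹ * x * n ∈ C[a] := fun {n x a a'} e h => by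
    rw [← e, ← cen_cj] at h
    rw [← cen_cj, ← mul_left_cancel_iff (a := n), ← mul_right_cancel_iff (a := n⁻¹), ← h]; group
  have ab : Commute (g 5) b := (dmi q3 (n := 3) rfl (i := 0) (j := 1) (by simp) (by simp) (by simp)).2
  have ac : Commute (g 5) c := (dmi q3 (n := 3) rfl (i := 0) (j := 2) (by simp) (by simp) (by simp)).2
  obtain ⟨n, hn, n1, n2, n3⟩ := tr3 F (a' := b) (b' := g 5) (c' := c) q3 (cq [1, 0, 2] (by decide))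
  have nH : n ∈ H := by rw [mH, T.eqv n hn _ _ _ q3, n1, n2, n3]; exact (T.s1 _ _ _ q3).symm
  have h1 := F.core1 _ _ _ H q3 (h2 ⟨mem_cent1.2 rfl, mem_cent1.2 ((Commute.refl _).mul_right (ab.mul_right ac))⟩) h2 fun x hx => by
    have := mul_mem (mul_mem nH (h2 ⟨tc n1 hx.1, tc (by rw [cj3, n1, n2, n3]; exact (ab.left_comm c).symm) hx.2⟩)) (inv_mem nH)
    simpa [mul_assoc] using this
  obtain ⟨m, hm, m1, m2, m3⟩ := tr3 F (a' := g 5) (b' := b) (c' := g 10) q3 (cq [0, 1, 3] (by decide))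
  have em : ψ m • S (g 5) b c = S (g 5) b (g 10) := by rw [T.eqv m hm _ _ _ q3, m1, m2, m3]
  refine ⟨_, _, T.sp _ _ _ _ (cq [0, 1, 2, 3] (by decide)), fun x hx => h1 (p2 ▸ hx), fun x hx => ?_⟩
  change ψ x • S (g 5) b (g 10) = S (g 5) b (g 10)
  have := mH.1 (h1 (tc (a := g 5 * (b * c)) (n := m) (by rw [← p2, ← hψ m, ← K.eqv, em]; rfl) hx))
  rwa [map_mul, map_mul, map_inv, mul_smul, mul_smul, inv_smul_eq_iff, em] at this

end H15.AM
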