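import Cfsg.Agent.H1.RC8
import Cfsg.Agent.H7.AM1

/-! Extensions of the Baby Monster by its module of degree 4371 split (S5590): vocabulary and pieces (notes/BX.md). -/

set_option autoImplicit false
set_option linter.unusedSectionVars false

namespace H15.BX
open Cfsg H15 H19 H0 H0.Mo H0.Y H1.RB H1.RC Subgroup Function Module
open H14.Mn (Mon zM)
open H7.AM (Nb Cq X0 Dm Ft Yn Ba)
open scoped commutatorElement Pointwise

universe u v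

noncomputable instance fintM : Fintype Mon := Fintype.ofFinite _

section
variable {F V : Type u} [Field F] [AddCommGroup V] [Module F V] {G : Type} [Group G] {X : Type v} [Group X] {Ω : Type}

/-- `H⁰ = 0` -/
def Z0 (T : Subgroup G) (ρ : G → End F V) : Prop := ∀ v, (∀ g ∈ T, ρ g v = v) → v = 0

/-- `H¹ = 0` -/
def Z1 (T : Subgroup G) (ρ : G → End F V) : Prop := ∀ c : G → V, c 1 = 0 →
  (∀ x ∈ T, ∀ y ∈ T, c (x * y) = c x + ρ x (c y)) → ∃ v, ∀ x ∈ T, c x = ρ x v - v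

/-- an extension of `T`, with an equivariant additive map `d` from its kernel to the module -/
structure Ex (κ : X →* G) (T : Subgroup G) (ρ : G → End F V) (d : X → V) : Prop where
  rp : Rp T ρ
  sur : ∀ g ∈ T, ∃ x, κ x = g
  add : ∀ a b, κ a = 1 → κ b = 1 → d (a * b) = d a + d b
  eqv : ∀ x a, κ x ∈ T → κ a = 1 → d (x * a * x⁻¹) = ρ (κ x) (d a)

structure Ey (κ : X →* G) (T : Subgroup G) (ρ : G → End F V) (d : X → V) : Prop extends Ex κ T ρ d where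
  ran : ∀ x, κ x ∈ T
  onto : ∀ v, ρ 1 v = v → ∃ a, κ a = 1 ∧ d a = v

/-- the extension splits over `T`: `d` extends to a crossed homomorphism -/
def Sp (κ : X →* G) (T : Subgroup G) (ρ : G → End F V) (d : X → V) : Prop := ∃ D : X → V,
  (∀ x y, κ x ∈ T → κ y ∈ T → D (x * y) = D x + ρ (κ x) (D y)) ∧ ∀ a, κ a = 1 → D a = d a

variable (V) in
/-- additive maps which vanish on `N` vanish on `M` -/
def Hm (M N : Subgroup G) : Prop := ∀ c : G → V, (∀ x ∈ M, ∀ y ∈ M, c (x * y) = c x + c y) → (∀ n ∈ N, c n = 0) →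
  ∀ x ∈ M, c x = 0

/-- stabilizers -/
def Sb (α : G →* Equiv.Perm Ω) (x : Ω) : Subgroup G := (MulAction.stabilizer (Equiv.Perm Ω) x).comap α

theorem mem_Sb {α : G →* Equiv.Perm Ω} {x : Ω} {g : G} : g ∈ Sb α x ↔ α g x = x := Iff.rfl

/-- an invariant graph on an orbit of `T` -/
structure Gm (α : G →* Equiv.Perm Ω) (T : Subgroup G) (O : Set Ω) (a : Ω → Ω → Prop) (x₀ : Ω) : Prop where
  x0 : x₀ ∈ O
  inv : ∀ g ∈ T, ∀ x ∈ O, α g x ∈ O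
  tr : ∀ x ∈ O, ∃ g ∈ T, α g x₀ = x
  mem : ∀ x y, a x y → x ∈ O
  symm : ∀ x y, a x y → a y x
  act : ∀ g ∈ T, ∀ x y, a x y → a (α g x) (α g y)

/-- the cohomology of the stabilizers of edges and triangles -/
structure Lc (α : G →* Equiv.Perm Ω) (T : Subgroup G) (a : Ω → Ω → Prop) (ρ : G → End F V) : Prop where
  z1 : ∀ x y, a x y → ∃ g ∈ T, Z0 (T ⊓ Sb α (α g x) ⊓ Sb α (α g y)) ρ ∧ Z1 (T ⊓ Sb α (α g x) ⊓ Sb α (α g y)) ρ
  z3 : ∀ x y w, a x y → a x w → a y w → ∃ g ∈ T, Z0 (T ⊓ Sb α (α g x) ⊓ Sb α (α g y) ⊓ Sb α (α g w)) ρ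

/-- diameter two, quadrangles and pentagons split into triangles (the hypotheses of `H7.AM.CL`) -/
structure Dg (O : Set Ω) (a : Ω → Ω → Prop) : Prop where
  irr : ∀ x, ¬ a x x
  d2 : ∀ x ∈ O, ∀ y ∈ O, ¬ a x y → ∃ w, a x w ∧ a y w
  mu : ∀ x y w w', x ≠ y → ¬ a x y → a x w → a y w → a x w' → a y w' → w ≠ w' → ¬ a w w' →
    ∃ v, a x v ∧ a y v ∧ a w v ∧ a w' v
  pe : ∀ x ∈ O, ∀ y w, a y w → x ≠ y → x ≠ w → ¬ a x y → ¬ a x w → ∃ v, a x v ∧ a y v ∧ a w v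

variable {P : Type v} [MulAction X P]

/-- a covering of the graph in which triangles lift -/
structure Cw (κ : X →* G) (d : X → V) (α : G →* Equiv.Perm Ω) (T : Subgroup G) (O : Set Ω) (a : Ω → Ω → Prop)
    (pr : P → Ω) (ad : P → P → Prop) : Prop where
  mem : ∀ p, pr p ∈ O
  eqv : ∀ (γ : X) p, pr (γ • p) = α (κ γ) (pr p)
  lift : ∀ p, ∀ g ∈ T, α g (pr p) = pr p → ∃ γ : X, κ γ = g ∧ γ • p = p
  inj : ∀ (γ : X) (p : P), κ γ = 1 → (γ • p = p ↔ d γ = 0)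
  onto : ∀ y ∈ O, ∃ p, pr p = y
  fib : ∀ p q, pr p = pr q → ∃ γ : X, κ γ = 1 ∧ γ • p = q
  smul : ∀ (γ : X) {p q}, ad p q → ad (γ • p) (γ • q)
  symm : ∀ {p q}, ad p q → ad q p
  nb : ∀ {p q}, ad p q → a (pr p) (pr q)
  ex : ∀ p y, a (pr p) y → ∃ q, ad p q ∧ pr q = y
  uniq : ∀ {p q q'}, ad p q → ad p q' → pr q = pr q' → q = q'
  tri : ∀ {p q r}, ad p q → ad p r → a (pr q) (pr r) → ad q r

/-! ### a small kit -/

variable {κ : X →* G} {S T : Subgroup G} {ρ : G → End F V} {d : X → V}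

theorem Z0.mono (h : Z0 S ρ) (l : S ≤ T) : Z0 T ρ := fun v e => h v fun g m => e g (l m)
theorem z1_bot : Z1 ⊥ ρ := fun c e _ => ⟨0, fun x m => by simp [mem_bot.1 m, e]⟩
theorem rp_mono (h : Rp T ρ) (l : S ≤ T) : Rp S ρ := fun x a y b => h x (l a) y (l b)
theorem Ex.mono (h : Ex κ T ρ d) (l : S ≤ T) : Ex κ S ρ d :=
  ⟨rp_mono h.rp l, fun g m => h.sur g (l m), h.add, fun x a m => h.eqv x a (l m)⟩
theorem Ex.one (h : Ex κ T ρ d) : d 1 = 0 := by simpa using h.add 1 1 (map_one κ) (map_one κ)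
theorem Ex.fix (h : Ex κ T ρ d) {a : X} (e : κ a = 1) : ρ 1 (d a) = d a := by simpa using (h.eqv 1 a (by simp) e).symm
theorem Sp.mono (h : Sp κ T ρ d) (l : S ≤ T) : Sp κ S ρ d := h.imp fun _ h => ⟨fun x y a b => h.1 x y (l a) (l b), h.2⟩
theorem Ex.bot (h : Ex κ T ρ d) : Sp κ ⊥ ρ d :=
  ⟨d, fun x y a b => by rw [mem_bot.1 a, h.fix (mem_bot.1 b), h.add x y (mem_bot.1 a) (mem_bot.1 b)], fun _ _ => rfl⟩
theorem hm_of {M N : Subgroup G} (h : M ≤ ⁅M, M⁆ ⊔ N) (l : N ≤ M) : Hm V M N := fun c a n x m => by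
  have o : c 1 = 0 := n 1 (one_mem _)
  have i : ∀ x ∈ M, c x⁻¹ = -c x := fun x m => eq_neg_of_add_eq_zero_left (by rw [← a _ (inv_mem m) x m, inv_mul_cancel, o])
  let K : Subgroup G := ⟨⟨⟨{x | x ∈ M ∧ c x = 0}, fun p q => ⟨mul_mem p.1 q.1, by rw [a _ p.1 _ q.1, p.2, q.2, add_zero]⟩⟩,
    one_mem _, o⟩, fun p => ⟨inv_mem p.1, by rw [i _ p.1, p.2, neg_zero]⟩⟩
  exact ((h.trans (sup_le (commutator_le.2 fun x p y q => ⟨mul_mem (mul_mem (mul_mem p q) (inv_mem p)) (inv_mem q), by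
    rw [commutatorElement_def, a _ (mul_mem (mul_mem p q) (inv_mem p)) _ (inv_mem q), a _ (mul_mem p q) _ (inv_mem p), a x p y q,
      i x p, i y q]; abel⟩) fun x m => ⟨l m, n x m⟩) : M ≤ K) m).2

end

/-! ### the graph on `2300` points -/

/-- the vectors `2 v + lU` -/
def Wv (w : Lam) : Prop := ∃ v ∈ Sh lU (-16), w = v + v + lU
def pm (w : Lam) : Set Lam := {w, -w}
def Pw : Set (Set Lam) := {X | ∃ w, Wv w ∧ X = pm w}
def aw (X Y : Set Lam) : Prop := ∃ w w', Wv w ∧ Wv w' ∧ X = pm w ∧ Y = pm w' ∧ dotInt (cf w) (cf w') = -32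
noncomputable abbrev αC : Co0 →* Equiv.Perm (Set Lam) := MulAction.toPermHom Co0 (Set Lam)
/-- `(-4, 4 | 8 ε)` -/
def xv (c : GolayPt) (ε : ℤ) : Lam := ε • e8 c 1 - lU'

/-! ### the collinearity graph of the Baby Monster -/

noncomputable def αM : Mon →* Equiv.Perm Mon := (MulAut.toPerm Mon).comp MulAut.conj
theorem αM_ap (g x : Mon) : αM g x = g * x * g⁻¹ := rfl
theorem Sb_M (x : Mon) : Sb αM x = C[x] := Subgroup.ext fun _ => mul_inv_eq_iff_eq_mul.trans mem_cent1.symm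
def Dt (t : Mon) : Set Mon := {z | IsConj zM z ∧ t ∈ Qo z}
def Nt (t w y : Mon) : Prop := Nb w y ∧ t ∈ Qo w ∧ t ∈ Qo y

/-- symplectic pairs over `Dt t` (compare `H7.AM.Sk`) -/
structure Sk {Γ P : Type v} [Group Γ] [MulAction Γ P] (t : Mon) (φ : Γ →* Mon) (pr : P → Mon) (sp : P → P → Prop) : Prop where
  eqv : ∀ (γ : Γ) p, pr (γ • p) = φ γ * pr p * (φ γ)⁻¹
  lift : ∀ p, ∀ g ∈ C[t], g ∈ C[pr p] → ∃ γ : Γ, φ γ = g ∧ γ • p = p
  inj : ∀ (γ : Γ) (p : P), γ • p = p → φ γ = 1 → γ = 1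
  onto : ∀ y ∈ Dt t, ∃ p, pr p = y
  smul : ∀ (γ : Γ) {p q}, sp p q → sp (γ • p) (γ • q)
  symm : ∀ {p q}, sp p q → sp q p
  ex : ∀ p y w, A2 zM (pr p * y) → Nt t w (pr p) → Nt t w y → ∃ q, sp p q ∧ pr q = y
  uniq : ∀ {p q q'}, sp p q → sp p q' → pr q = pr q' → q = q'
  tri : ∀ {p q r} (w), sp p q → sp p r → A2 zM (pr q * pr r) → Nt t w (pr p) → Nt t w (pr q) → Nt t w (pr r) → sp q r

/-! ### the pieces -/

section
variable (F V : Type u) [Field F] [NeZero (2 : F)] [AddCommGroup V] [Module F V] [FiniteDimensional F V]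

/-- Gaschütz -/
def K1 : Prop := ∀ (G : Type) [Group G] (X : Type v) [Group X] (κ : X →* G) (S T : Subgroup G) (ρ : G → End F V) (d : X → V),
  Ex κ T ρ d → S ≤ T → (S.relIndex T : F) ≠ 0 → Sp κ S ρ d → Sp κ T ρ d

def K2 : Prop := ∀ (G : Type) [Group G] (S T : Subgroup G) (ρ : G → End F V),
  Rp T ρ → S ≤ T → (S.relIndex T : F) ≠ 0 → Z1 S ρ → Z1 T ρ

/-- reduction to the fixed points of a normal subgroup -/
def K3 : Prop := ∀ (G : Type) [Group G] (X : Type v) [Group X] (κ : X →* G) (N T : Subgroup G) (ρ : G → End F V) (d : X → V),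
  Ex κ T ρ d → N ≤ T → T ≤ N(N) → (#N : F) ≠ 0 → (∀ d', Ex κ T ρ d' → (∀ a, κ a = 1 → ∀ n ∈ N, ρ n (d' a) = d' a) →
    (∀ a, κ a = 1 → (∀ n ∈ N, ρ n (d a) = d a) → d' a = d a) → Sp κ T ρ d') → Sp κ T ρ d

def K6 : Prop := ∀ (G : Type) [Group G] (N M : Subgroup G) (ρ : G → End F V), Rp M ρ → N ≤ M → M ≤ N(N) → (#N : F) ≠ 0 →
  (∀ v, (∀ n ∈ N, ρ n v = v) → ∀ m ∈ M, ρ m v = v) → Hm V M N → Z1 M ρ

/-- central extensions, cyclic Sylow subgroups -/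
def K7 : Prop := ∀ (G : Type) [Group G] (X : Type v) [Group X] (κ : X →* G) (N M : Subgroup G) (ρ : G → End F V) (d : X → V),
  Ex κ M ρ d → N ≤ M → (#N : F) ≠ 0 → M ≤ ⁅M, M⁆ ⊔ N → Finite M → ¬ ringChar F ^ 2 ∣ #M →
  (∀ a, κ a = 1 → ∀ m ∈ M, ρ m (d a) = d a) → Sp κ M ρ d

def GC : Prop := ∀ (G : Type) [Group G] (X : Type v) [Group X] (Ω : Type) (κ : X →* G) (T : Subgroup G) (ρ : G → End F V)
  (d : X → V) (α : G →* Equiv.Perm Ω) (O : Set Ω) (a : Ω → Ω → Prop) (x₀ : Ω), Ey κ T ρ d → Gm α T O a x₀ → Lc α T a ρ →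
  Sp κ (T ⊓ Sb α x₀) ρ d → ∃ (P : Type v) (_ : MulAction X P) (pr : P → Ω) (ad : P → P → Prop), Cw κ d α T O a pr ad

def CO : Prop := ∀ (G : Type) [Group G] (X : Type v) [Group X] (Ω : Type) (κ : X →* G) (T : Subgroup G) (ρ : G → End F V)
  (d : X → V) (α : G →* Equiv.Perm Ω) (O : Set Ω) (a : Ω → Ω → Prop) (x₀ : Ω) (P : Type v) [MulAction X P] (pr : P → Ω)
  (ad : P → P → Prop), Ey κ T ρ d → Gm α T O a x₀ → Dg O a → Cw κ d α T O a pr ad → Sp κ T ρ d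

/-- the monomial group acts as on the natural module: fixed vectors -/
def NC : Prop := ∀ (π : Co0 → End F V) (T : GolayPt → End F V), C2 π T → ∀ v, π 1 v = v → ∀ g ∈ Hb,
  (∀ j, j ≠ pa → j ≠ pb → g • e8 j 1 = e8 j 1 ∨ ∃ h ∈ Hb, π h v = v ∧ h • e8 j 1 = -e8 j 1) →
  (g • lU' = lU' ∨ ∃ h ∈ Hb, π h v = v ∧ h • lU' = -lU') → π g v = v

def NZ : Prop := ∀ (π : Co0 → End F V) (T : GolayPt → End F V), C2 π T → ∀ v, π 1 v = v →
  (∀ j, j ≠ pa → j ≠ pb → ∃ h ∈ Hb, π h v = v ∧ h • e8 j 1 = -e8 j 1) → (∃ h ∈ Hb, π h v = v ∧ h • lU' = -lU') → v = 0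

def LC : Prop := ∀ (π : Co0 → End F V) (T : GolayPt → End F V), C2 π T → ringChar F = 5 ∨ ringChar F = 23 → Lc αC sCo2 aw π

def HB : Prop := ∀ (X : Type v) [Group X] (κ : X →* Co0) (π : Co0 → End F V) (T : GolayPt → End F V) (d : X → V),
  (3 : F) ≠ 0 → C2 π T → Ex κ Hb π d → Sp κ Hb π d

/-- `H²(Co₂, 23) = 0` -/
def SC : Prop := ∀ (X : Type v) [Group X] (κ : X →* Co0) (π : Co0 → End F V) (T : GolayPt → End F V) (d : X → V),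
  (3 : F) ≠ 0 → C2 π T → Ey κ sCo2 π d → Sp κ sCo2 π d

def S1 : Prop := ∀ (X : Type v) [Group X] (κ : X →* Mon) (ρ : Mon → End F V) (d : X → V) (z s t : Mon) (Q Q' : Subgroup Mon)
  (f : C[z] →* Spor.Co1) (R : Mon → Lam → Prop), (3 : F) ≠ 0 → St Q Q' z s t f R → Rr t ρ → ρ z ≠ 1 → ρ s ≠ 1 →
  finrank F V ≤ 4371 → Ey κ C[t] ρ d → Sp κ (C[t] ⊓ C[z]) ρ d

def LB : Prop := ∀ (ρ : Mon → End F V) (t : Mon), A2 zM t → Rr t ρ → (∀ z ∈ Dt t, ρ z ≠ 1) → finrank F V ≤ 4371 →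
  Lc αM C[t] (Nt t) ρ

end

/-- the signs off `pa`, `pb` -/
def PH : Prop := Hb ≤ N(EE ⊓ H0) ∧ #(EE ⊓ H0 : Subgroup Co0) = 1024 ∧
  H0 ≤ ⁅H0, H0⁆ ⊔ EE ⊓ H0 ∧ (H0 : Subgroup Co0).relIndex Hb = 2

def GA : Prop := (∀ c, c ≠ pa → c ≠ pb → Gm αC sCo2 Pw aw (pm (xv c 1)) ∧ (Sb αC (pm (xv c 1))).relIndex sCo2 = 2300) ∧
  (∀ X Y, aw X Y → ∃ g ∈ sCo2, ∃ c, c ≠ pa ∧ c ≠ pb ∧ αC g X = pm (xv c 1) ∧ αC g Y = pm (xv c (-1))) ∧
  ∀ c, c ≠ pa → c ≠ pb → ∀ Z, aw (pm (xv c 1)) Z → aw (pm (xv c (-1))) Z →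
    (∃ i ε, i ≠ pa ∧ i ≠ pb ∧ i ≠ c ∧ (ε = 1 ∨ ε = -1) ∧ Z = pm (xv i ε)) ∨
    ∃ o ∈ octads, pa ∈ o ∧ pb ∈ o ∧ c ∈ o ∧ ∃ w, Z = pm w ∧ ∀ i, if i ∈ o ∧ i ≠ pa ∧ i ≠ pb then cf w i = 4 ∨ cf w i = -4
      else cf w i = 0

def GD : Prop := Dg Pw aw

def GM : Prop := ∀ t z, A2 zM t → z ∈ Dt t → Gm αM C[t] (Dt t) (Nt t) z

def NR : Prop := ∀ t z s, A2 zM t → Nt t z s → ∃ f R, St (Qo z) (Qo s) z s t f R

def SK : Prop := ∀ (V : Type u) [AddCommGroup V] (X : Type v) [Group X] (κ : X →* Mon) (d : X → V) (t : Mon) (P : Type v)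
  [MulAction X P] (pr : P → Mon) (ad : P → P → Prop), A2 zM t → (∀ a, κ a = 1 → d a = 0 → a = 1) →
  Cw κ d αM C[t] (Dt t) (Nt t) pr ad → ∃ sp, Sk t κ pr sp

end H15.BX
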