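import Cfsg.Agent.H15.BX0
import Cfsg.Agent.H15.AM2

/-! S5590: lifting the nodes of the `Y₄₃₃` diagram. -/

set_option autoImplicit false
set_option linter.unusedSectionVars false
set_option linter.unusedVariables false
set_option synthInstance.maxSize 2000
set_option synthInstance.maxHeartbeats 200000
set_option maxRecDepth 4000

namespace H15.BX
open Cfsg H15 H19 H0 H0.Mo H0.Y Subgroup Function
open H14.Mn (Mon zM)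
open H7.AM (Nb Cq X0 Dm Ft Yn Ba Sec cm_of)
open H15.AM

universe v

local notation "εx" => H7.AM.ex

/-- a transposition lies in the extraspecial group of a triad through it -/
def C3 (E : Set Mon) : Prop := ∀ a b c, Cq E [a, b, c] → a ∈ Qo (a * (b * c))

section
variable {E : Set Mon} {Nx : Subgroup Mon} {a b c d w t : Mon} {l : List Mon}

theorem tw (F : Ft E Nx) (h : Cq E [a, b, c, d]) (h1 : Nb w (a * (b * c))) (h2 : Nb w (a * (b * d))) (h3 : Nb w (a * (c * d))) :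
    a ∈ Qo w := by
  have m := mul_mem (mul_mem h1.2.2.1 h2.2.2.1) h3.2.2.1
  have cm := fun i j (e : i < 4 ∧ j < 4 ∧ i ≠ j) => (dmi h (n := 4) rfl e.1 e.2.1 e.2.2).2
  have ab : Commute a b := cm 0 1 (by decide)
  have ac : Commute a c := cm 0 2 (by decide)
  have ad : Commute a d := cm 0 3 (by decide)
  have bc : Commute b c := cm 1 2 (by decide)
  have cd : Commute c d := cm 2 3 (by decide)
  have s := fun x m => F.sq x (h.1 x m)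
  rwa [(ab.mul_right ac).eq, mul_assoc (b * c), ← mul_assoc a a, s a (by simp), one_mul, bc.eq, mul_assoc c, ← mul_assoc b,
    s b (by simp), one_mul, ← (ac.mul_right ad).left_comm, mul_assoc c, ← cd.left_comm, ← mul_assoc c, s c (by simp), one_mul,
    s d (by simp), mul_one] at m

theorem nti {n : ℕ} (F : Ft E Nx) (c3 : C3 E) (h : Cq E (a :: l)) (hn : (a :: l).length = n) (h4 : 4 ≤ n) (B : Ba w (a :: l)) (j k : ℕ)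
    (hI : j < n ∧ k < n ∧ 0 ≠ j ∧ 0 ≠ k ∧ j ≠ k) : Nt a w (a * ((a :: l).getD j 1 * (a :: l).getD k 1)) :=
  ⟨nbi h hn B 0 j k ⟨by omega, hI⟩, tw F (cqi h hn [0, 1, 2, 3] ⟨by decide, by simp; omega⟩) (nbi h hn B 0 1 2 (by omega))
    (nbi h hn B 0 1 3 (by omega)) (nbi h hn B 0 2 3 (by omega)), c3 _ _ _ (cqi h hn [0, j, k] ⟨by simp; omega, by simp; omega⟩)⟩

variable {Γ P : Type v} [Group Γ] [MulAction Γ P] {φ : Γ →* Mon} {pr : P → Mon} {sp : P → P → Prop} {p q r : P} {γ δ : Γ}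

theorem Sk.fix (K : Sk t φ pr sp) (h : γ • p = p) (s : sp p q) (c : φ γ ∈ C[pr q]) : γ • q = q :=
  K.uniq (h ▸ K.smul γ s) s (by rw [K.eqv, mem_cent1.1 c, mul_inv_cancel_right])

theorem Sk.rel (K : Sk t φ pr sp) (h : γ • p = p) (h' : δ • p = p) (e : φ γ = φ δ) : γ = δ :=
  mul_inv_eq_one.1 (K.inj _ p (by rw [mul_smul, inv_smul_eq_iff.2 h'.symm, h]) (by rw [map_mul, map_inv, e, mul_inv_cancel]))

theorem sg (cl : H7.AM.CL.{v}) (K : Sk a φ pr sp) (F : Ft E Nx) (c3 : C3 E) (h : Cq E [a, b]) : ∃ σ, Sec φ pr sp E Nx a b σ := by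
  classical
  have G := F.gr a b h
  obtain ⟨x, hx⟩ := G.ex
  have q3 := cqx h (l := [x]) (by simpa) (by simp)
  obtain ⟨w, B⟩ := F.b5 _ q3 (by simp)
  obtain ⟨p₀, hp⟩ := K.onto _ ⟨(nbi q3 (n := 3) rfl B 0 1 2 (by decide)).2.1, c3 _ _ _ q3⟩
  have nc : ∀ {x y : {d // X0 E a b d}}, x ≠ y → ¬ Dm x.1 y.1 → ¬ Commute x.1 y.1 := fun n k c => k ⟨fun e => n (Subtype.ext e.symm), c⟩
  obtain ⟨σ, h1, -, h2⟩ := cl {d // X0 E a b d} {v : {d // X0 E a b d} × P // pr v.2 = a * (b * v.1.1)} (fun x y => Dm x.1 y.1)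
    (fun v => v.1.1) (fun v w => Dm v.1.1.1 w.1.1.1 ∧ sp v.1.2 w.1.2) (fun _ _ => H7.AM.Dm.symm) (fun _ k => k.1 rfl)
    (fun _ _ k => ⟨k.1.symm, K.symm k.2⟩) (fun _ _ k => k.1)
    (fun p y k => by
      have q := cqx h (l := [p.1.1.1, y.1]) (by simpa using ⟨p.1.1.2, y.2⟩) (by simpa using k)
      obtain ⟨w, B⟩ := F.b5 _ q (by simp)
      obtain ⟨r, s, e⟩ := K.ex p.1.2 _ w (p.2 ▸ tri2 F q) (p.2 ▸ nti F c3 q (n := 4) rfl le_rfl B 1 2 (by decide))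
        (nti F c3 q (n := 4) rfl le_rfl B 1 3 (by decide))
      exact ⟨⟨(y, r), e⟩, ⟨k, s⟩, rfl⟩)
    (fun p q q' k k' e => Subtype.ext (Prod.ext e (K.uniq k.2 k'.2 (by rw [q.2, q'.2, show q.1.1 = q'.1.1 from e]))))
    (fun p q r k k' m => by
      have t := cqx h (l := [p.1.1.1, q.1.1.1, r.1.1.1]) (by simpa using ⟨p.1.1.2, q.1.1.2, r.1.1.2⟩) (by simpa using ⟨⟨k.1, k'.1⟩, m⟩)
      obtain ⟨w, B⟩ := F.b5 _ t (by simp)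
      exact ⟨m, K.tri w k.2 k'.2 (q.2 ▸ r.2 ▸ tri2 F (cqi t (n := 5) rfl [0, 1, 3, 4] (by decide)))
        (p.2 ▸ nti F c3 t (n := 5) rfl (by decide) B 1 2 (by decide)) (q.2 ▸ nti F c3 t (n := 5) rfl (by decide) B 1 3 (by decide))
        (r.2 ▸ nti F c3 t (n := 5) rfl (by decide) B 1 4 (by decide))⟩)
    (fun x y k => let ⟨w, m, k⟩ := G.d2 _ _ x.2 y.2 k; ⟨⟨w, m⟩, k⟩)
    (fun x y w w' n k k1 k2 k3 k4 n' k' =>
      let ⟨v, m, k⟩ := G.mu _ _ _ _ x.2 y.2 w.2 w'.2 (nc n k) (nc n' k') k1 k2 k3 k4; ⟨⟨v, m⟩, k⟩)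
    (fun x y w k n n' k1 k2 => let ⟨v, m, k⟩ := G.pe _ _ _ x.2 y.2 w.2 k (nc n k1) (nc n' k2); ⟨⟨v, m⟩, k⟩) ⟨(⟨x, hx⟩, p₀), hp⟩
  obtain ⟨s, hs⟩ : ∃ s : Mon → P, ∀ d h, s d = (σ ⟨d, h⟩).1.2 :=
    ⟨fun d => if h : X0 E a b d then (σ ⟨d, h⟩).1.2 else p₀, fun d h => dif_pos h⟩
  have s1 : ∀ d, X0 E a b d → pr (s d) = a * (b * d) := fun d h => by rw [hs d h, (σ _).2, show (σ _).1.1 = _ from h1 _]
  have s2 : ∀ d d', X0 E a b d → X0 E a b d' → Dm d d' → sp (s d) (s d') := fun d d' h h' k => by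
    rw [hs d h, hs d' h']; exact (h2 ⟨d, h⟩ ⟨d', h'⟩ k).2
  refine ⟨s, s1, s2, fun γ m d hd e d' hd' => ?_⟩
  have st : ∀ d d', X0 E a b d → X0 E a b d' → Dm d d' → γ • s d = s (φ γ * d * (φ γ)⁻¹) → γ • s d' = s (φ γ * d' * (φ γ)⁻¹) :=
    fun d d' h h' k e => K.uniq (e ▸ K.smul γ (s2 d d' h h' k)) (s2 _ _ (x0_cj F m h) (x0_cj F m h') (k.cj _)) (by
      rw [K.eqv, s1 _ h', s1 _ (x0_cj F m h'), cj3, cen_cj.2 m.2.1, cen_cj.2 m.2.2])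
  by_cases k : Dm d d'
  · exact st d d' hd hd' k e
  obtain ⟨w, m, k, k'⟩ := G.d2 _ _ hd hd' k
  exact st _ _ m hd' k'.symm (st _ _ hd m k e)

end

/-- a triad through the node `5` -/
def t5 (L a : List ℕ) : Prop := tz L a ∧ cl a ∧ a = [5, a.getD 1 0, a.getD 2 0]
/-- a clique with at least four nodes, `5` first -/
def l5 (L : List ℕ) : Prop := cl L ∧ cl [5, L.getD 1 0, L.getD 2 0, L.getD 3 0] ∧ tz L [5, L.getD 1 0, L.getD 2 0] ∧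
  tz L [5, L.getD 1 0, L.getD 3 0] ∧ tz L [5, L.getD 2 0, L.getD 3 0]
instance (l a : List ℕ) : Decidable (t5 l a) := by unfold t5; infer_instance
instance (l : List ℕ) : Decidable (l5 l) := by unfold l5; infer_instance

/-- the relations of `Y₄₃₃` beyond the Coxeter relations -/
structure Xb {G : Type*} [Group G] (y : ℕ → G) : Prop where
  r1 : (y 0 * y 6 * y 7 * y 0 * y 1 * y 2 * y 0 * y 11 * y 12) ^ 10 = 1
  r2 : (y 0 * y 6 * y 7 * y 1 * y 2 * y 3 * y 11) ^ 9 = y 5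
  r3 : (y 0 * y 6 * y 7 * y 1 * y 11 * y 12 * y 13) ^ 9 = 1

section
variable {E : Set Mon} {Nx : Subgroup Mon} {g : ℕ → Mon} (Y : Y0 E g) {L a b c : List ℕ} {i j : ℕ}
  {Γ P : Type v} [Group Γ] [MulAction Γ P] {φ : Γ →* Mon} {pr : P → Mon} {sp : P → P → Prop}
  (K : Sk (g 5) φ pr sp) (F : Ft E Nx) (c3 : C3 E) {p q r : P} {γ δ : Γ}
include Y

include F c3 in
theorem nt {w : Mon} (h : l5 L) (B : Ba w (L.map g)) (t : t5 L a) : Nt (g 5) w (PP g a) :=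
  ⟨Y.nb h.1 B t.1, tw F (Y.cq ⟨h.2.1.1, h.2.1.2.1, h.2.1.2.2.1⟩) (by simpa [PP] using Y.nb h.1 B h.2.2.1)
    (by simpa [PP] using Y.nb h.1 B h.2.2.2.1) (by simpa [PP] using Y.nb h.1 B h.2.2.2.2), by
    have := Y.cq ⟨t.2.1.1, t.2.1.2.1, t.2.1.2.2.1⟩
    rw [t.2.2] at this ⊢
    simpa [PP] using c3 _ _ _ this⟩

include K

theorem fx (e : φ γ = g j) (h : γ • p = p) (s : sp p q) (hq : pr q = PP g a) (c : j < 14 ∧ ∀ i ∈ a, i < 14 ∧ εx j i ≠ 3) :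
    γ • q = q := K.fix h s (by rw [e, hq]; exact Y.cen c.2 c.1)

theorem cx (hi : i < 14) (hj : j < 14) (e : φ γ = g i) (e' : φ δ = g j) (h : ∃ p : P, γ • p = p ∧ δ • p = p) :
    (γ * δ) ^ εx i j = 1 :=
  let ⟨p, h1, h2⟩ := h
  K.inj _ p (MulAction.mem_stabilizer_iff.1 (pow_mem ((MulAction.stabilizer Γ p).mul_mem h1 h2) _))
    (by rw [map_pow, map_mul, e, e', Y.cox i hi j hj])

include F c3

theorem st (L b : List ℕ) (hp : pr p = PP g a) (h : l5 L ∧ t5 L a ∧ t5 L b ∧ a2 L a b) : ∃ q, sp p q ∧ pr q = PP g b := by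
  obtain ⟨w, B⟩ := F.b5 _ (Y.cq ⟨h.1.1.1, h.1.1.2.1, h.1.1.2.2.1⟩) (by simpa using h.1.1.2.2.2)
  exact K.ex p _ w (hp ▸ Y.aa F h.1.1 h.2.2.2) (hp ▸ nt Y F c3 h.1 B h.2.1) (nt Y F c3 h.1 B h.2.2.1)

theorem tr (L : List ℕ) (hp : pr p = PP g a) (hq : pr q = PP g b) (hr : pr r = PP g c) (s : sp p q) (s' : sp p r)
    (h : l5 L ∧ t5 L a ∧ t5 L b ∧ t5 L c ∧ a2 L b c) : sp q r := by
  obtain ⟨w, B⟩ := F.b5 _ (Y.cq ⟨h.1.1.1, h.1.1.2.1, h.1.1.2.2.1⟩) (by simpa using h.1.1.2.2.2)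
  exact K.tri w s s' (hq ▸ hr ▸ Y.aa F h.1.1 h.2.2.2.2) (hp ▸ nt Y F c3 h.1 B h.2.1) (hq ▸ nt Y F c3 h.1 B h.2.2.1)
    (hr ▸ nt Y F c3 h.1 B h.2.2.2.1)

/-- the node `9` -/
theorem arm {s : ℕ → P} {y : ℕ → Γ} (B : Bs φ pr sp g s y) : ∃ γ : Γ, φ γ = g 9 ∧
    ∀ j < 14, j ≠ 4 → j ≠ 9 → ∃ p : P, γ • p = p ∧ y j • p = p := by
  have p0 := B.pr 0 (by decide)
  have p3 := B.pr 3 (by decide)
  obtain ⟨B1, s1, q1⟩ := st Y K F c3 [5, 10, 3, 0] [5, 3, 0] p3 (by decide)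
  obtain ⟨B2, s2, q2⟩ := st Y K F c3 [5, 10, 3, 7] [5, 3, 7] p3 (by decide)
  obtain ⟨B3, s3, q3⟩ := st Y K F c3 [5, 10, 3, 11] [5, 3, 11] p3 (by decide)
  obtain ⟨B4, s4, q4⟩ := st Y K F c3 [5, 10, 0, 12] [5, 0, 12] p0 (by decide)
  have t12 := tr Y K F c3 [5, 10, 3, 0, 7] p3 q1 q2 s1 s2 (by decide)
  have t23 := tr Y K F c3 [5, 10, 3, 7, 11] p3 q2 q3 s2 s3 (by decide)
  have t01 := tr Y K F c3 [5, 10, 3, 0] p3 p0 q1 (B.sp 3 (by decide) 0 (by decide) (by decide)) s1 (by decide)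
  have t14 := tr Y K F c3 [5, 10, 0, 3, 12] p0 q1 q4 t01 s4 (by decide)
  obtain ⟨γ, e, f1⟩ := K.lift B1 (g 9) (mem_cent1.2 (cm_of Y.cox (by decide) (by decide) (by decide)).2)
    (q1 ▸ Y.cen (by decide) (by decide))
  have f2 := fx Y K e f1 t12 q2 (by decide)
  have f3 := fx Y K e f2 t23 q3 (by decide)
  have f4 := fx Y K e f1 t14 q4 (by decide)
  have h : ∀ {q a}, sp (s 3) q → pr q = PP g a → ∀ j, (j < 14 ∧ j ≠ 4 ∧ j ≠ 9 ∧ εx j 3 ≠ 3) ∧ (j < 14 ∧ ∀ i ∈ a, i < 14 ∧ εx j i ≠ 3) →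
      y j • q = q := fun t e j c => fx Y K (B.im j c.1.1 c.1.2.1 c.1.2.2.1) (B.fx j c.1.1 c.1.2.1 c.1.2.2.1 3 (by decide) c.1.2.2.2) t e c.2
  refine ⟨γ, e, fun j hj n4 n9 => ?_⟩
  rcases (by decide : ∀ j < 14, j ≠ 4 → j ≠ 9 → j = 2 ∨ ((j < 14 ∧ j ≠ 4 ∧ j ≠ 9 ∧ εx j 3 ≠ 3) ∧ (j < 14 ∧ ∀ i ∈ [5, 3, 0], i < 14 ∧ εx j i ≠ 3)) ∨
    ((j < 14 ∧ j ≠ 4 ∧ j ≠ 9 ∧ εx j 3 ≠ 3) ∧ (j < 14 ∧ ∀ i ∈ [5, 3, 7], i < 14 ∧ εx j i ≠ 3)) ∨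
    ((j < 14 ∧ j ≠ 4 ∧ j ≠ 9 ∧ εx j 3 ≠ 3) ∧ (j < 14 ∧ ∀ i ∈ [5, 3, 11], i < 14 ∧ εx j i ≠ 3))) j hj n4 n9 with rfl | c | c | c
  exacts [⟨B4, f4, fx Y K (B.im 2 hj n4 n9) (B.fx 2 hj n4 n9 0 (by decide) (by decide)) s4 q4 (by decide)⟩,
    ⟨B1, f1, h s1 q1 j c⟩, ⟨B2, f2, h s2 q2 j c⟩, ⟨B3, f3, h s3 q3 j c⟩]

theorem ndt (X : Xb g) {σ : Mon → P} (S : Sec φ pr sp E Nx (g 5) (g 10) σ) : ∃ y : ℕ → Γ, (∀ i < 14, i ≠ 4 → φ (y i) = g i) ∧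
    (∀ i < 14, ∀ j < 14, i ≠ 4 → j ≠ 4 → (y i * y j) ^ εx i j = 1) ∧ Xb y := by
  have pd : ∀ d ∈ D9, pr (σ (g d)) = PP g [5, 10, d] := fun d h => by simpa [PP] using S.pr _ (Y.x0 h)
  have sd : ∀ d ∈ D9, ∀ d' ∈ D9, cl [d, d'] → sp (σ (g d)) (σ (g d')) := fun d h d' h' c => S.sp _ _ (Y.x0 h) (Y.x0 h') (Y.dm c)
  have l : ∀ i, ∃ γ : Γ, i < 14 → i ≠ 4 → i ≠ 9 → φ γ = g i ∧ (i < 13 → γ ∈ FF F φ (g 5) (g 10) σ) ∧
      ∀ d ∈ D9, εx i d ≠ 3 → γ • σ (g d) = σ (g d) := fun i => by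
    by_cases h : i < 14 ∧ i ≠ 4 ∧ i ≠ 9
    swap
    · exact ⟨1, fun a b c => absurd ⟨a, b, c⟩ h⟩
    obtain ⟨d, hd, c, c'⟩ := (by decide : ∀ i < 14, i ≠ 4 → i ≠ 9 → ∃ d ∈ D9, (∀ j ∈ [5, 10, d], j < 14 ∧ εx i j ≠ 3) ∧
      (i = 13 → d = 0)) i h.1 h.2.1 h.2.2
    obtain ⟨γ, e, f⟩ := K.lift (σ (g d)) (g i) (mem_cent1.2 (cm_of Y.cox h.1 (by decide) (c 5 (by simp)).2).2)
      (pd d hd ▸ Y.cen c h.1)
    have cj : ∀ j < 14, εx i j ≠ 3 → φ γ * g j * (φ γ)⁻¹ = g j := fun j a b => by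
      rw [e, (cm_of Y.cox h.1 a b).2.eq, mul_inv_cancel_right]
    refine ⟨γ, fun _ _ _ => ⟨e, ?_⟩⟩
    by_cases h13 : i = 13
    · subst h13
      rw [c' rfl] at f
      have k : ∀ {d d'}, γ • σ (g d) = σ (g d) → d ∈ D9 ∧ d' ∈ D9 ∧ cl [d, d'] ∧ 13 < 14 ∧ (∀ i ∈ [5, 10, d'], i < 14 ∧ εx 13 i ≠ 3) →
        γ • σ (g d') = σ (g d') := fun f c => fx Y K e f (sd _ c.1 _ c.2.1 c.2.2.1) (pd _ c.2.1) c.2.2.2
      refine ⟨fun a => absurd a (by decide), fun d hd c => ?_⟩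
      rcases (by decide : ∀ d ∈ D9, εx 13 d ≠ 3 → d = 0 ∨
        (0 ∈ D9 ∧ d ∈ D9 ∧ cl [0, d] ∧ 13 < 14 ∧ (∀ i ∈ [5, 10, d], i < 14 ∧ εx 13 i ≠ 3)) ∨
        (3 ∈ D9 ∧ d ∈ D9 ∧ cl [3, d] ∧ 13 < 14 ∧ (∀ i ∈ [5, 10, d], i < 14 ∧ εx 13 i ≠ 3))) d hd c with rfl | c | c
      exacts [f, k f c, k (k f (by decide)) c]
    have m : φ γ ∈ Nx ⊓ (C[g 5] ⊓ C[g 10]) := ⟨e ▸ F.mem _ (Y.tp i (by omega)),
      mem_cent1.2 (mul_inv_eq_iff_eq_mul.1 (cj 5 (by decide) (c 5 (by simp)).2)),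
      mem_cent1.2 (mul_inv_eq_iff_eq_mul.1 (cj 10 (by decide) (c 10 (by simp)).2))⟩
    have v := S.rig γ m _ (Y.x0 hd) (by rw [cj d (c d (by simp)).1 (c d (by simp)).2, f])
    exact ⟨fun _ => ⟨m, v⟩, fun d hd c => by rw [v _ (Y.x0 hd), cj d ((by decide : ∀ d ∈ D9, d < 14) d hd) c]⟩
  choose y hy using l
  have B : Bs φ pr sp g (fun d => σ (g d)) y := ⟨pd, sd, fun i a b c => (hy i a b c).1, fun i a b c => (hy i a b c).2.2⟩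
  obtain ⟨y9, e9, c9⟩ := arm Y K F c3 B
  let y' : ℕ → Γ := fun i => if i = 9 then y9 else y i
  have ey : ∀ i, i ≠ 9 → y' i = y i := fun i b => if_neg b
  have im : ∀ i < 14, i ≠ 4 → φ (y' i) = g i := fun i hi a => by
    by_cases b : i = 9
    · exact b ▸ e9
    rw [ey i b, B.im i hi a b]
  have c9' : ∀ j < 14, j ≠ 4 → ∃ p : P, y9 • p = p ∧ y' j • p = p := fun j hj a => by
    by_cases b : j = 9
    · exact let ⟨p, h, _⟩ := c9 0 (by decide) (by decide) (by decide); ⟨p, h, b ▸ h⟩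
    exact ey j b ▸ c9 j hj a b
  have mF : ∀ i, i < 13 ∧ i ≠ 4 ∧ i ≠ 9 → y i ∈ FF F φ (g 5) (g 10) σ := fun i c => (hy i (by omega) c.2.1 c.2.2).2.1 c.1
  have inj : ∀ {a b : Γ}, a ∈ FF F φ (g 5) (g 10) σ → b ∈ FF F φ (g 5) (g 10) σ → φ a = φ b → a = b := fun {a b} ha hb e =>
    mul_inv_eq_one.1 (K.inj _ (σ (g 0)) (by
      rw [(mul_mem ha (inv_mem hb)).2 _ (Y.x0 (by decide)), map_mul, map_inv, e]; simp) (by simp [e]))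
  have i0 : ∀ i, i < 14 ∧ i ≠ 4 ∧ i ≠ 9 → φ (y i) = g i := fun i c => B.im i c.1 c.2.1 c.2.2
  have sb : ∀ d ∈ D9, ∀ i, i < 14 ∧ i ≠ 4 ∧ i ≠ 9 ∧ εx i d ≠ 3 → y i ∈ MulAction.stabilizer Γ (σ (g d)) :=
    fun d h i c => B.fx i c.1 c.2.1 c.2.2.1 d h c.2.2.2
  have X' : Xb y := by
    refine ⟨inj ?_ (one_mem _) ?_, inj ?_ (mF _ (by decide)) ?_,
      K.rel (p := σ (g 3)) (MulAction.mem_stabilizer_iff.1 ?_) (one_smul _ _) ?_⟩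
    any_goals
      simp (disch := decide) only [map_pow, map_mul, map_one, i0]
      first | exact X.r1 | exact X.r2 | exact X.r3
    all_goals
      refine pow_mem ?_ _
      repeat' apply mul_mem
    all_goals first | exact mF _ (by decide) | exact sb _ (by decide) _ (by decide)
  refine ⟨y', im, fun i hi j hj a a' => cx Y K hi hj (im i hi a) (im j hj a') ?_, ⟨X'.r1, X'.r2, X'.r3⟩⟩
  by_cases b : i = 9
  · exact b ▸ c9' j hj a'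
  by_cases b' : j = 9
  · exact b' ▸ (c9' i hi a).imp fun _ => And.symm
  obtain ⟨d, hd, c, c'⟩ := (by decide : ∀ i < 14, ∀ j < 14, ∃ d ∈ D9, εx i d ≠ 3 ∧ εx j d ≠ 3) i hi j hj
  exact ⟨_, ey i b ▸ B.fx i hi a b d hd c, ey j b' ▸ B.fx j hj a' b' d hd c'⟩

end

end H15.BX
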