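import Cfsg.Agent.H15.BX0
import Cfsg.Agent.H29.AM4

/-! S5590: the collinearity graph of the Baby Monster (pieces GM, NR, SK). -/

set_option autoImplicit false

namespace H15.BX
open Cfsg H15 H19 H0 H0.Mo H0.Y H15.ML H1.RB H1.RC Subgroup Function QuadraticMap
open H14.Mn (Mon zM)
open H7.AM (mgM Nb)
open H29.AM
open scoped commutatorElement

universe u v

theorem Nt.symm {t a b : Mon} (h : Nt t a b) : Nt t b a := ⟨nsymm h.1, h.2.2, h.2.1⟩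

theorem gm : GM := fun t z a hz => by
  have k : ∀ {g x}, g ∈ C[t] → t ∈ Qo x → t ∈ Qo (g * x * g⁻¹) := fun m h => cfix m ▸ Qo_conj h _
  refine ⟨hz, fun g m x hx => ⟨cjz hx.1 g, k m hx.2⟩, fun x hx => ?_, fun x y h => ⟨h.1.1, h.2.1⟩, fun x y => Nt.symm,
    fun g m x y h => ⟨ncj h.1 g, k m h.2.1, k m h.2.2⟩⟩
  obtain ⟨s, f, R, L, -, M, -⟩ := (mgM.conj hx.1).ex
  obtain ⟨c, e⟩ := isConj_iff.1 (hz.1.symm.trans hx.1)
  have a' := a.base hx.1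
  obtain ⟨k, r⟩ := M.typ2 L (e ▸ Qo_conj hz.2 c) (orderOf_inv2 (a'.cj c).2.1 (a'.cj c).1) (a'.cj c).2.2
  obtain ⟨k', r'⟩ := M.typ2 L hx.2 (orderOf_inv2 a.2.1 a.1) a'.2.2
  obtain ⟨h, h1, h2⟩ := M.conj_type r r' nz_U
  have cc : ∀ y, h * c * y * (h * c)⁻¹ = h * (c * y * c⁻¹) * h⁻¹ := fun _ => by group
  exact ⟨h * c, of_fix (by rw [cc, h2]), by rw [αM_ap, cc, e, cfix h1]⟩

theorem nr : NR := fun t z s a h => by
  obtain ⟨f', R', M'⟩ := (mgM.conj h.1.1).1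
  have L := nlp h.1
  obtain ⟨k, r'⟩ := M'.typ4 L
  have M1 := M'.twist k
  obtain ⟨i, j, n, H⟩ := H1.RB.cls M1 L r' ⟨h.2.1, h.2.2⟩ (a.base h.1.1)
  obtain ⟨w, a⟩ := M1.sur (vv i j)
  obtain ⟨v, b⟩ := M1.tot t h.2.1
  obtain ⟨σ, m, e1, e2⟩ := m24_trans2 (a := pa) (b := pb) (by decide) n
  obtain ⟨C, hC, c1, c2⟩ := exists_cw_two n False (¬ Cg v (vv i j))
  refine ⟨_, _, M1.twist (sgn hC * prmH ⟨σ, m⟩), L, M1.cg r' (stab_E.2 (mul_mem (mono_mem _ _) (prmH_mem _))).symm,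
    M1.cg b ?_⟩
  rw [mul_smul, U_vv, prm_vv, e1, e2, sgn_vv', if_neg c1.1]
  split_ifs with c
  · refine Cg.trans ?_ cg_vw.symm
    have := (((v4 M1 L r' (M1.mul b a)).1 (H w a)).resolve_left fun e => c2.1 c (Cg.add_zero.1 e)).add (Cg.refl (vv i j))
    exact Cg.trans ⟨-vv i j, by rw [two_nsmul]; abel⟩ (add_comm lE _ ▸ this)
  · exact not_not.1 (mt c2.2 c)

theorem polar_inr (i : Fin 5) (x : V10) : polar q10 (Pi.single (.inr i) 1) x = x (.inl i) := by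
  rw [H11.coe_qPlus, H11.polar_quadFormPlus]; simp [Pi.single_apply]

theorem sy {t a b w w' : Mon} (ht : A2 zM t) (ab : A2 zM (a * b)) (ta : Nt t w a) (tb : Nt t w b) (ta' : Nt t w' a)
    (tb' : Nt t w' b) : w = w' ∨ Nb w w' ∨ ∃ v, Nt t v a ∧ Nt t v b ∧ Nt t v w ∧ Nt t v w' := by
  have wa := ta.1
  have wb := tb.1
  have wa' := ta'.1
  have wb' := tb'.1
  have h := mgM
  have ca := wa.2.1
  have cb := wb.2.1
  have a2 := MX.sq h ca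
  have b2 := MX.sq h cb
  have cm : b * a = a * b := by
    rw [← ab.inv, mul_inv_rev, inv_eq_of_mul_eq_one_right a2, inv_eq_of_mul_eq_one_right b2]
  have nc : ¬ IsConj b (b * a) := fun c => ab.2.2 (cm ▸ cb.trans c)
  have nq : b ∉ Qo a := fun m => nc (MX.conj_mul' h ca m (MX.ne1 h cb) fun e => ab.2.1 (by rw [e, a2]))
  obtain ⟨s, f, R, L, -, M, r⟩ := h.ex
  obtain ⟨e, T⟩ := ten M L r
  obtain ⟨g, aE, bE⟩ := (MX.kd' _ _ s f R e T h a b ca (mem_cent1.2 cm) nq b2).resolve_right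
    fun ⟨_, _, _, _, _, _, _, k⟩ => nc k
  have A := MX.ar _ _ s f R e T h g
  generalize cj g T.E = E at A aE bE
  have l := H2.MX.la _ _ E h A
  have c := H2.MX.lc _ _ E h A l
  have bE' : b ∈ E := by
    by_contra n
    have hw := A.e3 a aE ca b bE nq b2
    obtain ⟨k, -, -, e⟩ := c.nd a aE ca 1 (one_mem _) b ⟨bE, hw⟩ (by simpa using n)
    exact nc (isConj_iff.2 ⟨k, by rw [cm, ← e, commutatorElement_def]; group⟩)
  have wE := c.e6' a aE b bE' ca cb nq ⟨(nsymm wa).2.2.1, (nsymm wb).2.2.1⟩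
  have wE' := c.e6' a aE b bE' ca cb nq ⟨(nsymm wa').2.2.1, (nsymm wb').2.2.1⟩
  have tE := c.e6' a aE b bE' ca cb nq ⟨ta.2.2, tb.2.2⟩
  obtain ⟨u, uE, cu, nu⟩ : ∃ u ∈ E, IsConj zM u ∧ t ∉ Qo u := by
    obtain ⟨e, p, rfl, p1, p2, -⟩ := A.co
    obtain ⟨y, -, rfl⟩ := tE
    obtain ⟨i, n⟩ : ∃ i : I10, polar q10 (Pi.single i 1) y ≠ 0 := by
      by_contra! k
      refine ht.2.1 ((congrArg e (funext fun i => ?_)).trans p.zero)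
      cases i
      exacts [polar_inr _ y ▸ k _, polar_inl _ y ▸ k _]
    have n0 : (Pi.single i 1 : V10) ≠ 0 := by simp
    exact ⟨_, p.mem _, (p1 _ n0).1 (q_single i), mt (p2 _ _ n0 (q_single i)).1 n⟩
  have cu' : IsConj zM (t * u) := not_not.1 (mt (l.hyp u uE cu t tE nu).2 ht.2.2)
  refine or_iff_not_imp_left.2 fun n => or_iff_not_imp_left.2 fun n' => ?_
  have nw : w' ∉ Qo w := fun m => n' ⟨wa.1, wa'.1, m, Ne.symm n⟩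
  have k : ∀ x ∈ E, IsConj zM x → ∀ A ≤ E, #A ≤ 2 * #(A ⊓ Qo x) := fun x m c A le => l.half x m c A (le_sup_of_le_right le)
  have k1 := k a aE ca E le_rfl
  have k2 := k b bE' cb (E ⊓ Qo a) inf_le_left
  have k3 := k w wE wa.1 (E ⊓ Qo a ⊓ Qo b) fun _ m => m.1.1
  have k4 := k w' wE' wa'.1 (E ⊓ Qo a ⊓ Qo b ⊓ Qo w) fun _ m => m.1.1.1
  have k5 := k u uE cu (E ⊓ Qo a ⊓ Qo b ⊓ Qo w ⊓ Qo w') fun _ m => m.1.1.1.1
  have k6 := k _ (mul_mem tE uE) cu' (E ⊓ Qo a ⊓ Qo b ⊓ Qo w ⊓ Qo w' ⊓ Qo u) fun _ m => m.1.1.1.1.1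
  have k0 := l.card
  obtain ⟨v, hv, v1, nv⟩ : ∃ v ∈ E ⊓ Qo a ⊓ Qo b ⊓ Qo w ⊓ Qo w' ⊓ Qo u ⊓ Qo (t * u), v ≠ 1 ∧ ¬ A2 zM v := by
    by_contra! p
    have := (MX.ta _ _ h).le _ cu' _ inf_le_right p
    omega
  obtain ⟨⟨hv, v2⟩, v3⟩ := hv
  have cv : IsConj zM v := by_contra fun k => nv ⟨l.ab v hv.1.1.1.1, v1, k⟩
  have tv : t ∈ Qo v := (Subgroup.mul_mem_cancel_right _ (MX.symm h cu cv v2)).1 (MX.symm h cu' cv v3)
  exact ⟨v, ⟨⟨cv, ca, MX.symm h ca cv hv.1.1.1.2, fun e => nq (MX.symm h cb ca (e ▸ hv.1.1.2))⟩, tv, ta.2.2⟩,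
    ⟨⟨cv, cb, MX.symm h cb cv hv.1.1.2, fun e => nq (e ▸ hv.1.1.1.2)⟩, tv, tb.2.2⟩,
    ⟨⟨cv, wa.1, MX.symm h wa.1 cv hv.1.2, fun e => nw (MX.symm h wa'.1 wa.1 (e ▸ hv.2))⟩, tv, ta.2.1⟩,
    ⟨⟨cv, wa'.1, MX.symm h wa'.1 cv hv.2, fun e => nw (e ▸ hv.1.2)⟩, tv, ta'.2.1⟩⟩

theorem sk : SK.{u, v} := by
  intro V _ Γ _ φ d t P _ pr ad ht i h
  have un : ∀ {p q q'}, H7.AM.Sp pr ad p q → H7.AM.Sp pr ad p q' → pr q = pr q' → q = q' := by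
    rintro p q q' ⟨a, w, wp, wq⟩ ⟨-, w', wp', wq'⟩ e
    rcases sy ht a (h.nb wp) (h.nb wq) (h.nb wp') (e ▸ h.nb wq') with k | k | ⟨v, va, vb, vw, vw'⟩
    · obtain rfl := h.uniq (h.symm wp) (h.symm wp') k
      exact h.uniq wq wq' e
    · exact h.uniq (h.tri (h.tri (h.symm wp) (h.symm wp') ⟨k, (h.mem _).2, (h.mem _).2⟩) wq (e ▸ h.nb wq')) wq' e
    · obtain ⟨v, pv, rfl⟩ := h.ex p v va.symm
      exact h.uniq (h.tri (h.symm (h.tri pv (h.symm wp) vw)) wq vb)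
        (h.tri (h.symm (h.tri pv (h.symm wp') vw')) wq' (e ▸ vb)) e
  have ex : ∀ p y w, A2 zM (pr p * y) → ad w p → Nt t (pr w) y → ∃ q, H7.AM.Sp pr ad p q ∧ ad w q ∧ pr q = y :=
    fun p y w a wp n => by
      obtain ⟨q, wq, rfl⟩ := h.ex w y n
      exact ⟨q, ⟨a, w, wp, wq⟩, wq, rfl⟩
  refine ⟨H7.AM.Sp pr ad, h.eqv, fun p g a b => h.lift p g a (cfix b), fun γ p a b => i γ b ((h.inj γ p b).1 a), h.onto, ?_, ?_,
    fun p y w a n m => ?_, un, fun {p q r} w a b c n1 n2 n3 => ?_⟩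
  · rintro γ p q ⟨a, w, wp, wq⟩
    refine ⟨?_, γ • w, h.smul γ wp, h.smul γ wq⟩
    rw [h.eqv, h.eqv, αM_ap, αM_ap, conj_mul]; exact a.cj _
  · rintro p q ⟨a, w, wp, wq⟩
    refine ⟨?_, w, wq, wp⟩
    have := a.cj (pr p)⁻¹
    rwa [show (pr p)⁻¹ * (pr p * pr q) * (pr p)⁻¹⁻¹ = pr q * pr p by group] at this
  · obtain ⟨w, pw, rfl⟩ := h.ex p w n.symm
    obtain ⟨q, k, -, e⟩ := ex p y w a (h.symm pw) m
    exact ⟨q, k, e⟩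
  · obtain ⟨w, pw, rfl⟩ := h.ex p w n1.symm
    obtain ⟨q', k, wq, e⟩ := ex p _ w a.1 (h.symm pw) n2
    obtain ⟨r', k', wr, e'⟩ := ex p _ w b.1 (h.symm pw) n3
    obtain rfl := un k a e
    obtain rfl := un k' b e'
    exact ⟨c, w, wq, wr⟩

end H15.BX
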