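import Cfsg.Agent.H15.BX0

/-! S5590: the monomial subgroup of `Co₂` on the 23-dimensional module (pieces NC, NZ). -/

set_option autoImplicit false
set_option linter.unusedSectionVars false

namespace H15.BX
open Cfsg H15 H19 H0 H0.Mo H1.RB H1.RC Finset MulAction Module
open Subgroup hiding mem_top
open scoped Classical Pointwise commutatorElement

universe u

theorem h0_gen {K : Subgroup Co0} (h2 : ⁅H0, H0⁆ ≤ K) (h3 : ∀ c, ∀ hc : c ∈ cw, pa ∉ c → pb ∉ c → sgn hc ∈ K) : H0 ≤ K := fun g m => by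
  obtain ⟨τ, hτ, c, hc, rfl⟩ := exists_mono (Hb_NN (H0_le m))
  rw [mono_H0] at m
  let φ : Spor.M22 →* Co0 := prmH.comp (inclusion M22_le)
  have p : φ.range ≤ H0 := by
    rintro _ ⟨x, rfl⟩
    exact (mono_H0 (M22_le x.2) cw_empty).2 ⟨⟨(mem_M22.1 x.2).1.2, by simp⟩, (mem_M22.1 x.2).2, by simp⟩
  have : (⊤ : Subgroup Spor.M22) ≤ ⁅⊤, ⊤⁆ := have := simple_M22
    perfect topEquiv.isSimpleGroup (by rw [card_top, card_M22]; norm_num)
  rw [mono_eq ⟨τ, hτ⟩]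
  refine mul_mem (h3 c hc m.1.2 m.2.2) (h2 (commutator_mono p p ?_))
  rw [φ.range_eq_map, ← map_commutator]
  exact ⟨⟨τ, mem_M22.2 ⟨⟨hτ, m.1.1⟩, m.2.1⟩⟩, this trivial, rfl⟩

variable {F V : Type u} [Field F] [NeZero (2 : F)] [AddCommGroup V] [Module F V] [FiniteDimensional F V]
  {π : Co0 → End F V} {T : GolayPt → End F V} {i j : GolayPt} {g k : Co0} {e x : End F V} {v : V}

theorem scal (r : rk e = 1) (i : e * e = e) (c : x * e = e * x) : ∃ α : F, x * e = α • e :=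
  prop1 r r (by rw [← mul_assoc, ← c, mul_assoc, i]) (by rw [mul_assoc, i]) i i (rk_nz r)

theorem rp1 : Rp sCo2 fun _ => (1 : End F V) := fun _ _ _ _ => (mul_one _).symm

variable (h : C2 π T)
include h

/-- the elements which fix the `j`-th line pointwise -/
noncomputable abbrev Jf (j : GolayPt) : Subgroup Co0 := EqS rp1 h.rp (mul_one (T j)) (h.o j)

theorem mJ : g ∈ Jf h j ↔ g ∈ sCo2 ∧ π g * T j = T j := by rw [← mul_one (T j), ← mul_assoc, mul_one (π g * T j)]; rfl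

theorem sJ {C} (hC : C ∈ cw) (a : pa ∉ C) (b : pb ∉ C) (n : j ∉ C) : sgn hC ∈ Jf h j :=
  (mJ h).2 ⟨sgn_U hC a b, by rw [h.wl j C hC a b, if_neg n, one_smul]⟩

theorem eps0 : H0 ≤ Jf h pa := h0_gen (chr rp1 h.rp _ _ inf_le_left fun g m => by
  simpa using scal h.r0' (h.idem _) (h.cja (H0_le m))) fun C hC a b => sJ h hC a b a

theorem eps1 (m : g ∈ Hb) (e : g • lU' = -lU') : π g * T pa = -T pa := by
  obtain ⟨c, d, k, n, K⟩ := kex
  obtain ⟨C, hC, a, b, mc, md, m', -⟩ := C2.ex' n K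
  have K' := C2.kinv K
  have k1 := C2.kU K
  have s1 := sgn_U hC a b
  have y := h.e3 n K' (i := pa) (by simp)
  rw [(h.key n K').2.2, zero_add] at y
  have q : π (k * sgn hC * k⁻¹) * T pa = -T pa := by
    rw [← h.rp.ap (mul_mem k1 s1) (inv_mem k1), ← h.rp.ap k1 s1, y, mul_add, ← mul_assoc (π (sgn hC)), ← mul_assoc (π (sgn hC)),
      h.wl _ C hC a b, h.wl _ C hC a b, if_pos mc, if_pos md, neg_one_smul, neg_one_smul, neg_mul, neg_mul, ← neg_add, ← y, mul_neg,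
      h.rp.inv' k1 (h.o _)]
  have q' : (k * sgn hC * k⁻¹) • lU' = -lU' := by
    rw [mul_smul, mul_smul, U'_vw, K'.2.1, co_neg, sgn_vv', if_pos mc, if_pos md, neg_neg, K.2.2.1]
  generalize k * sgn hC * k⁻¹ = l at m' q q'
  have := ((mJ h).1 (eps0 h (show l⁻¹ * g ∈ H0 from Subgroup.mem_inf.2 ⟨mul_mem (inv_mem m'.1) m.1, by
    rw [mem_stabilizer_iff, mul_smul, e, ← q', inv_smul_smul]⟩))).2
  rw [← mul_inv_cancel_left l g, ← h.rp.ap m'.1 (mul_mem (inv_mem m'.1) m.1), this, q]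

theorem cmj (m : g ∈ Hb) (e : g • e8 j 1 = e8 j 1 ∨ g • e8 j 1 = -e8 j 1) : π g * T j = T j * π g := by
  obtain ⟨σ, -, q1, q2⟩ := h.cjH m
  rw [← neg_one_zsmul, ← e8_eq] at e
  have : σ.1 j = j := by rcases q1 j with q | q <;> rcases e with e | e <;> exact (e8_inj (by decide) (q.symm.trans e)).1
  rw [q2, this]

theorem b0 (ia : i ≠ pa) (ib : i ≠ pb) (ja : j ≠ pa) (jb : j ≠ pb) (ij : i ≠ j) (m : g ∈ Hb) (e : g • e8 i 1 = e8 i 1)
    (e' : g • e8 j 1 = e8 j 1) : g ∈ Jf h i := by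
  obtain ⟨c, d, k, n, K⟩ := kex
  have n' := n
  simp only [List.nodup_cons, List.mem_cons, not_or, List.not_mem_nil] at n'
  have k1 := C2.kU K
  have K' := C2.kinv K
  have z : ∀ g ∈ Hb, g • e8 c 1 = e8 c 1 → g • e8 d 1 = e8 d 1 → π g * T c = T c := fun g m e e' => by
    have f : g • vv c d = vv c d := two_vv (by rw [e, e', ← vv_add (j := d), ← vv_sub (i := c) (j := d)]; abel)
    have := ((mJ h).1 (eps0 h (show k * g * k⁻¹ ∈ H0 from Subgroup.mem_inf.2 ⟨mul_mem (mul_mem k1 m.1) (inv_mem k1), by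
      rw [mem_stabilizer_iff, mul_smul, mul_smul, U'_vw, K'.2.1, co_neg, f, co_neg, K.2.2.1, neg_neg]⟩))).2
    have y : π g * (π k⁻¹ * T pa) = π k⁻¹ * T pa := by
      conv_rhs => rw [← this]
      rw [h.rp.ap m.1 (inv_mem k1), h.rp.ap (inv_mem k1) (mul_mem (mul_mem k1 m.1) (inv_mem k1))]; congr 2; group
    have cm := cmj h m (.inl e)
    obtain ⟨α, q⟩ := scal (h.r1 c (Ne.symm n'.1.2.1) (Ne.symm n'.2.1.1)) (h.idem _) cm
    rw [q, wt_eq (h.key n K').1 (show α • _ = (1 : F) • _ by rw [← smul_mul_assoc, ← q, cm, mul_assoc, y, one_smul]), one_smul]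
  obtain ⟨τ, mt, t1, t2, t3, t4⟩ := m24_trans4 n'.1.1 n'.1.2.1 n'.1.2.2.1 n'.2.1.1 n'.2.1.2.1 n'.2.2.1.1
    n'.1.1 ia.symm ja.symm ib.symm jb.symm ij
  have m' := prm_Hb (σ := ⟨τ, mt⟩) (.inl ⟨t1, t2⟩)
  have v := h.cj ⟨τ, mt⟩ (.inl ⟨t1, t2⟩) c
  have p1 := prm_e8 (i := c) ⟨τ, mt⟩
  have p2 := prm_e8 (i := d) ⟨τ, mt⟩
  simp only [t3, t4] at v p1 p2
  generalize prmH ⟨τ, mt⟩ = l at m' v p1 p2
  have := z (l⁻¹ * g * l) (mul_mem (mul_mem (inv_mem m') m) m') (by rw [mul_smul, mul_smul, p1, e, ← p1, inv_smul_smul])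
    (by rw [mul_smul, mul_smul, p2, e', ← p2, inv_smul_smul])
  refine (mJ h).2 ⟨m.1, ?_⟩
  rw [← h.rp.rinv m'.1 (h.o' i), ← v, ← mul_assoc]
  conv_rhs => rw [← this]
  rw [h.rp.ap m.1 m'.1, h.rp.ap m'.1 (mul_mem (mul_mem (inv_mem m'.1) m.1) m'.1)]; congr 3; group

theorem b1 (ja : j ≠ pa) (jb : j ≠ pb) (m : g ∈ Hb) (e : g • e8 j 1 = e8 j 1) : g ∈ Jf h j := by
  have ex : ∀ l : List GolayPt, l.length < 24 → ∃ x, x ∉ l := fun l n => by
    obtain ⟨x, -, hx⟩ := exists_mem_notMem_of_card_lt_card (s := l.toFinset) (t := univ)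
      ((List.toFinset_card_le _).trans_lt (by rwa [card_univ, card_pt]))
    exact ⟨x, by simpa using hx⟩
  have ab : pa ≠ pb := by decide
  obtain ⟨d, nd⟩ := ex [pa, pb, j] (by simp)
  obtain ⟨σ, s0, q1, -⟩ := h.cjH m
  have sj : σ.1 j = j := by rcases q1 j with q | q <;> exact (e8_inj (by decide) (q.symm.trans e)).1
  obtain ⟨w, nw⟩ := ex [pa, pb, j, d, σ.1 d] (by simp)
  simp only [List.mem_cons, not_or, List.not_mem_nil] at nd nw
  have ns : σ.1 d ≠ pa ∧ σ.1 d ≠ pb ∧ σ.1 d ≠ j := by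
    have i := σ.1.injective
    refine ⟨fun c => ?_, fun c => ?_, fun c => nd.2.2.1 (i (c.trans sj.symm))⟩ <;> rcases s0 with s | s
    exacts [nd.1 (i (c.trans s.1.symm)), nd.2.1 (i (c.trans s.2.symm)), nd.2.1 (i (c.trans s.2.symm)), nd.1 (i (c.trans s.1.symm))]
  obtain ⟨τ, mt, t⟩ := m24_multi (n := 5) le_rfl ![pa, pb, j, w, σ.1 d] ![pa, pb, j, w, d]
    (List.nodup_ofFn.1 (by simp [ab, ja.symm, jb.symm, nw, ns, eq_comm (b := w), eq_comm (b := σ.1 d)]))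
    (List.nodup_ofFn.1 (by simp [ab, ja.symm, jb.symm, nw, nd, eq_comm (b := w), eq_comm (b := d)]))
  have m' := prm_Hb (σ := ⟨τ, mt⟩) (.inl ⟨t 0, t 1⟩)
  have p1 : prmH ⟨τ, mt⟩ • e8 j 1 = e8 j 1 := (prm_e8 _).trans (congrArg (e8 · 1) (t 2))
  have p2 : prmH ⟨τ, mt⟩ • e8 w 1 = e8 w 1 := (prm_e8 _).trans (congrArg (e8 · 1) (t 3))
  have p3 : prmH ⟨τ, mt⟩ • e8 (σ.1 d) 1 = e8 d 1 := (prm_e8 _).trans (congrArg (e8 · 1) (t 4))
  generalize prmH ⟨τ, mt⟩ = l at m' p1 p2 p3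
  refine (mul_mem_cancel_left (b0 h ja jb nw.1 nw.2.1 (Ne.symm nw.2.2.1) m' p1 p2)).1 ?_
  have f : (l * g) • e8 j 1 = e8 j 1 := by rw [mul_smul, e, p1]
  rcases q1 d with q | q
  · exact b0 h ja jb nd.1 nd.2.1 (Ne.symm nd.2.2.1) (mul_mem m' m) f (by rw [mul_smul, q, p3])
  obtain ⟨C, hC, mC, a⟩ := pat (i := d) [pa, pb, j] (by simp) (by simp [nd])
  simp only [List.forall_mem_cons] at a
  refine (mul_mem_cancel_left (sJ h hC a.1 a.2.1 a.2.2.1)).1 (b0 h ja jb nd.1 nd.2.1 (Ne.symm nd.2.2.1)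
    (mul_mem (H0_le (sgn_H0 hC a.1 a.2.1)) (mul_mem m' m)) (by rw [mul_smul, f, sgn_e8, if_neg a.2.2.1]) ?_)
  rw [mul_smul, mul_smul, q, e8_eq _ (-1), neg_one_zsmul, co_neg, p3, co_neg, sgn_e8, if_pos mC, neg_neg]

theorem b2 (ja : j ≠ pa) (jb : j ≠ pb) (m : g ∈ Hb) (e : g • e8 j 1 = -e8 j 1) : π g * T j = -T j := by
  obtain ⟨C, hC, mC, a⟩ := pat (i := j) [pa, pb] (by simp) (by simp [ja, jb])
  simp only [List.forall_mem_cons] at a
  have s := H0_le (sgn_H0 hC a.1 a.2.1)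
  have := ((mJ h).1 (b1 h ja jb (mul_mem s m) (by rw [mul_smul, e, co_neg, sgn_e8, if_pos mC, neg_neg]))).2
  rw [← one_mul g, ← sgn_sq hC, mul_assoc, ← h.rp.ap s.1 (mul_mem s m).1, this, h.wl _ C hC a.1 a.2.1, if_pos mC, neg_one_smul]

omit h in
theorem kl (c : π g * T j = T j * π g) (e : π g * T j = -T j) (f : π g v = v) : T j v = 0 := by
  have := congrArg (· v) (c.symm.trans e)
  simp only [End.mul_apply, f, LinearMap.neg_apply] at this
  exact half F (eq_neg_iff_add_eq_zero.1 this)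

omit h

theorem nc : NC F V := fun π T h v o g m a b => by
  conv_rhs => rw [← o, h.sum, LinearMap.sum_apply]
  conv_lhs => rw [← o, h.sum, LinearMap.sum_apply, map_sum]
  refine sum_congr rfl fun j mj => ?_
  have jb := (mem_erase.1 mj).1
  by_cases ja : j = pa
  · subst ja
    rcases b with b | ⟨l, m, f, e⟩
    exacts [congrArg (· v) ((mJ h).1 (eps0 h ⟨m.1, b⟩)).2, by rw [kl (h.cja m) (eps1 h m e) f, map_zero]]
  · rcases a j ja jb with b | ⟨l, m, f, e⟩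
    exacts [congrArg (· v) ((mJ h).1 (b1 h ja jb m b)).2, by rw [kl (cmj h m (.inr e)) (b2 h ja jb m e) f, map_zero]]

theorem nz : NZ F V := fun π T h v o a ⟨l, m, f, e⟩ => by
  rw [← o, h.sum, LinearMap.sum_apply]
  refine sum_eq_zero fun j mj => ?_
  by_cases ja : j = pa
  · exact ja ▸ kl (h.cja m) (eps1 h m e) f
  · obtain ⟨l, m, f, e⟩ := a j ja (mem_erase.1 mj).1
    exact kl (cmj h m (.inr e)) (b2 h ja (mem_erase.1 mj).1 m e) f

end H15.BX
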