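import Cfsg.Agent.H15.BX3
import Cfsg.Agent.H15.BX4
import Cfsg.Agent.H19.BX2

/-! S5590: the cohomology of the stabilizers of edges and triangles in the Baby Monster (piece LB). -/

set_option autoImplicit false
set_option linter.unusedSectionVars false

namespace H15.BX
open Cfsg H15 H19 H0 H0.Mo H0.Mo.MT H0.Y H1.RB H1.RC Finset MulAction Module
open Subgroup hiding mem_top
open H14.Mn (Mon zM)
open scoped Classical commutatorElement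

universe u

theorem swp {x : Lam} {i j : GolayPt} (n : i ≠ j) (c : Cg x (lU + vv i j) ∨ Cg x (lU + vv i j + lE))
    (k : ∀ y, sqNorm (cf y) = 32 → ¬ Cg x y) : ∃ σ : M24, (σ.1 pa = pb ∧ σ.1 pb = pa) ∧ Cg (prmH σ • x) x := by
  have ab : pa ≠ pb := by decide
  have q : ∀ p q j, q ≠ j → lU = vv p q → ¬ (Cg x (lU + vv p j) ∨ Cg x (lU + vv p j + lE)) := fun p q j n e c => by
    have : Cg (lU + vv p j) (vw q j) := ⟨vv p j, lam_ext fun l => by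
      simp only [e, two_nsmul, cf_sub, cf_add, cf_vv, cf_vw]; split_ifs <;> rfl⟩
    exact c.elim (fun c => k _ (norm_pr n 4 (-4)) (c.trans this)) fun c => k _ (vv_norm n)
      (c.trans (((this.trans cg_vw).add (.refl _)).trans ⟨lE, by rw [two_nsmul]; abel⟩))
  have q1 := fun j n => q pa pb j n U_vv
  have q2 := fun j n => q pb pa j n (U_vv.trans vv_comm)
  suffices ∃ σ : M24, (σ.1 pa = pb ∧ σ.1 pb = pa) ∧ prmH σ • vv i j = vv i j by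
    obtain ⟨σ, e, e'⟩ := this
    have u : prmH σ • lU = lU := (prm_Hb (.inr e)).1
    refine ⟨σ, e, c.elim (fun c => (c.smul _).trans ?_) fun c => (c.smul _).trans ?_⟩
    · rw [co_add, u, e']; exact c.symm
    · rw [co_add, co_add, u, e']; exact ((Cg.refl _).add (stab_E.2 (prmH_mem σ))).trans c.symm
  obtain ⟨τ, m, f⟩ := m24_trans2 ab ab.symm
  by_cases a : i = pa
  · subst a
    obtain rfl : pb = j := by_contra fun b => q1 j b c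
    exact ⟨⟨τ, m⟩, f, by rw [prm_vv, f.1, f.2, vv_comm]⟩
  by_cases b : i = pb
  · subst b
    obtain rfl : pa = j := by_contra fun b => q2 j b c
    exact ⟨⟨τ, m⟩, f, by rw [prm_vv, f.1, f.2, vv_comm]⟩
  rw [vv_comm] at c
  have a' : pa ≠ j := fun e => q1 i (Ne.symm b) (e ▸ c)
  have b' : pb ≠ j := fun e => q2 i (Ne.symm a) (e ▸ c)
  obtain ⟨σ, m, e1, e2, e3, e4⟩ := m24_trans4 ab (Ne.symm a) a' (Ne.symm b) b' n ab.symm (Ne.symm b) b' (Ne.symm a) a' n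
  exact ⟨⟨σ, m⟩, ⟨e1, e2⟩, by rw [prm_vv, e3, e4]⟩

section
variable {G : Type} {F V : Type u} [Group G] [Fintype G] [Field F] [NeZero (2 : F)] [AddCommGroup V] [Module F V]
  [FiniteDimensional F V] {ρ : G → End F V} {Q Q' K : Subgroup G} {z s t a h : G} {f : C[z] →* Spor.Co1}
  {f' : C[s] →* Spor.Co1} {R R' : G → Lam → Prop} {v : V} {g : Co0}

theorem plv (n : (#K : F) ≠ 0) (h : ∀ y ∈ K, ρ y v = v) : pl ρ K 1 v = v := by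
  rw [pl, H1.RC.pj, LinearMap.smul_apply, LinearMap.sum_apply, sum_congr rfl (g := fun _ => v) fun x hx => by
    rw [lm_one, one_smul, h x (mem_filter.1 hx).2], sum_const, H1.RC.card_fil, ← Nat.cast_smul_eq_nsmul F, smul_smul,
    inv_mul_cancel₀ n, one_smul]

variable (S : St Q Q' z s t f R) (S' : St Q' Q s z t f' R') (r : Rr t ρ) (m : Sm ρ Q Q' z s t) (m' : Sm ρ Q' Q s z t)
include S

theorem totH (hh : h ∈ C[t] ⊓ C[z] ⊓ C[s]) : ∃ g ∈ Hb, A f h g := by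
  obtain ⟨g, k, b⟩ := S.tot ⟨hh.1.2, hh.1.1⟩
  have c : R (s * t) lU' := S.M.cg (S.M.mul S.r S.rt) ⟨lU, by rw [lE, ← U_add, two_nsmul]; abel⟩
  exact ⟨g, ⟨k, ((S.M.uniq (S.M.act b c) c).2 (.inl (by
    rw [← mul_assoc, mem_cent1.1 hh.2, mul_assoc s, mem_cent1.1 hh.1.1, ← mul_assoc, mul_inv_cancel_right]))).short
      (by rw [co_norm, norm_U']; decide) (by rw [norm_U']; decide)⟩, b⟩

include r

theorem piv (hh : h ∈ C[z] ⊓ C[t]) (e : A f h g) (k : g ∈ sCo2) (p : pl ρ (Q ⊓ C[t]) 1 v = v) : S.pi ρ g v = ρ h v := by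
  rw [S.pi_eq r hh e k, End.mul_apply, p]

theorem sgv (p : pl ρ (Q ⊓ C[t]) 1 v = v) (q : ∀ y ∈ Q' ⊓ C[t] ⊓ C[z], ρ y v = v) (j) (ja : j ≠ pa) (jb : j ≠ pb) :
    ∃ h ∈ Hb, S.pi ρ h v = v ∧ h • e8 j 1 = -e8 j 1 := by
  obtain ⟨C, hC, mC, a⟩ := pat (i := j) [pa, pb] (by simp) (by simp [ja, jb])
  simp only [List.forall_mem_cons] at a
  obtain ⟨y, my, e⟩ := S.ysg hC a.1 a.2.1
  exact ⟨_, H0_le (sgn_H0 hC a.1 a.2.1), (piv S r ⟨my.2, my.1.2⟩ e (sgn_U hC a.1 a.2.1) p).trans (q y my),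
    by rw [sgn_e8, if_pos mC]⟩

include m

theorem w1 (ha : a ∈ Q ⊓ Q') (c : IsConj z a) (e : ∀ y ∈ Q ⊓ C[t] ⊓ C[s] ⊓ C[a], ρ y v = v) : pl ρ (Q ⊓ C[t]) 1 v = v := by
  have l : Q ⊓ C[t] ⊓ C[s] ≤ Q := inf_le_left.trans inf_le_left
  refine Eq.trans (LinearMap.congr_fun (Eq.symm ?_) v) (plv (H1.RC.nz_of S.E (inf_le_left.trans l)) e)
  by_cases n : a ∈ C(Q ⊓ C[t] ⊓ C[s])
  · rw [inf_of_le_left (le_cent1_iff.2 n), S.g1 r m]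
  obtain ⟨y, hy, k⟩ : ∃ y ∈ Q ⊓ C[t] ⊓ C[s], y ∉ C[a] := by by_contra! H; exact n (le_cent1_iff.1 H)
  obtain ⟨x, -, q⟩ := S.E'.exists_conj ha.2 fun k => n ((zpowers_le.2 S.sW.1) k)
  rw [pl, pl, H1.RC.pj_split S.E l ha.1 (half_card S.E l ha.1 hy k) (one_mem Q), one_mul, ← pl, ← pl, S.g1 r m, S.split ha.1,
    (m.cl a ha.1).resolve_right fun k => k.elim (fun k => n (S.ztW k).1) fun k => k.1.2.2 c,
    (m.cl _ (mul_mem ha.1 S.L.tQ)).resolve_right fun k => k.elim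
      (fun k => n ((Subgroup.mul_mem_cancel_right _ S.sW.1).1 (S.ztW k).1))
      fun k => k.1.2.2 (c.trans (isConj_iff.2 ⟨x, q⟩)), add_zero, add_zero]

include S' m'

theorem z3 (hn : finrank F V ≤ 4371) (ha : a ∈ Q ⊓ Q') (c : IsConj z a) (c2 : A2 z (t * a)) :
    Z0 (C[t] ⊓ C[z] ⊓ C[s] ⊓ C[a]) ρ := fun v e => by
  have p := w1 S r m ha c fun y k => e y ⟨⟨⟨k.1.1.2, S.E.le_cent k.1.1.1⟩, k.1.2⟩, k.2⟩
  have p' := w1 S' r m' ha.symm (S'.zs.trans c) fun y k => e y ⟨⟨⟨k.1.1.2, k.1.2⟩, S.E'.le_cent k.1.1.1⟩, k.2⟩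
  refine nz _ _ (S.c2 S' r m m' hn) v ((piv S r (one_mem _) (.one (one_mem _)) (one_mem _) p).trans (by rw [r.one]; rfl))
    (sgv S r p fun y k => by rw [← p', ← End.mul_apply, S'.q23 r k.1]) ?_
  obtain ⟨i, j, n, H⟩ := H1.RB.cls S.M S.L S.r (mul_mem S.tE.1 ha) c2
  obtain ⟨w, rw⟩ := S.M.sur (vv i j)
  obtain ⟨x, ra⟩ := S.M.tot a ha.1
  obtain ⟨σ, e1, e2⟩ := swp (x := x) n (((v4 S.M S.L S.r (S.M.mul (S.M.mul S.rt ra) rw)).1 (H w rw)).imp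
    (fun ⟨u, k⟩ => ⟨u - lU - vv i j, by rw [smul_sub, smul_sub, ← k, two_nsmul, two_nsmul]; abel⟩)
    fun ⟨u, k⟩ => ⟨u - lU - vv i j, by rw [smul_sub, smul_sub, ← k, two_nsmul, two_nsmul]; abel⟩)
    fun y k d => (a2_of S.M S.L (S.M.cg ra d) k).2.2 c
  have b := prm_Hb (.inr e1)
  refine ⟨_, b, ?_, by rw [U'_vw, prm_vw, e1.1, e1.2]; decide +kernel⟩
  obtain ⟨h, hh, hs, eh⟩ := S.liftH b
  have k : ∀ h ∈ C[z] ⊓ C[t], h ∈ C[s] → A f h (prmH σ) → h ∈ C[a] → S.pi ρ (prmH σ) v = v := fun h a1 a2 a3 a4 =>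
    (piv S r a1 a3 b.1 p).trans (e h ⟨⟨⟨a1.2, a1.1⟩, a2⟩, a4⟩)
  rcases (S.M.uniq ra (S.M.act eh ra)).1 e2.symm with q | q
  · exact k h hh hs eh (mem_cent1.2 (mul_inv_eq_iff_eq_mul.1 q))
  by_cases d : a ∈ C(Q ⊓ C[t] ⊓ C[s])
  · have l : ∀ {x y : G}, y ∈ C[x] → zpowers x ≤ C[y] := fun k => zpowers_le.2 (mem_cent1.2 (mem_cent1.1 k).symm)
    refine k h hh hs eh (mem_cent1.2 (mem_cent1.1 ((sup_le (sup_le (l hh.1) (l hh.2)) (l hs)) ((S.E.cent_cent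
      (A := zpowers z ⊔ zpowers t ⊔ zpowers s) (mem_sup_left (mem_sup_left (mem_zpowers z)))
      (sup_le (S.ztE.trans inf_le_left) (zpowers_le.2 S.L.tQ))).le ⟨ha.1, mem_cent.2 fun y k => mem_cent.1 d y
        ⟨⟨k.1, mem_cent1.2 (mem_cent.1 k.2 t (mem_sup_left (mem_sup_right (mem_zpowers t)))).symm⟩,
          mem_cent1.2 (mem_cent.1 k.2 s (mem_sup_right (mem_zpowers s))).symm⟩⟩))).symm)
  obtain ⟨y, hy, n⟩ : ∃ y ∈ Q ⊓ C[t] ⊓ C[s], y * a ≠ a * y := by by_contra! H; exact d (mem_cent.2 H)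
  refine k (y * h) (mul_mem ⟨S.E.le_cent hy.1.1, hy.1.2⟩ hh) (mul_mem hy.2 hs) (one_mul (prmH σ) ▸ (S.M.aQ hy.1.1).mul eh)
    (mem_cent1.2 (mul_inv_eq_iff_eq_mul.1 ?_))
  rw [mul_inv_rev, ← mul_assoc, mul_assoc y, mul_assoc y, q, ← conj_mul, S.E.conj_eq hy.1.1 ha.1 n, S.E.cent y hy.1.1,
    mul_inv_cancel_right, mul_assoc, S.E.zz, mul_one]

theorem z1 (hn : finrank F V ≤ 4371) : Z1 (C[t] ⊓ C[z] ⊓ C[s]) ρ := by
  let M : Subgroup G := ⟨⟨⟨{h | h ∈ C[t] ⊓ C[z] ⊓ C[s] ∧ ∃ g ∈ H0, A f h g}, fun ⟨a, _, b, c⟩ ⟨a', _, b', c'⟩ =>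
    ⟨mul_mem a a', _, mul_mem b b', c.mul c'⟩⟩, one_mem _, 1, one_mem _, .one (one_mem _)⟩,
    fun ⟨a, _, b, c⟩ => ⟨inv_mem a, _, inv_mem b, c.inv⟩⟩
  have l : M ≤ C[t] ⊓ C[z] ⊓ C[s] := fun _ k => k.1
  have rp : Rp (C[t] ⊓ C[z] ⊓ C[s]) ρ := rp_mono r.rp (inf_le_left.trans inf_le_left)
  have li : ∀ g ∈ H0, ∃ h ∈ M, A f h g := fun g k =>
    let ⟨h, a, b, c⟩ := S.liftH (H0_le k); ⟨h, ⟨⟨⟨a.2, a.1⟩, b⟩, g, k, c⟩, c⟩
  have lN : (Q ⊓ C[t] ⊓ C[s]) ⊔ (Q' ⊓ C[t] ⊓ C[z]) ≤ M := sup_le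
    (fun x k => ⟨⟨⟨k.1.2, S.E.le_cent k.1.1⟩, k.2⟩, 1, one_mem _, S.M.aQ k.1.1⟩) fun y k =>
      let ⟨_, hC, a, b, e⟩ := S.sgy k; ⟨⟨⟨k.1.2, k.2⟩, S.E'.le_cent k.1.1⟩, _, sgn_H0 hC a b, e⟩
  have n2 : C[t] ⊓ C[z] ⊓ C[s] ≤ N(Q' ⊓ C[t] ⊓ C[z]) := fun h k => S'.nR ⟨k.2, k.1.1⟩ k.1.2
  refine H19.BX.g2 rp l ?_ (H19.BX.g6 (rp_mono rp l) lN (fun h k => normalizer_inf_normalizer_le_normalizer_sup _ _
    ⟨S.nR ⟨k.1.1.2, k.1.1.1⟩ k.1.2, n2 k.1⟩) ?_ (fun v e h ⟨k, g, a, b⟩ => ?_) (hm_of (fun h ⟨k, g, a, b⟩ => ?_) lN))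
  · obtain ⟨τ, mt, e⟩ := m24_trans2 (a := pa) (b := pb) (a' := pb) (b' := pa) (by decide) (by decide)
    have b := prm_Hb (σ := ⟨τ, mt⟩) (.inr e)
    obtain ⟨h, hh, hs, eh⟩ := S.liftH b
    have : M.relIndex (C[t] ⊓ C[z] ⊓ C[s]) ∣ 2 := index_dvd_two_iff.2 ⟨⟨h, ⟨hh.2, hh.1⟩, hs⟩, fun x => by
      obtain ⟨g, a, c⟩ := totH S x.2
      refine a.2.symm.imp (fun k => ⟨mul_mem x.2 ⟨⟨hh.2, hh.1⟩, hs⟩, _, ⟨mul_mem a.1 b.1, ?_⟩, c.mul eh⟩) fun k => ⟨x.2, g, ⟨a.1, k⟩, c⟩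
      change (_ * _) • lU' = lU'
      rw [mul_smul, show prmH ⟨τ, mt⟩ • lU' = -lU' by rw [U'_vw, prm_vw, e.1, e.2]; decide +kernel, co_neg, k, neg_neg]⟩
    rcases (Nat.dvd_prime Nat.prime_two).1 this with e | e <;> simp [e, two_ne_zero]
  · have := Fact.mk Nat.prime_two
    obtain ⟨n, e⟩ := IsPGroup.iff_card.1 (IsPGroup.to_sup_of_normal_right'
      (S.E.isPGroup.to_le (inf_le_left.trans inf_le_left)) (S.E'.isPGroup.to_le (inf_le_left.trans inf_le_left))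
      (le_sup_left.trans (lN.trans (l.trans n2))))
    rw [e]; simp [two_ne_zero]
  · have p : pl ρ (Q ⊓ C[t]) 1 v = v := S.g1 r m ▸ plv (S.mR (one_mem Q)).nz fun y k => e y (mem_sup_left k)
    rw [← piv S r ⟨k.1.2, k.1.1⟩ b a.1 p]
    exact nc _ _ (S.c2 S' r m m' hn) v ((piv S r (one_mem _) (.one (one_mem _)) (one_mem _) p).trans (by rw [r.one]; rfl))
      g (H0_le a) (fun j ja jb => .inr (sgv S r p (fun y k => e y (mem_sup_right k)) j ja jb)) (.inl a.2)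
  · obtain ⟨x, x1, x2⟩ := mem_img.1 (h0_gen (K := img f (⁅M, M⁆ ⊔ ((Q ⊓ C[t] ⊓ C[s]) ⊔ (Q' ⊓ C[t] ⊓ C[z]))))
      (commutator_le.2 fun x hx y hy => let ⟨p, p1, p2⟩ := li x hx; let ⟨q, q1, q2⟩ := li y hy
        mem_img.2 ⟨_, mem_sup_left (commutator_mem_commutator p1 q1), ((p2.mul q2).mul p2.inv).mul q2.inv⟩)
      (fun C hC a b => let ⟨y, my, e⟩ := S.ysg hC a b; mem_img.2 ⟨y, mem_sup_right (mem_sup_right my), e⟩) a)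
    have := mul_mem (inv_mem (l (sup_le (der_le M) lN x1))) k
    exact (Subgroup.mul_mem_cancel_left _ (inv_mem x1)).1 (mem_sup_right (mem_sup_left
      ⟨⟨(S.M.aker (x2.inv.mul b)).2 (by simp [one_mem]), this.1.1⟩, this.2⟩))

end

variable {F V : Type u} [Field F] [NeZero (2 : F)] [AddCommGroup V] [Module F V] [FiniteDimensional F V]

theorem lb : LB F V := fun ρ t a r hz hn => by
  have k : ∀ {z s w}, Nt t z s → w ∈ Qo z ⊓ Qo s → w ∈ Dt t →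
      Z0 (C[t] ⊓ C[z] ⊓ C[s] ⊓ C[w]) ρ ∧ Z1 (C[t] ⊓ C[z] ⊓ C[s]) ρ := fun {z s w} h hw c => by
    obtain ⟨f, R, S⟩ := nr t z s a h
    obtain ⟨f', R', S'⟩ := S.symm
    have m := S.sm r (hz z ⟨h.1.1, h.2.1⟩) hn
    have m' := S'.sm r (hz s ⟨h.1.2.1, h.2.2⟩) hn
    obtain ⟨_, _, M⟩ := (H7.AM.mgM.conj c.1).1
    obtain ⟨y, -, e⟩ := M.le.es.exists_conj c.2 fun k => (M.le.es.mem_zp.1 k).elim a.2.1 fun k => a.2.2 (k ▸ c.1)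
    exact ⟨z3 S S' r m m' hn hw (h.1.1.symm.trans c.1) (e ▸ (a.base h.1.1).cj y), z1 S S' r m m' hn⟩
  refine ⟨fun x y h => ⟨1, one_mem _, ?_⟩, fun x y w h h1 h2 => ⟨1, one_mem _, ?_⟩⟩ <;>
    simp only [map_one, Equiv.Perm.one_apply, Sb_M]
  · have := k h ⟨h.1.2.2.1, (H29.AM.nlp h.1).r.es.zQ⟩ ⟨h.1.2.1, h.2.2⟩
    rwa [inf_assoc _ C[y], inf_idem] at this
  · exact (k h ⟨h1.1.2.2.1, h2.1.2.2.1⟩ ⟨h1.1.2.1, h1.2.2⟩).1

end H15.BX
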