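import Cfsg.Agent.H15.T.Co1E
import Cfsg.Agent.H15.T.J2I
import Cfsg.Agent.H15.J2

/-! Groups isomorphic to `Co₁`: the subgroup `A₅ × J₂`. -/

set_option autoImplicit false

namespace H15.Co1
open Cfsg Subgroup H16 H0.TR Function XCo1E MulAction
open Cfsg.Agent.S5388 (w)

theorem cardE {E : Subgroup Co0} (hE : ∀ c ∈ E, ∀ k, k = 5 ∨ k = 6 → h k * c = c * h k) : Nat.card E ≤ 120 := by
  classical
  have k : ∀ c ∈ E, ∀ W : List ℕ, (∀ k ∈ W, k = 5 ∨ k = 6) → evA h W * c = c * evA h W := fun c hc W hW =>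
    mem_centralizer_singleton_iff.1 (evA_mem h fun k hk => mem_centralizer_singleton_iff.2 (hE c hc k (hW k hk)))
  have m0 : Mn 33554436 := okP_mn (by decide +kernel)
  have ew : evA h wW = w := (eqV_sound ml kcw.2).trans ((one_mul _).trans
    ((congrArg coM (kid.1.trans XTCo1.e1.2.1)).trans Agent.S5388.w2.symm))
  have hU : w • lU = lU := gen_Co2.le (Agent.S5388.w2 ▸ mem_gen _ (by decide))
  have c1 := (ncard_cnt (tab_of XTCo1.fx_t) _ _).trans kcq.2
  refine (card_le_of_orbit E lU _ ?_ fun c hc => ?_).trans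
    ((Nat.mul_le_mul c1.le (b0 _ inf_le_right (by simp) fun z hz => ?_)).trans (mul_one 120).le)
  · exact Agent.S5388.fin240.1.subset fun v ⟨i, hi, _, e⟩ => ⟨i, hi, e⟩
  · obtain ⟨i, hi, e⟩ := XTCo1.fx (c • lU) ((co_norm _ _).trans norm_U) (by
      change w • _ = _
      rw [← mul_smul, ← ew, k c hc _ kcw.1, mul_smul, ew, hU])
    have := qd_sound (ml 5 (by decide)) ((tab_of XTCo1.fx_t).mn hi)
    rw [show lv (XTCo1.fx_T i) = c • lU from e, ← mul_smul, hE c hc 5 (.inl rfl), mul_smul, co_dot, ← lv_U,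
      qd_sound (ml 5 (by decide)) m0, kcq.1] at this
    exact ⟨i, hi, Nat.beq_eq.mpr (by omega), e⟩
  · obtain ⟨p, hp, rfl⟩ := List.mem_map.1 hz
    obtain ⟨-, a2, a3⟩ := mapV_sound ml (kcf p hp).2
    refine ⟨a2, fun x hx => ?_⟩
    rw [← a3, ← mul_smul, ← k x hx.1 _ (kcf p hp).1, mul_smul, lv_U, mem_stabilizer_iff.1 hx.2]

variable {G : Type*} [Group G] {e : Spor.Co1 ≃* G}

theorem janko {X : Subgroup G} (hX : X = zpowers (pj e (XSec5.h 5))) :
    Spor.IsoJ2 (layer (centralizer (X : Set G))) ∧ Nonempty (centralizer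
      ((layer (centralizer (X : Set G))).map (Subgroup.subtype _) : Set G) ≃* alternatingGroup (Fin 5)) := by
  classical
  have := fin e
  have := J2.simple
  have := Fact.mk Nat.prime_five
  obtain ⟨_, g, M, -⟩ := XTJ2I.md (MulEquiv.refl _)
  have := M.fin
  have hN : h 8 = coN := (one_mul _).symm.trans (eq_coN_of ml kng)
  have t1 : h 7 = h 13 * XSec5.h 5 * (h 13)⁻¹ := eq_mul_inv_of_mul_eq (by
    simpa [show h 14 = XSec5.h 5 from congrArg coM kid.2.1] using eqV_sound ml kid.2.2.1)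
  obtain ⟨e, ht⟩ := twist e (h 13)⁻¹
  obtain rfl : X = zpowers (pj e (h 7)) := by rw [hX, ht, t1]; simp [mul_assoc]
  obtain ⟨o1, o3⟩ := ordP e ml kid.2.2.2.1
  have c1 : Nat.card (centralizer {h 7}) ≤ 2 * (5 * 604800) := (Nat.card_le_card_of_injective
    (β := centralizer {XSec5.h 5}) (fun c : centralizer {h 7} => ⟨(h 13)⁻¹ * c * h 13,
      mem_centralizer_singleton_iff.2 (by
        have := mem_centralizer_singleton_iff.1 c.2
        rw [show XSec5.h 5 = (h 13)⁻¹ * h 7 * h 13 by rw [t1]; group]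
        simp [mul_assoc, ← mul_assoc (h 7), ← this])⟩)
    fun a b h => by simpa using h).trans XSec5.cardC
  set X := zpowers (pj e (h 7))
  have hH : ∀ k < 5, pj e (h k) ∈ centralizer (X : Set G) := fun k hk => mem_cz.2 (by
    simpa using congrArg (pj e) (eqV_sound ml (kcj k hk).1))
  let g' : ℕ → centralizer (X : Set G) := fun k => if h : pj e (h k) ∈ _ then ⟨_, h⟩ else 1
  have e1 : ∀ k < 5, (g' k : G) = pj e (h k) := fun k hk => by simp only [g', dif_pos (hH k hk)]
  have hR := CS.rels M M.act XSec5.s5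
  obtain ⟨f, hf, hr⟩ := CS.hom M J2.bound hR (a := g') fun r hr => Subtype.ext (by
    obtain ⟨i, hi, rfl⟩ := List.getElem_of_mem hr
    have := (XSec5.s2 i hi).1
    rw [H16.nth_eq_getD [] J2.Rl, List.getD_eq_getElem _ _ hi] at this
    exact (CS.coe_evA e1 this).trans (eqN_sound e ml hN (krl _ hr)))
  have fi := inj_of f (s := evA g [0]) fun h2 => mov e ml kid.2.2.2.2 (by
    simpa [e1] using congrArg Subtype.val ((hf [0] rfl).symm.trans h2))
  have o2 : Nat.card (X.subgroupOf (centralizer X)) = 5 := by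
    rw [Nat.card_congr (subgroupOfEquivOfLe (le_centralizer X)).toEquiv, Nat.card_zpowers, o3]
  rw [layer_eq (nc (by rw [M.card]; norm_num)) f fi (X := X.subgroupOf _) (fun y hy => Subgroup.mem_center_iff.2
    fun a => Subtype.ext (a.2 _ hy).symm) (by rw [o2, M.card]; exact cen_le e (by decide) o1 c1)]
  refine ⟨⟨(f.ofInjective fi).symm.trans J2L.equiv.symm⟩, ?_⟩
  obtain ⟨ψ, h3, -⟩ := alt e ml hN kca le_rfl (D := centralizer (f.range.map (Subgroup.subtype _))) fun i hi => by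
    rintro _ ⟨y, hy, rfl⟩
    refine mem_centralizer_singleton_iff.1 ((hr.le.trans (gen_le.2 fun k hk => ?_) :
      _ ≤ (centralizer {pj e (h (9 + i))}).comap (Subgroup.subtype _)) hy)
    simpa [mem_subgroupOf, mem_centralizer_singleton_iff, e1 k hk] using congrArg (pj e) (eqV_sound ml ((kcj k hk).2 i hi))
  refine ⟨(MulEquiv.ofBijective ψ (h3.bijective_of_nat_card_le ?_)).symm⟩
  set D := centralizer (f.range.map (Subgroup.subtype _) : Set G)
  have c2 := card_map e (K := D.comap (pj e)) (by simp [pj_N])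
  rw [map_comap_eq_self_of_surjective (pj_surj e)] at c2
  have c3 := cardE (E := D.comap (pj e)) fun c hc k hk => by
    obtain ⟨i, hi, rfl⟩ : ∃ i < 2, k = 5 + i := ⟨k - 5, by omega, by omega⟩
    obtain ⟨a1, a2, a3, a4⟩ := kcu i hi
    refine (lift_c e a3 (by simpa [evA_eq_prod] using eqV_sound ml a4) (hc _ ⟨evA g' (nth [] uW i),
      hr.ge (evA_mem_gen _ (ltAll_zero a1)), ?_⟩).symm).symm
    rw [coe_subtype, CS.coe_evA e1 a1, ← map_evA, ← eqV_sound ml a2]
    simp
  rw [nat_card_alternatingGroup]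
  simp [Nat.factorial]
  omega

end H15.Co1
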