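import Cfsg.Agent.H15.T.Co1F
import Cfsg.Agent.H15.T.Co1G

/-! Groups isomorphic to `Co₁`: the subgroups `7 × A₇` and `S₃ × A₉`. -/

set_option autoImplicit false

namespace H15.Co1
open Cfsg Subgroup H16

variable {G : Type*} [Group G] (e : Spor.Co1 ≃* G)
include e

open XCo1F in
theorem seven : ∃ V : Subgroup G, Nat.card V = 7 ∧
    Nonempty (centralizer (V : Set G) ≃* Multiplicative (ZMod 7) × alternatingGroup (Fin 7)) := by
  have := Fact.mk (by norm_num : Nat.Prime 7)
  have e2 : h 2 = h 1 * h 1 := by simpa using eqV_sound ml kid.1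
  have e1 : evA h [1] = h 1 := one_mul _
  have c := cen_q2 (ml 1 (by decide)) (by rw [← e2]; exact ml 2 (by decide)) (by rw [← e1]; exact ob0) kq
    ((minSum_tab kB kC).trans (by rw [kA.1, kA.2]))
  exact cen_prod e ml ((one_mul _).symm.trans (eq_coN_of ml kng)) kca (by decide) (by decide) kid.2 kcm
    (c.trans (by rw [nat_card_alternatingGroup]; simp [Nat.factorial]))

open XCo1G H0.Mo in
theorem nine : ∃ W : Subgroup G, Nat.card W = 3 ∧
    Nonempty (normalizer (W : Set G) ≃* Equiv.Perm (Fin 3) × alternatingGroup (Fin 9)) := by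
  obtain ⟨r, hr, -⟩ := X24.main
  obtain ⟨x, hx, -, c1, -⟩ := X3.main
  obtain ⟨a1, a2⟩ := lt_of XL.ml1 (hr 1 (by decide)) XL.lt1 (hx 1)
  rw [(XL.cy1 (hr 1 (by decide))).count (by decide) (by decide), XL.n1, c1, ← a1.prm,
    show coL XL.Ws1 1 = h 1 from congrArg coM kid.1.symm] at a2
  exact nor_prod e ml ((one_mul _).symm.trans (eq_coN_of ml kng)) kca (by decide) kid.2 kcm kct
    (a2.trans (by rw [nat_card_alternatingGroup]; simp [Nat.factorial]))

end H15.Co1
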