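import Cfsg.Agent.H15.SRG
import Cfsg.Agent.H15.Conway2

/-! The Higman–Sims graph and its automorphism group. -/

set_option autoImplicit false
set_option maxRecDepth 100000
set_option linter.unusedSectionVars false

namespace H15
open Cfsg Finset MulAction SimpleGraph
open scoped Pointwise

open Classical in
theorem rank3_srg {G Ω : Type*} [Group G] [MulAction G Ω] [Fintype Ω] [IsPretransitive G Ω]
    {n k l : ℕ} (hΩ : Fintype.card Ω = n) (hn : n = 1 + k + l) (hk : 1 < k) (hkl : k < l)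
    (a b c : Ω) (hb : (orbit (stabilizer G a) b).ncard = k)
    (hc : (orbit (stabilizer G a) c).ncard = l) :
    ∃ Γ : SimpleGraph Ω, (∀ (g : G) x y, Γ.Adj (g • x) (g • y) ↔ Γ.Adj x y) ∧
      (∀ y, Γ.Adj a y ↔ y ∈ orbit (stabilizer G a) b) ∧ ∃ lam mu, Γ.IsSRGWith n k lam mu := by
  let R : Ω → Ω → Prop := fun x y => ∃ g : G, g • a = x ∧ g • b = y
  have inv : ∀ (g : G) x y, R (g • x) (g • y) ↔ R x y := fun g x y =>
    ⟨fun ⟨h, h1, h2⟩ => ⟨g⁻¹ * h, by rw [mul_smul, h1, inv_smul_smul],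
      by rw [mul_smul, h2, inv_smul_smul]⟩,
      fun ⟨h, h1, h2⟩ => ⟨g * h, by rw [mul_smul, h1], by rw [mul_smul, h2]⟩⟩
  have Ra : ∀ y, R a y ↔ y ∈ orbit (stabilizer G a) b := fun y =>
    ⟨fun ⟨h, h1, h2⟩ => ⟨⟨h, h1⟩, h2⟩, fun ⟨h, h2⟩ => ⟨h, h.2, h2⟩⟩
  have na : ∀ x, 1 < (orbit (stabilizer G a) x).ncard → a ∉ orbit (stabilizer G a) x :=
    fun x hx e => by
      rw [← orbit_eq_iff.2 e] at hx
      have : orbit (stabilizer G a) a = {a} :=
        Set.eq_singleton_iff_unique_mem.2 ⟨mem_orbit_self _, by rintro _ ⟨g, rfl⟩; exact g.2⟩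
      rw [this, Set.ncard_singleton] at hx
      omega
  have dis : Disjoint (orbit (stabilizer G a) b) (orbit (stabilizer G a) c) :=
    Set.disjoint_left.2 fun x h1 h2 => by
      rw [← orbit_eq_iff.2 h1, orbit_eq_iff.2 h2] at hb; omega
  have cov : ∀ y, y ≠ a → y ∈ orbit (stabilizer G a) b ∨ y ∈ orbit (stabilizer G a) c := by
    have : insert a (orbit (stabilizer G a) b ∪ orbit (stabilizer G a) c) = Set.univ :=
      Set.eq_of_subset_of_ncard_le (Set.subset_univ _) (by
        rw [Set.ncard_insert_of_notMem (by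
          rintro (e | e); exacts [na b (by omega) e, na c (by omega) e]),
          Set.ncard_union_eq dis, hb, hc, Set.ncard_univ, Nat.card_eq_fintype_card]
        omega)
    intro y hy
    exact (Set.mem_insert_iff.1 (this.ge (Set.mem_univ y))).resolve_left hy
  have tr : ∀ (g : G) (p q : Ω → Prop) [DecidablePred p] [DecidablePred q],
      (∀ x, p x ↔ q (g • x)) → (univ.filter p).card = (univ.filter q).card := fun g p q _ _ h =>
    card_equiv (MulAction.toPerm g) fun x => by simpa using h x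
  have deg : ∀ x, (univ.filter fun y => R x y).card = k := fun x => by
    obtain ⟨g, rfl⟩ := exists_smul_eq G a x
    rw [← tr g (R a) _ fun y => (inv g a y).symm, ← hb, ← Set.ncard_coe_finset]
    congr 1; ext y; simp [Ra]
  have irr : ∀ x, ¬ R x x := fun x e => by
    obtain ⟨g, rfl⟩ := exists_smul_eq G a x
    exact na b (by omega) ((Ra a).1 ((inv g a a).1 e))
  have ba : R b a := by
    obtain ⟨g, hg⟩ := exists_smul_eq G b a
    have h1 : R (g • a) a := ⟨g, rfl, hg⟩
    have h2 : ∀ y ∈ orbit (stabilizer G a) (g • a), R y a := by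
      rintro _ ⟨h, rfl⟩
      have := (inv h _ _).2 h1
      rwa [show (h : G) • a = a from h.2] at this
    rcases cov (g • a) (fun e => irr a (by rwa [e] at h1)) with h3 | h3
    · exact h2 b (orbit_eq_iff.2 h3 ▸ mem_orbit_self b)
    · exfalso
      have h4 : ∀ x, l ≤ (univ.filter fun y => R y x).card := fun x => by
        obtain ⟨g', rfl⟩ := exists_smul_eq G a x
        rw [← tr g' (fun y => R y a) _ fun y => (inv g' y a).symm, ← hc, ← Set.ncard_coe_finset]
        refine Set.ncard_le_ncard fun y hy => ?_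
        simpa using h2 y (orbit_eq_iff.2 h3 ▸ hy)
      have h5 := card_mul_le_card_mul' (s := univ) (t := univ) (fun x y => R x y)
        (fun x _ => h4 x) fun y _ => (deg y).le
      rw [card_univ, hΩ] at h5
      have := Nat.le_of_mul_le_mul_left h5 (by omega)
      omega
  have sy : ∀ x y, R x y → R y x := by
    rintro _ _ ⟨g, rfl, rfl⟩; exact (inv g _ _).2 ba
  let Γ : SimpleGraph Ω := ⟨R, ⟨sy⟩, ⟨irr⟩⟩
  refine ⟨Γ, inv, Ra, (univ.filter fun x => R a x ∧ R b x).card,
    (univ.filter fun x => R a x ∧ R c x).card, srg_of hΩ deg ?_ fun v w h1 h2 => ?_⟩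
  · rintro _ _ ⟨g, rfl, rfl⟩
    exact (tr g (fun x => R a x ∧ R b x) (fun x => R (g • a) x ∧ R (g • b) x) fun x =>
      and_congr (inv g _ _).symm (inv g _ _).symm).symm
  · obtain ⟨g, rfl⟩ := exists_smul_eq G a v
    obtain ⟨w, rfl⟩ := MulAction.surjective g w
    obtain ⟨h, rfl⟩ := (cov w fun e => h1 (by rw [e])).resolve_left fun e =>
      h2 ((inv g _ _).2 ((Ra w).2 e))
    refine (tr (g * h) (fun x => R a x ∧ R c x) (fun x => R (g • a) x ∧ R (g • h • c) x)
      fun x => and_congr ?_ ?_).symm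
    · rw [← inv (g * h), mul_smul g h a, show (h : G) • a = a from h.2]
    · rw [← inv (g * h), mul_smul g h c]; rfl

/-- The action on an invariant graph. -/
def autHom {G Ω : Type*} [Group G] [MulAction G Ω] (Γ : SimpleGraph Ω)
    (h : ∀ (g : G) x y, Γ.Adj (g • x) (g • y) ↔ Γ.Adj x y) : G →* (Γ ≃g Γ) where
  toFun g := ⟨MulAction.toPerm g, h g _ _⟩
  map_one' := RelIso.ext fun x => one_smul G x
  map_mul' a b := RelIso.ext fun x => mul_smul a b x

/-- Conjugation by a graph isomorphism. -/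
def isoCongr {V W : Type*} {Γ : SimpleGraph V} {Δ : SimpleGraph W} (e : Γ ≃g Δ) :
    (Γ ≃g Γ) ≃* (Δ ≃g Δ) where
  toFun g := (e.symm.trans g).trans e
  invFun g := (e.trans g).trans e.symm
  left_inv g := RelIso.ext fun x => by simp
  right_inv g := RelIso.ext fun x => by simp
  map_mul' g h := RelIso.ext fun x => by simp

/-- The hundred points. -/
def hsΩ : SubMulAction sHS Lam where
  carrier := Sh2 lV lU' (-24) 0
  smul_mem' g _ hx := Sh2.smul g.2.1 g.2.2 hx

noncomputable instance hsAct : MulAction sHS hsΩ := SubMulAction.mulAction hsΩ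

instance : Finite hsΩ := (Sh2_fin lV lU' (-24) 0).to_subtype

/-- The base point. -/
def hsA : hsΩ := ⟨lU, U_mem_VU'⟩

instance : IsPretransitive sHS hsΩ := .of_orbit (x₀ := hsA) fun y => by
  obtain ⟨g, h1, h2⟩ := trans100 y y.2
  exact ⟨⟨g, h1⟩, Subtype.ext h2⟩

theorem hs_orbit (d : ℤ) {n : ℕ} (h : (Sh3 lV lU lU' (-24) d 0).ncard = n + 1) :
    ∃ b : hsΩ, (orbit (stabilizer sHS hsA) b).ncard = n + 1 := by
  obtain ⟨b, hb⟩ := Set.nonempty_of_ncard_ne_zero (h.trans_ne (Nat.succ_ne_zero n))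
  refine ⟨⟨b, hb.1.1, hb.1.2.1, hb.2⟩, ?_⟩
  rw [← h]
  refine Set.ncard_congr (fun y _ => y.1) ?_ (fun _ _ _ _ => Subtype.ext) fun y hy => ?_
  · rintro y ⟨g, rfl⟩
    have := (g • (⟨b, hb.1.1, hb.1.2.1, hb.2⟩ : hsΩ)).2
    exact ⟨⟨this.1, this.2.1, (co_dot_fix (congrArg Subtype.val g.2) b).trans hb.1.2.2⟩, this.2.2⟩
  · obtain ⟨g, h1, h2⟩ := rank100 b ⟨hb.1.1, hb.1.2.1, hb.2⟩ y ⟨hy.1.1, hy.1.2.1, hy.2⟩
      (hb.1.2.2.trans hy.1.2.2.symm)
    exact ⟨⟨y, hy.1.1, hy.1.2.1, hy.2⟩, ⟨⟨⟨g, h1.1.1, h1.2⟩, Subtype.ext h1.1.2⟩, Subtype.ext h2⟩, rfl⟩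

open Classical in
theorem exists_hs_graph : ∃ (Ω : Type) (_ : Fintype Ω) (Γ : SimpleGraph Ω)
    (φ : sHS →* (Γ ≃g Γ)), Γ.IsSRGWith 100 22 0 6 ∧ Function.Injective φ ∧
      ∀ x y, ∃ g, φ g x = y := by
  have := Fintype.ofFinite hsΩ
  obtain ⟨b, hb⟩ := hs_orbit 8 (n := 21) ((cen3 1 5 4).trans (by decide +kernel))
  obtain ⟨c, hc⟩ := hs_orbit 16 (n := 76) ((cen3 1 6 4).trans (by decide +kernel))
  have h0 : Fintype.card hsΩ = 100 := by rw [← Nat.card_eq_fintype_card]; exact n100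
  obtain ⟨Γ, h1, -, l, m, h2⟩ := rank3_srg h0 rfl (by norm_num) (by norm_num) hsA b c hb hc
  obtain ⟨rfl, rfl⟩ := srg_params h2
  refine ⟨hsΩ, this, Γ, autHom Γ h1, h2, ?_, fun x y => exists_smul_eq sHS x y⟩
  have := simple_sHS
  rcases (autHom Γ h1).normal_ker.eq_bot_or_eq_top with e | e
  · exact (MonoidHom.ker_eq_bot_iff _).1 e
  · exfalso
    obtain ⟨y, hy⟩ := Fintype.exists_ne_of_one_lt_card (h0 ▸ by norm_num) hsA
    obtain ⟨g, hg⟩ := exists_smul_eq sHS hsA y
    have : autHom Γ h1 g = 1 := e.ge (Subgroup.mem_top g)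
    exact hy (hg.symm.trans (congrArg (fun φ : Γ ≃g Γ => φ hsA) this))

theorem srg_hs {V : Type*} [Fintype V] {G : SimpleGraph V} [DecidableRel G.Adj]
    (h : G.IsSRGWith 100 22 0 6) : ∃ φ : sHS →* (G ≃g G), Function.Injective φ ∧
      ∀ x y, ∃ g, φ g x = y := by
  obtain ⟨Ω, _, Γ, φ, h1, h2, h3⟩ := exists_hs_graph
  classical
  obtain ⟨e⟩ := srg100_unique h1 h
  refine ⟨(isoCongr e).toMonoidHom.comp φ, (isoCongr e).injective.comp h2, fun x y => ?_⟩
  obtain ⟨g, hg⟩ := h3 (e.symm x) (e.symm y)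
  exact ⟨g, (congrArg e hg).trans (e.apply_symm_apply y)⟩

theorem pb_srg {α : Type*} [Fintype α] (hα : Fintype.card α = 22) {B : Set (Finset α)}
    (hB : IsSteinerSystem 3 6 B) [Fintype B] [DecidableRel (pointBlockGraph B).Adj] :
    (pointBlockGraph B).IsSRGWith 100 22 0 6 := by
  obtain ⟨Ω, _, Γ, φ, h1, -, -⟩ := exists_hs_graph
  classical
  obtain ⟨e⟩ := pb_iso_srg hα hB h1
  exact srg_iso e h1

theorem card_aut_pb {α : Type*} [Fintype α] (hα : Fintype.card α = 22) {B : Set (Finset α)}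
    (hB : IsSteinerSystem 3 6 B) :
    Nat.card (pointBlockGraph B ≃g pointBlockGraph B) = 88704000 := by
  classical
  have := Fintype.ofFinite B
  have h := pb_srg hα hB
  obtain ⟨φ, -, h2⟩ := srg_hs h
  have : IsPretransitive (pointBlockGraph B ≃g pointBlockGraph B) (Option (α ⊕ B)) :=
    ⟨fun x y => (h2 x y).elim fun g hg => ⟨φ g, hg⟩⟩
  obtain ⟨e⟩ := steiner_aut_K22 hα hB
  rw [← (stabilizer (pointBlockGraph B ≃g pointBlockGraph B) (none : Option (α ⊕ B))).card_mul_index,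
    index_stabilizer_of_transitive, card_stab_pb, Nat.card_congr e.toEquiv, card_K22,
    Nat.card_eq_fintype_card, h.card]

theorem card_aut_srg {V : Type*} [Fintype V] {G : SimpleGraph V} [DecidableRel G.Adj]
    (h : G.IsSRGWith 100 22 0 6) : Nat.card (G ≃g G) = 88704000 := by
  obtain ⟨a⟩ : Nonempty V := Fintype.card_pos_iff.1 (h.card ▸ by norm_num)
  obtain ⟨B, h1, ⟨e⟩⟩ := srg_design h a
  rw [← Nat.card_congr (isoCongr e).toEquiv]
  exact card_aut_pb ((card_neighborSet_eq_degree G a).trans (h.regular a)) h1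

theorem iso_of_index_two {A K S : Type*} [Group A] [Group K] [Group S] [Finite A]
    [IsSimpleGroup S] (ψ : K →* A) (φ : S →* A) (h1 : Function.Injective ψ)
    (h2 : Function.Injective φ) (h3 : Nat.card A = 2 * Nat.card K) (h4 : Nat.card K = Nat.card S)
    (h5 : 2 < Nat.card S) : Nonempty (K ≃* S) := by
  have c1 : Nat.card ψ.range = Nat.card K := Nat.card_congr (MonoidHom.ofInjective h1).toEquiv.symm
  have c2 : Nat.card φ.range = Nat.card S := Nat.card_congr (MonoidHom.ofInjective h2).toEquiv.symm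
  have i2 : ψ.range.index = 2 := by
    have := ψ.range.card_mul_index
    rw [c1, h3, mul_comm] at this
    exact Nat.eq_of_mul_eq_mul_right (by omega) this
  have n := Subgroup.normal_of_index_eq_two i2
  have le : φ.range ≤ ψ.range := by
    rcases (n.comap φ).eq_bot_or_eq_top with e | e
    · exfalso
      have a := Subgroup.index_comap ψ.range φ
      have b := Subgroup.relIndex_dvd_index_of_normal ψ.range φ.range
      rw [e, Subgroup.index_bot] at a
      rw [← a, i2] at b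
      exact absurd (Nat.le_of_dvd (by norm_num) b) (by omega)
    · rintro _ ⟨s, rfl⟩
      exact (e ▸ Subgroup.mem_top s : s ∈ ψ.range.comap φ)
  exact ⟨(MonoidHom.ofInjective h1).trans ((MulEquiv.subgroupCongr
    (Subgroup.eq_of_le_of_card_ge le (by omega)).symm).trans (MonoidHom.ofInjective h2).symm)⟩

end H15
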