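import Cfsg.Agent.H15.Uniq2

/-! Hyperovals of the projective plane of order four. -/

set_option autoImplicit false
set_option maxRecDepth 100000
set_option linter.unusedSectionVars false

namespace H15
open Cfsg Finset MulAction
open scoped Pointwise

/-- The octads through the points 23, 0, 1. -/
def pgL : List ℕ := [9347075, 14716939, 12656663, 8536111, 13893731, 9465987, 11010247, 11731203, 8421811, 8524371, 8716939, 13124355, 10765331, 8983587, 8398155, 9471495, 9963547, 8505411, 8657159, 10496547, 12717187]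

theorem pgL_spec : ∀ l ∈ pgL, isO l = true ∧ 8388611 &&& l = 8388611 := by decide +kernel

theorem pgL_all : ∀ o ∈ cw, o.card = 8 → S 8388611 ⊆ o → ∃ l ∈ pgL, o = S l :=
  forall_cw (fun m => bimp (band (Nat.beq (pc m) 8) (Nat.beq (Nat.land 8388611 m) 8388611))
    (anyL (fun l => Nat.beq m l) pgL)) (by decide +kernel) fun m hm h h1 h2 => by
      rw [card_S (isC_lt hm)] at h1
      rw [S_subset_iff (by norm_num)] at h2
      simp only [bimp_iff, band_iff, Nat.beq_eq, Nat.land_eq, anyL_iff] at h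
      obtain ⟨l, h3, rfl⟩ := h ⟨h1, h2⟩
      exact ⟨m, h3, rfl⟩

/-- No line meets the set in more than two points. -/
noncomputable def pgInd (m : ℕ) : Bool := allL (fun l => Nat.ble (pc (Nat.land l m)) 2) pgL

theorem pg_cnt4 : cntSub pgInd 8388604 24 4 0 = 2520 := by decide +kernel
theorem pg_cnt6 : cntSub pgInd 8388604 24 6 0 = 168 := by decide +kernel
theorem pg_ext : allSup (fun m => bimp (pgInd m)
    (Nat.beq (cntSub pgInd (Nat.land 8388604 (Nat.xor m 16777215)) 24 2 m) 1)) 8388604 0 4 = true := by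
  decide +kernel
theorem pg_oct : allSup (fun m => bimp (pgInd m) (band
    (allL (fun l => bnot (Nat.beq (pc (Nat.land l m)) 1)) pgL)
    (anyL (fun z => isO (Nat.lor m (Nat.xor 8388611 (Nat.pow 2 z)))) [23, 0, 1]))) 8388604 0 6 = true := by
  decide +kernel

variable {α : Type*} [Fintype α] [DecidableEq α] {L : Set (Finset α)} {f : α ↪ GolayPt}

theorem Emb.map_sub {Z V : ℕ} (h : Emb Z V f) (s : Finset α) : s.map f ⊆ S V := fun p hp => by
  obtain ⟨a, -, rfl⟩ := mem_map.1 hp; exact h.mem a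

theorem Emb.exists_map {Z V : ℕ} (h : Emb Z V f) {x : Finset GolayPt} (hx : x ⊆ S V) :
    ∃ s : Finset α, s.map f = x := by
  refine ⟨univ.filter fun a => f a ∈ x, ?_⟩
  ext p
  simp only [mem_map, mem_filter, mem_univ, true_and]
  exact ⟨by rintro ⟨a, h, rfl⟩; exact h, fun hp => by
    obtain ⟨a, rfl⟩ := (h.rng p).1 (hx hp); exact ⟨a, hp, rfl⟩⟩

theorem Emb.card_lift_inter {Z V : ℕ} (h : Emb Z V f) (l s : Finset α) :
    (lift Z f l ∩ s.map f).card = (l ∩ s).card := by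
  rw [← card_map f, map_inter, lift, union_inter_distrib_right,
    disjoint_iff_inter_eq_empty.1 (h.dis.mono_right (h.map_sub s)), empty_union]

theorem pg_lines (h : Canon 8388611 8388604 octads L f) (P : ℕ → Prop) (s : Finset α) :
    (∀ l ∈ L, P (l ∩ s).card) ↔ ∀ l ∈ pgL, P (pc (l &&& msk (s.map f))) := by
  constructor
  · intro h1 l hl
    obtain ⟨a, b⟩ := pgL_spec l hl
    obtain ⟨c, hc⟩ := h.toEmb.exists_lift (S_subset_of_and b) (sub_all _ rfl)
    rw [← card_S_and (isO_lt a), S_msk, ← hc, h.toEmb.card_lift_inter]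
    exact h1 c ((h.blk c).2 (hc ▸ S_mem_octads a))
  · intro h1 l hl
    have a := (h.blk l).1 hl
    obtain ⟨m, hm, e⟩ := pgL_all _ a.1 a.2 (sub_lift l)
    have := h1 m hm
    rwa [← card_S_and (isO_lt (pgL_spec m hm).1), S_msk, ← e, h.toEmb.card_lift_inter] at this

theorem pg_ind (h : Canon 8388611 8388604 octads L f) (s : Finset α) :
    (∀ l ∈ L, (l ∩ s).card ≤ 2) ↔ pgInd (msk (s.map f)) = true := by
  rw [pg_lines h (· ≤ 2), pgInd, allL_iff]
  simp only [Nat.ble_eq, Nat.land_eq]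

theorem pg_count (h : Canon 8388611 8388604 octads L f) (k : ℕ) :
    {s : Finset α | s.card = k ∧ ∀ l ∈ L, (l ∩ s).card ≤ 2}.ncard =
      cntSub pgInd 8388604 24 k 0 := by
  rw [cntSub_eq, ← Set.ncard_coe_finset]
  refine Set.ncard_congr (fun s _ => s.map f) (fun s hs => ?_) (fun _ _ _ _ e => map_injective f e)
    fun x hx => ?_
  · simp only [coe_filter, mem_powersetCard, Set.mem_setOf_eq, zero_add, card_map]
    exact ⟨⟨h.toEmb.map_sub s, hs.1⟩, (pg_ind h s).1 hs.2⟩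
  · simp only [coe_filter, mem_powersetCard, Set.mem_setOf_eq, zero_add] at hx
    obtain ⟨s, rfl⟩ := h.toEmb.exists_map hx.1.1
    exact ⟨s, ⟨(card_map f).symm.trans hx.1.2, (pg_ind h s).2 hx.2⟩, rfl⟩

theorem pg_unique (h : Canon 8388611 8388604 octads L f) (s : Finset α)
    (hs : s.card = 4 ∧ ∀ l ∈ L, (l ∩ s).card ≤ 2) :
    ∃! H : Finset α, (H.card = 6 ∧ ∀ l ∈ L, (l ∩ H).card ≤ 2) ∧ s ⊆ H := by
  have a := allSup_sound (by norm_num) pg_ext (c := s.map f) (by simp [S_zero])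
    (h.toEmb.map_sub s) (by rw [card_map, hs.1]; rfl)
  rw [bimp_iff, Nat.beq_eq, cntSub_eq, Nat.land_eq, xor_eq', S_sdiff, S_msk] at a
  obtain ⟨u, hu⟩ := card_eq_one.1 (a ((pg_ind h s).1 hs.2))
  have b : ∀ x, x = u ↔ (x ⊆ S 8388604 \ s.map f ∧ x.card = 2) ∧
      pgInd (msk (s.map f) + msk x) = true := fun x => by
    rw [← mem_singleton, ← hu, mem_filter, mem_powersetCard]
  obtain ⟨⟨b1, b2⟩, b3⟩ := (b u).1 rfl
  obtain ⟨t, rfl⟩ := h.toEmb.exists_map (b1.trans sdiff_subset)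
  have d : Disjoint (s.map f) (t.map f) := disjoint_sdiff.mono_right b1
  refine ⟨s ∪ t, ⟨⟨?_, ?_⟩, subset_union_left⟩, fun H ⟨⟨c1, c2⟩, c3⟩ => ?_⟩
  · rw [← card_map f, map_union, card_union_of_disjoint d, b2, card_map, hs.1]
  · rw [pg_ind h, map_union, msk_union d]; exact b3
  · have e : Disjoint (s.map f) ((H \ s).map f) := (disjoint_map f).2 disjoint_sdiff
    have := (b ((H \ s).map f)).2 ⟨⟨subset_sdiff.2 ⟨h.toEmb.map_sub _, e.symm⟩, by
      rw [card_map, card_sdiff_of_subset c3, c1, hs.1]⟩, by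
      rw [← msk_union e, ← map_union, union_sdiff_of_subset c3]; exact (pg_ind h H).1 c2⟩
    rw [← map_injective f this, union_sdiff_of_subset c3]

theorem pg_hyper (h : Canon 8388611 8388604 octads L f) {H : Finset α}
    (hH : H.card = 6 ∧ ∀ l ∈ L, (l ∩ H).card ≤ 2) : (∀ l ∈ L, (l ∩ H).card ≠ 1) ∧
      ∃ z ∈ S 8388611, H.map f ∪ (S 8388611).erase z ∈ octads := by
  have a := allSup_sound (by norm_num) pg_oct (c := H.map f) (by simp [S_zero])
    (h.toEmb.map_sub H) (by rw [card_map, hH.1]; rfl)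
  rw [bimp_iff, band_iff, allL_iff, anyL_iff] at a
  obtain ⟨a1, z, hz, a2⟩ := a ((pg_ind h H).1 hH.2)
  refine ⟨(pg_lines h (· ≠ 1) H).2 fun l hl => by simpa using a1 l hl, pt z,
    by clear a2; revert z; decide +kernel, ?_⟩
  have := S_mem_octads a2
  rw [Nat.lor_eq, S_or, S_msk] at this
  have e : ∀ z ∈ [23, 0, 1], S (Nat.xor 8388611 (Nat.pow 2 z)) = (S 8388611).erase (pt z) := by
    decide +kernel
  rwa [e z hz] at this

theorem pg_extend (h : Canon 8388611 8388604 octads L f) {H : Finset α}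
    (hH : H.card = 6 ∧ ∀ l ∈ L, (l ∩ H).card ≤ 2) (σ : Equiv.Perm H) :
    ∃ g ∈ setSystemAut L, ∀ p : H, g p = σ p := by
  obtain ⟨-, z, hz, ho⟩ := pg_hyper h hH
  let e : Fin 6 ≃ H := (H.equivFinOfCardEq hH.1).symm
  have m : ∀ p : H, f p ∈ H.map f ∪ (S 8388611).erase z := fun p =>
    mem_union_left _ (mem_map_of_mem f p.2)
  have hz' : z ∉ H.map f ∪ (S 8388611).erase z := by
    rw [mem_union, not_or]
    exact ⟨fun e => disjoint_left.1 h.dis hz (h.toEmb.map_sub H e), notMem_erase _ _⟩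
  obtain ⟨τ, h1, h2, h3, h4⟩ := oct_frame (n := 6) le_rfl ho ho (fun i => f (e i))
    (fun i => f (σ (e i))) (f.injective.comp (Subtype.val_injective.comp e.injective))
    (f.injective.comp (Subtype.val_injective.comp (σ.injective.comp e.injective)))
    (fun i => m _) (fun i => m _) hz' hz'
  have h5 : ∀ p : H, τ (f p) = f (σ p) := fun p => by simpa using h3 (e.symm p)
  have h6 : τ • H.map f = H.map f := by
    refine eq_of_subset_of_card_le (fun p hp => ?_) (card_smul_finset _ _).ge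
    obtain ⟨_, hq, rfl⟩ := mem_smul_finset.1 hp
    obtain ⟨a, ha, rfl⟩ := mem_map.1 hq
    rw [Equiv.Perm.smul_def, h5 ⟨a, ha⟩]
    exact mem_map_of_mem f (σ _).2
  have h7 : τ • S 8388611 = S 8388611 := by
    have : S 8388611 = insert z ((H.map f ∪ (S 8388611).erase z) \ H.map f) := by
      rw [union_sdiff_cancel_left ((h.dis.symm.mono_left (h.toEmb.map_sub H)).mono_right
        (erase_subset _ _)), insert_erase hz]
    rw [this, smul_finset_insert, smul_finset_sdiff, h2, h6, Equiv.Perm.smul_def, h4]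
  obtain ⟨φ, hφ⟩ := h.hom (M24 ⊓ stabilizer _ (S 8388611)) fun σ hσ =>
    ⟨hσ.2, smul_compl_eq hσ.2 rfl, fun _ => smul_mem_octads hσ.1⟩
  exact ⟨φ ⟨τ, h1, h7⟩, (φ _).2, fun p => f.injective ((hφ _ _).trans (h5 p))⟩

theorem pg_rigid (hα : Fintype.card α = 21) (hL : IsSteinerSystem 2 5 L) {H : Finset α}
    (hH : H.card = 6 ∧ ∀ l ∈ L, (l ∩ H).card ≤ 2) (h1 : ∀ l ∈ L, (l ∩ H).card ≠ 1)
    {g : Equiv.Perm α} (hg : g ∈ setSystemAut L) (hf : ∀ p ∈ H, g p = p) : g = 1 := by
  have a : ∀ l ∈ L, ∀ x ∈ H, x ∈ l → g • l = l := fun l hl x hx hxl => by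
    have := h1 l hl
    have : 0 < (l ∩ H).card := card_pos.2 ⟨x, mem_inter.2 ⟨hxl, hx⟩⟩
    refine steiner_unique hL (smul_mem_of_mem_setSystemAut hg hl) hl (s := l ∩ H) (by omega)
      (fun p hp => ?_) inter_subset_left
    rw [← hf p (mem_inter.1 hp).2, apply_mem_smul_iff]; exact (mem_inter.1 hp).1
  ext p
  obtain ⟨x, hx⟩ := card_pos.1 (hH.1 ▸ (by norm_num : 0 < 6))
  obtain ⟨l, hl, h2⟩ := steiner_exists hL {p, x} card_le_two (by omega)
  obtain ⟨y, hy, h3⟩ : ∃ y ∈ H, y ∉ l := by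
    by_contra h0
    push Not at h0
    have := hH.2 l hl
    rw [inter_eq_right.2 h0] at this
    omega
  obtain ⟨m, hm, h4⟩ := steiner_exists hL {p, y} card_le_two (by omega)
  have h5 := steiner_inter_lt hL hl hm (by rintro rfl; exact h3 (h4 (by simp)))
  have h6 : g p ∈ l ∩ m := by
    rw [← a l hl x hx (h2 (by simp)), ← a m hm y hy (h4 (by simp)), mem_inter, apply_mem_smul_iff,
      apply_mem_smul_iff]
    exact ⟨h2 (by simp), h4 (by simp)⟩
  exact card_le_one.1 (by omega) _ h6 _ (mem_inter.2 ⟨h2 (by simp), h4 (by simp)⟩)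

end H15
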