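import Cfsg.Agent.H15.AbsGolay
import Cfsg.Agent.H15.Co0
import Cfsg.Agent.H15.EvenLat

/-! Conway's characterisation of the Leech lattice. -/

set_option autoImplicit false
set_option maxRecDepth 100000

namespace H15
open Cfsg Finset

/-- A lattice in the coordinates of a frame. -/
structure Fr (A : AddSubgroup (GolayPt → ℤ)) : Prop where
  dot : ∀ x ∈ A, ∀ y ∈ A, (8 : ℤ) ∣ dotInt x y
  ev : ∀ x ∈ A, (16 : ℤ) ∣ sqNorm x
  min : ∀ x ∈ A, x ≠ 0 → 32 ≤ sqNorm x
  e8 : ∀ i, Pi.single i 8 ∈ A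
  p4 : ∀ i j, Pi.single i 4 - Pi.single j 4 ∈ A
  cnt : {x | x ∈ A ∧ sqNorm x = 32}.ncard = 196560

/-- The coordinates congruent to two modulo four. -/
def cd2 (x : GolayPt → ℤ) : Finset GolayPt := univ.filter fun i => x i % 4 = 2

theorem mem_cd2 {x : GolayPt → ℤ} {i : GolayPt} : i ∈ cd2 x ↔ x i % 4 = 2 := by simp [cd2]

variable {A : AddSubgroup (GolayPt → ℤ)}

/-- The code of a lattice. -/
def frC (A : AddSubgroup (GolayPt → ℤ)) : Set (Finset GolayPt) :=
  {s | ∃ x ∈ A, (∀ i, x i % 2 = 0) ∧ cd2 x = s}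

theorem Fr.par (h : Fr A) {x : GolayPt → ℤ} (hx : x ∈ A) :
    (∀ i, x i % 2 = 0) ∨ ∀ i, x i % 2 = 1 := by
  have : ∀ i, x i % 2 = x none % 2 := fun i => by
    have := h.dot _ (h.p4 i none) x hx
    rw [dotInt_sub_left, dotInt_single_left, dotInt_single_left] at this
    omega
  rcases Int.emod_two_eq_zero_or_one (x none) with e | e
  · exact Or.inl fun i => (this i).trans e
  · exact Or.inr fun i => (this i).trans e

theorem Fr.four (h : Fr A) {z : GolayPt → ℤ} (h1 : ∀ i, z i % 4 = 0) (h2 : (∑ i, z i) % 8 = 0) :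
    z ∈ A := by
  have : z = ∑ i, (z i / 4) • (Pi.single i 4 - Pi.single none 4 : GolayPt → ℤ) +
      ((∑ i, z i) / 8) • Pi.single none 8 := by
    ext p
    have e : ∑ i, z i / 4 * 4 = ∑ i, z i := sum_congr rfl fun i _ => by have := h1 i; omega
    have := h1 p
    simp only [Pi.add_apply, Finset.sum_apply, Pi.smul_apply, Pi.sub_apply, smul_eq_mul, mul_sub,
      sum_sub_distrib, Pi.single_apply, mul_ite, mul_zero, sum_ite_eq, mem_univ, if_true]
    split_ifs
    · rw [e]; omega
    · simp only [sum_const_zero]; omega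
  rw [this]
  exact A.add_mem (A.sum_mem fun i _ => A.zsmul_mem (h.p4 _ _) _) (A.zsmul_mem (h.e8 _) _)

theorem sum_mod_four {z : GolayPt → ℤ} (h : ∀ i, z i % 4 = 0) : (∑ i, z i) % 4 = 0 :=
  Int.emod_eq_zero_of_dvd (dvd_sum fun i _ => Int.dvd_of_emod_eq_zero (h i))

theorem Fr.code_min (h : Fr A) : ∀ s ∈ frC A, s ≠ ∅ → 8 ≤ s.card := by
  rintro _ ⟨x, hx, h1, rfl⟩ hne
  obtain ⟨p, hp⟩ := nonempty_iff_ne_empty.2 hne
  have a : ∀ s i, (x - oc (cd2 x) s) i % 4 = 0 := fun s i => by
    have := h1 i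
    simp only [Pi.sub_apply, oc, mem_cd2]
    split_ifs <;> omega
  have b : ∀ s, (∑ i, (x - oc (cd2 x) s) i) % 8 = 0 → 8 ≤ (cd2 x).card := fun s e => by
    have := h.min _ (sub_sub_cancel x _ ▸ A.sub_mem hx (h.four (a s) e)) fun e' => by
      have := congrFun e' p
      simp only [oc, hp, if_true, Pi.zero_apply] at this
      split_ifs at this <;> omega
    rw [norm_oc] at this
    omega
  have c : ∑ i, (x - oc (cd2 x) {p}) i = ∑ i, (x - oc (cd2 x) ∅) i + 4 := by
    have : ∀ i, (x - oc (cd2 x) {p}) i = (x - oc (cd2 x) ∅) i + if i = p then 4 else 0 := fun i => by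
      simp only [Pi.sub_apply, oc, mem_singleton, notMem_empty, if_false]
      split_ifs with h2 h3 h4
      · omega
      · omega
      · exact absurd (h4 ▸ hp) h2
      · omega
    simp only [this, sum_add_distrib, sum_ite_eq', mem_univ, if_true]
  have := sum_mod_four (a ∅)
  by_cases e : (∑ i, (x - oc (cd2 x) ∅) i) % 8 = 0
  · exact b _ e
  · exact b {p} (by omega)

theorem cd2_add {x y : GolayPt → ℤ} (hx : ∀ i, x i % 2 = 0) (hy : ∀ i, y i % 2 = 0) :
    cd2 (x + y) = symmDiff (cd2 x) (cd2 y) := by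
  ext i
  have := hx i
  have := hy i
  simp only [mem_cd2, mem_symmDiff, Pi.add_apply]
  omega

theorem Fr.code_sd : ∀ s ∈ frC A, ∀ t ∈ frC A, symmDiff s t ∈ frC A := by
  rintro _ ⟨x, hx, h1, rfl⟩ _ ⟨y, hy, h2, rfl⟩
  exact ⟨x + y, A.add_mem hx hy, fun i => by have := h1 i; have := h2 i; simp only [Pi.add_apply]; omega,
    cd2_add h1 h2⟩

theorem sum_le_eq {f g : GolayPt → ℤ} (h : ∀ i, f i ≤ g i) (e : ∑ i, g i ≤ ∑ i, f i) (i : GolayPt) :
    f i = g i :=
  (sum_eq_sum_iff_of_le fun i _ => h i).1 (le_antisymm (sum_le_sum fun i _ => h i) e) i (mem_univ i)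

theorem shape_odd {x : GolayPt → ℤ} (h : ∀ i, x i % 2 = 1) (hn : sqNorm x = 32) :
    ∃ p, (x p = 3 ∨ x p = -3) ∧ ∀ i, i ≠ p → x i = 1 ∨ x i = -1 := by
  have a : ∀ i, 1 ≤ x i ^ 2 := fun i => by
    have := h i
    rcases (by omega : x i ≤ -1 ∨ 1 ≤ x i) with e | e <;> nlinarith
  obtain ⟨p, hp⟩ : ∃ p, x p ^ 2 ≠ 1 := by
    by_contra h0
    push Not at h0
    simp only [sqNorm, h0, sum_pt] at hn
    omega
  have b : 9 ≤ x p ^ 2 := by
    have := h p
    rcases (by omega : x p ≤ -3 ∨ 3 ≤ x p ∨ x p = 1 ∨ x p = -1) with e | e | e | e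
    · nlinarith
    · nlinarith
    · simp [e] at hp
    · simp [e] at hp
  have c := sum_le_eq (f := fun i => 1 + if i = p then 8 else 0) (g := fun i => x i ^ 2)
    (fun i => by
      split_ifs with e
      · rw [e]; omega
      · have := a i; omega)
    (by simp only [sum_add_distrib, sum_pt, sum_ite_eq', mem_univ, if_true]; exact hn.le)
  refine ⟨p, ?_, fun i hi => ?_⟩
  · have := c p
    simp only [if_true] at this
    exact sq_eq_sq_iff_eq_or_eq_neg.1 (show x p ^ 2 = 3 ^ 2 by omega)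
  · have := c i
    simp only [hi, if_false] at this
    exact sq_eq_sq_iff_eq_or_eq_neg.1 (show x i ^ 2 = 1 ^ 2 by omega)

theorem shape_even {x : GolayPt → ℤ} (hn : sqNorm x = 32) (hc : 8 ≤ (cd2 x).card) :
    (cd2 x).card = 8 ∧ ∀ i, if i ∈ cd2 x then x i = 2 ∨ x i = -2 else x i = 0 := by
  have a : ∀ i, (if i ∈ cd2 x then 4 else 0) ≤ x i ^ 2 := fun i => by
    split_ifs with e
    · rw [mem_cd2] at e
      rcases (by omega : x i ≤ -2 ∨ 2 ≤ x i) with e | e <;> nlinarith
    · exact sq_nonneg _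
  have b := sum_le_sum fun i (_ : i ∈ univ) => a i
  have hn' : ∑ i, x i ^ 2 = 32 := hn
  rw [sum_ind, hn'] at b
  have c := sum_le_eq a (by rw [sum_ind, hn']; omega)
  refine ⟨by omega, fun i => ?_⟩
  have := c i
  split_ifs at this ⊢
  · exact sq_eq_sq_iff_eq_or_eq_neg.1 (show x i ^ 2 = 2 ^ 2 by omega)
  · exact pow_eq_zero_iff (two_ne_zero) |>.1 this.symm

theorem cnt_four : {x : GolayPt → ℤ | x ∈ leechLattice ∧ sqNorm x = (32 : ℕ) ∧
    ∀ i, Nat.beq ((x i + 8).toNat % 4) 0 = true}.ncard = 1104 :=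
  (leech_count (fun j => Nat.beq (j % 4) 0) (by norm_num)).trans (by decide +kernel)

theorem Fr.code (h : Fr A) : ACode (frC A) ∧ ∃ x ∈ A, ∀ i, x i % 2 = 1 := by
  classical
  have fin := finite_norm 32
  let M := fin.toFinset.filter (· ∈ A)
  have mM : ∀ x, x ∈ M ↔ x ∈ A ∧ sqNorm x = 32 := fun x => by simp [M, and_comm]
  have cM : M.card = 196560 := by
    rw [← h.cnt, ← Set.ncard_coe_finset]; congr 1; ext x; simp [mM]
  let M1 := M.filter fun x => (∀ i, x i % 2 = 0) ∧ cd2 x = ∅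
  let M2 := M.filter fun x => (∀ i, x i % 2 = 0) ∧ cd2 x ≠ ∅
  let M3 := M.filter fun x => ∀ i, x i % 2 = 1
  have c0 : M.card ≤ M1.card + M2.card + M3.card := by
    refine (card_le_card fun x hx => ?_).trans ((card_union_le (M1 ∪ M2) M3).trans
      (Nat.add_le_add_right (card_union_le _ _) _))
    simp only [M1, M2, M3, mem_union, mem_filter, hx, true_and]
    have := h.par ((mM x).1 hx).1
    tauto
  have c1 : M1.card ≤ 1104 := by
    rw [← cnt_four, ← Set.ncard_coe_finset]
    refine Set.ncard_le_ncard (fun x hx => ?_) (fin.subset fun x hx => hx.2.1)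
    obtain ⟨h1, h2, h3⟩ := mem_filter.1 hx
    obtain ⟨h4, h5⟩ := (mM x).1 h1
    have a : ∀ i, x i % 4 = 0 := fun i => by
      have := h2 i
      have : ¬ x i % 4 = 2 := fun e => notMem_empty i (h3 ▸ mem_cd2.2 e)
      omega
    refine ⟨mem_leech_of_four a ?_, h5, fun i => ?_⟩
    · have := dvd_sum_sub univ (fun i => x i ^ 2) (fun i => 4 * x i) 32 fun i _ => by
        obtain ⟨k, hk⟩ := Int.dvd_of_emod_eq_zero (a i)
        obtain ⟨m, hm⟩ := Int.even_mul_pred_self k
        exact ⟨m, by rw [hk]; linear_combination 16 * hm⟩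
      rw [← mul_sum, show ∑ i, x i ^ 2 = 32 from h5] at this
      omega
    · have := abs_le_of_sqNorm (b := 5) h5.le (by norm_num) (by norm_num) i
      have := a i
      rw [Nat.beq_eq]; omega
  have c2 : M2.card ≤ 128 * 759 := by
    have s : ∀ x ∈ M2, (cd2 x).card = 8 ∧ ∀ i, if i ∈ cd2 x then x i = 2 ∨ x i = -2 else x i = 0 :=
      fun x hx => by
        obtain ⟨h1, h2, h3⟩ := mem_filter.1 hx
        exact shape_even ((mM x).1 h1).2 (h.code_min _ ⟨x, ((mM x).1 h1).1, h2, rfl⟩ h3)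
    refine (card_le_mul_card_image (f := cd2) M2 128 fun c hc => ?_).trans
      (Nat.mul_le_mul_left _ ?_)
    · obtain ⟨y, hy, rfl⟩ := mem_image.1 hc
      obtain ⟨p, hp⟩ := card_pos.1 ((s y hy).1 ▸ (by norm_num : 0 < 8))
      refine (card_le_card_of_injOn (t := ((cd2 y).erase p).powerset)
        (fun x => ((cd2 y).erase p).filter fun i => x i < 0)
        (fun x _ => mem_coe.2 (mem_powerset.2 (filter_subset _ _))) fun x hx z hz e => ?_).trans
        (by rw [card_powerset, card_erase_of_mem hp, (s y hy).1]; rfl)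
      obtain ⟨a1, a2⟩ := mem_filter.1 hx
      obtain ⟨b1, b2⟩ := mem_filter.1 hz
      have d : x - z = Pi.single p (x p - z p) := by
        ext i
        have a3 := (s x a1).2 i
        have b3 := (s z b1).2 i
        rw [a2] at a3
        rw [b2] at b3
        by_cases e' : i = p
        · simp [e']
        · have := (Finset.ext_iff.1 e) i
          simp only [mem_filter, mem_erase, ne_eq, e', not_false_eq_true, true_and] at this
          rw [Pi.single_eq_of_ne e', Pi.sub_apply]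
          split_ifs at a3 b3 with e''
          · simp only [e'', true_and] at this; omega
          · omega
      by_contra hne
      have := h.min _ (A.sub_mem ((mM x).1 (mem_filter.1 a1).1).1 ((mM z).1 (mem_filter.1 b1).1).1)
        (sub_ne_zero.2 hne)
      have a3 := (s x a1).2 p
      have b3 := (s z b1).2 p
      rw [a2, if_pos hp] at a3
      rw [b2, if_pos hp] at b3
      rw [d, sqNorm_single] at this
      rcases a3 with a3 | a3 <;> rcases b3 with b3 | b3 <;> rw [a3, b3] at this <;> omega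
    · have := card_le_card (s := (M2.image cd2).biUnion (powersetCard 5)) (t := powersetCard 5 univ)
        fun t ht => by
          obtain ⟨c, -, ht⟩ := mem_biUnion.1 ht
          exact powersetCard_mono (subset_univ _) ht
      rw [card_biUnion, sum_congr rfl (g := fun _ => 56) fun c hc => by
        obtain ⟨y, hy, rfl⟩ := mem_image.1 hc
        rw [card_powersetCard, (s y hy).1]; rfl, card_powersetCard, card_univ, card_pt, sum_const,
        smul_eq_mul, show Nat.choose 24 5 = 42504 by decide +kernel] at this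
      · omega
      · intro c hc d hd e
        obtain ⟨y, hy, rfl⟩ := mem_image.1 hc
        obtain ⟨z, hz, rfl⟩ := mem_image.1 hd
        refine disjoint_left.2 fun t h1 h2 => ?_
        rw [mem_powersetCard] at h1 h2
        have := h.code_min _ (Fr.code_sd _ ⟨y, ((mM y).1 (mem_filter.1 hy).1).1,
          (mem_filter.1 hy).2.1, rfl⟩ _ ⟨z, ((mM z).1 (mem_filter.1 hz).1).1,
          (mem_filter.1 hz).2.1, rfl⟩) fun e' => e (symmDiff_eq_bot.1 e')
        have := card_symmDiff_add (cd2 y) (cd2 z)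
        have := card_le_card (subset_inter h1.1 h2.1)
        have := (s y hy).1
        have := (s z hz).1
        omega
  obtain ⟨x0, hx0⟩ := card_pos.1 (by omega : 0 < M3.card)
  obtain ⟨a1, a2⟩ := mem_filter.1 hx0
  refine ⟨⟨⟨0, A.zero_mem, fun _ => rfl, by ext; simp [mem_cd2]⟩, Fr.code_sd, ?_, h.code_min⟩,
    x0, ((mM _).1 a1).1, a2⟩
  have c3 : M3.card ≤ 24 * (M3.image fun x => cd2 (x - x0)).card := by
    refine card_le_mul_card_image M3 24 fun c _ => ?_
    have s : ∀ x : M3, ∃ p, (x.1 p = 3 ∨ x.1 p = -3) ∧ ∀ i, i ≠ p → x.1 i = 1 ∨ x.1 i = -1 :=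
      fun x => shape_odd (mem_filter.1 x.2).2 ((mM _).1 (mem_filter.1 x.2).1).2
    choose q hq using s
    rw [← card_pt, ← card_univ]
    refine card_le_card_of_injOn (fun x => if hx : x ∈ M3 then q ⟨x, hx⟩ else none)
      (fun _ _ => mem_coe.2 (mem_univ _)) fun x hx z hz e => ?_
    obtain ⟨b1, b2⟩ := mem_filter.1 hx
    obtain ⟨b3, b4⟩ := mem_filter.1 hz
    simp only [b1, b3, dif_pos] at e
    ext i
    have d1 := hq ⟨x, b1⟩
    have d2 := hq ⟨z, b3⟩
    rw [← e] at d2
    have d3 := (Finset.ext_iff.1 (b2.trans b4.symm)) i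
    have := a2 i
    simp only [mem_cd2, Pi.sub_apply] at d3
    by_cases e' : i = q ⟨x, b1⟩
    · rw [← e'] at d1 d2
      have := d1.1
      have := d2.1
      simp only at *
      omega
    · have := d1.2 i e'
      have := d2.2 i e'
      simp only at *
      omega
  have c4 : (M3.image fun x => cd2 (x - x0)).card ≤ (frC A).ncard := by
    rw [← Set.ncard_coe_finset]
    refine Set.ncard_le_ncard fun c hc => ?_
    obtain ⟨x, hx, rfl⟩ := mem_image.1 hc
    obtain ⟨b1, b2⟩ := mem_filter.1 hx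
    exact ⟨x - x0, A.sub_mem ((mM _).1 b1).1 ((mM _).1 a1).1, fun i => by
      have := a2 i; have := b2 i; simp only [Pi.sub_apply]; omega, rfl⟩
  omega

theorem Fr.leech (h : Fr A) : ∃ (σ : Equiv.Perm GolayPt) (d : Finset GolayPt),
    ∀ x ∈ A, signedPerm σ d x ∈ leechLattice := by
  obtain ⟨h1, x0, h2, h3⟩ := h.code
  obtain ⟨σ, hσ⟩ := h1.iso card_pt
  let d : Finset GolayPt := (univ.filter fun i => x0 i % 4 = 3).map σ.toEmbedding
  have md : ∀ i, σ i ∈ d ↔ x0 i % 4 = 3 := fun i => by simp [d]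
  have sm : ∀ x : GolayPt → ℤ, ∑ i, signedPerm σ d x i = ∑ i, if x0 i % 4 = 3 then -x i else x i :=
    fun x => by
      rw [← Equiv.sum_comp σ]
      simp only [sp_apply, md]
  have ev : ∀ x ∈ A, (∀ i, x i % 2 = 0) → signedPerm σ d x ∈ leechLattice := fun x hx e => by
    refine LC.mem (m := 0) (c := (cd2 x).map σ.toEmbedding) ⟨Or.inl rfl, (hσ _).1 ⟨x, hx, e, rfl⟩,
      fun i => ?_, ?_⟩
    · obtain ⟨i, rfl⟩ := σ.surjective i
      have := e i
      simp only [sp_apply, show σ i ∈ (cd2 x).map σ.toEmbedding ↔ x i % 4 = 2 from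
        (mem_map' σ.toEmbedding).trans mem_cd2]
      split_ifs <;> omega
    · have a := h.dot x hx x0 h2
      have b := dvd_sum_sub univ (fun i => x i * x0 i) (fun i => if x0 i % 4 = 3 then -x i else x i) 8
        fun i _ => by
          obtain ⟨k, hk⟩ := Int.dvd_of_emod_eq_zero (e i)
          have := h3 i
          split_ifs with e'
          · exact ⟨k * (x0 i / 4 + 1), by
              rw [hk]; linear_combination 2 * k * (by omega : x0 i = 4 * (x0 i / 4) + 3)⟩
          · exact ⟨k * (x0 i / 4), by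
              rw [hk]; linear_combination 2 * k * (by omega : x0 i = 4 * (x0 i / 4) + 1)⟩
      rw [sm]
      unfold dotInt at a
      omega
  have od : signedPerm σ d x0 ∈ leechLattice := by
    refine LC.mem (m := 1) (c := ∅) ⟨Or.inr rfl, cw_empty, fun i => ?_, ?_⟩
    · obtain ⟨i, rfl⟩ := σ.surjective i
      have := h3 i
      simp only [sp_apply, md, if_neg (notMem_empty _)]
      split_ifs <;> omega
    · have a := h.ev x0 h2
      have b := dvd_sum_sub univ (fun i => x0 i ^ 2)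
        (fun i => 2 * (if x0 i % 4 = 3 then -x0 i else x0 i) - 1) 16 fun i _ => by
          have := h3 i
          split_ifs with e'
          · exact ⟨(x0 i / 4 + 1) ^ 2, by
              rw [(by omega : x0 i = 4 * (x0 i / 4) + 3)]
              rw [show (4 * (x0 i / 4) + 3) / 4 = x0 i / 4 by omega]; ring⟩
          · exact ⟨(x0 i / 4) ^ 2, by
              rw [(by omega : x0 i = 4 * (x0 i / 4) + 1)]
              rw [show (4 * (x0 i / 4) + 1) / 4 = x0 i / 4 by omega]; ring⟩
      rw [sum_sub_distrib, ← mul_sum, sum_pt] at b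
      rw [sm]
      unfold sqNorm at a
      omega
  refine ⟨σ, d, fun x hx => ?_⟩
  rcases h.par hx with e | e
  · exact ev x hx e
  · rw [← add_sub_cancel x0 x, sp_add]
    exact add_mem od (ev _ (A.sub_mem hx h2) fun i => by
      have := e i; have := h3 i; simp only [Pi.sub_apply]; omega)

theorem RL.frame {L : Type*} [AddCommGroup L] [Module.Free ℤ L] [Module.Finite ℤ L]
    {b : L →+ L →+ ℤ} (h : RL b 1) (hr : Module.finrank ℤ L = 24)
    (h4 : {x | b x x = 4 * 1}.ncard = 196560) (h6 : {x | b x x = 6 * 1}.ncard = 16773120)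
    (h8 : {x | b x x = 8 * 1}.ncard = 398034000) :
    ∃ φ : L →+ (GolayPt → ℤ), (∀ v w, dotInt (φ v) (φ w) = 8 * b v w) ∧
      (∀ i, Pi.single i 8 ∈ φ.range) ∧ ∀ i j, Pi.single i 4 - Pi.single j 4 ∈ φ.range := by
  classical
  obtain ⟨x, hx⟩ := Set.nonempty_of_ncard_ne_zero (h8.trans_ne (by norm_num))
  have h0 := (h.main hr h4 h6 h8).1 x hx
  obtain ⟨C, hC⟩ := (Set.finite_of_ncard_ne_zero (h0.trans_ne (by norm_num))).exists_finset_coe
  have mC : ∀ y, y ∈ C ↔ b y y = 8 * 1 ∧ ∃ z, x - y = 2 • z := fun y => by rw [← mem_coe, hC]; rfl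
  rw [← hC, Set.ncard_coe_finset] at h0
  have cc : ∀ y ∈ C, ∀ y' ∈ C, ∃ z, y - y' = 2 • z := fun y hy y' hy' => by
    obtain ⟨z, hz⟩ := ((mC y).1 hy).2
    obtain ⟨z', hz'⟩ := ((mC y').1 hy').2
    exact ⟨z' - z, by rw [smul_sub, ← hz, ← hz']; abel⟩
  obtain ⟨F, hF, -, h1, h2⟩ := h.exists_half C (fun y hy => ((mC y).1 hy).1) (fun y hy => by
    obtain ⟨a, z, hz⟩ := (mC y).1 hy
    exact (mC _).2 ⟨by simpa using a, z + y, by rw [smul_add, ← hz, two_smul]; abel⟩) cc
  have n0 : ∀ y ∈ F, y ≠ 0 := fun y hy e => by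
    have := ((mC y).1 (hF hy)).1
    simp [e] at this
  have le : ∀ F : Finset L, (∀ x ∈ F, x ≠ 0) → (∀ x ∈ F, ∀ y ∈ F, x ≠ y → b x y = 0) →
      F.card ≤ 24 := fun F a c => by
    have := (h.linInd F a c).fintype_card_le_finrank
    rwa [Fintype.card_coe, hr] at this
  have cF : F.card = 24 := by have := le F n0 h1; omega
  let e : GolayPt ≃ F := Fintype.equivOfCardEq (by rw [card_pt, Fintype.card_coe, cF])
  have be : ∀ i j, b (e i) (e j) = if i = j then 8 else 0 := fun i j => by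
    split_ifs with e'
    · rw [e']; exact ((mC _).1 (hF (e j).2)).1
    · exact h1 _ (e i).2 _ (e j).2 fun e'' => e' (e.injective (Subtype.ext e''))
  let φ : L →+ (GolayPt → ℤ) := AddMonoidHom.mk' (fun v i => b v (e i)) fun v w => by
    ext i; simp
  have ex : ∀ v, (8 : ℤ) • v = ∑ i, b v (e i) • (e i : L) := fun v => by
    by_contra hne
    have o : ∀ j, b ((8 : ℤ) • v - ∑ i, b v (e i) • (e i : L)) (e j) = 0 := fun j => by
      simp only [map_sub, map_zsmul, map_sum, AddMonoidHom.sub_apply, AddMonoidHom.smul_apply,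
        AddMonoidHom.finset_sum_apply, be, smul_eq_mul, mul_ite, mul_zero, sum_ite_eq', mem_univ,
        if_true]
      ring
    generalize hw : (8 : ℤ) • v - ∑ i, b v (e i) • (e i : L) = w at o
    have w0 : w ≠ 0 := hw ▸ sub_ne_zero.2 hne
    have o' : ∀ y ∈ F, b w y = 0 := fun y hy => by simpa using o (e.symm ⟨y, hy⟩)
    have wF : w ∉ F := fun e' => by
      have := h.min w w0
      rw [o' w e'] at this; omega
    have := le (insert w F) (by simpa [w0] using n0) fun y hy z hz hyz => by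
      rcases mem_insert.1 hy with a | a <;> rcases mem_insert.1 hz with c | c
      · exact absurd (a.trans c.symm) hyz
      · rw [a]; exact o' z c
      · rw [h.symm, c]; exact o' y a
      · exact h1 y a z c hyz
    rw [card_insert_of_notMem wF] at this
    omega
  refine ⟨φ, fun v w => ?_, fun i => ⟨e i, ?_⟩, fun i j => ?_⟩
  · have := congrArg (fun u => b u w) (ex v)
    simp only [map_zsmul, AddMonoidHom.smul_apply, smul_eq_mul, map_sum,
      AddMonoidHom.finset_sum_apply] at this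
    rw [this]
    exact sum_congr rfl fun i _ => congrArg _ (h.symm _ _)
  · ext j; simp [φ, be, Pi.single_apply, eq_comm]
  · obtain ⟨z, hz⟩ := cc _ (hF (e i).2) _ (hF (e j).2)
    refine ⟨z, funext fun k => ?_⟩
    have := congrArg (fun u => b u (e k)) hz
    simp only [map_sub, AddMonoidHom.sub_apply, be, map_nsmul, AddMonoidHom.nsmul_apply,
      nsmul_eq_mul] at this
    show b z (e k) = _
    simp only [Pi.sub_apply, Pi.single_apply, eq_comm (a := k)]
    split_ifs at this ⊢ <;> omega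

theorem RL.leech {L : Type*} [AddCommGroup L] [Module.Free ℤ L] [Module.Finite ℤ L]
    {b : L →+ L →+ ℤ} (h : RL b 1) (hr : Module.finrank ℤ L = 24)
    (h4 : {x | b x x = 4 * 1}.ncard = 196560) (h6 : {x | b x x = 6 * 1}.ncard = 16773120)
    (h8 : {x | b x x = 8 * 1}.ncard = 398034000) :
    ∃ f : L ≃+ leechLattice, ∀ x, sqNorm (f x : GolayPt → ℤ) = 8 * b x x := by
  obtain ⟨φ, h1, h2, h3⟩ := h.frame hr h4 h6 h8
  have n : ∀ v, sqNorm (φ v) = 8 * b v v := fun v => by rw [← dotInt_self, h1]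
  have z : ∀ v, 8 * b v v = 0 → v = 0 := fun v e => by
    by_contra hne
    have := h.min v hne
    omega
  have inj : Function.Injective φ := (injective_iff_map_eq_zero φ).2 fun v e =>
    z v (by rw [← n, e, sqNorm_zero])
  have fr : Fr φ.range := ⟨by rintro _ ⟨v, rfl⟩ _ ⟨w, rfl⟩; exact ⟨_, h1 v w⟩, by
    rintro _ ⟨v, rfl⟩
    have := h.even v
    rw [n]; omega, by
    rintro _ ⟨v, rfl⟩ hv
    have := h.min v (by rintro rfl; exact hv (map_zero φ))
    rw [n]; omega, h2, h3, by
    rw [← h4]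
    symm
    refine Set.ncard_congr (fun v _ => φ v) (fun v hv => ⟨⟨v, rfl⟩, by rw [n, hv]; rfl⟩)
      (fun _ _ _ _ e => inj e) ?_
    rintro _ ⟨⟨v, rfl⟩, hv⟩
    exact ⟨v, by rw [n] at hv; show b v v = _; omega, rfl⟩⟩
  obtain ⟨σ, d, hσ⟩ := fr.leech
  let ψ : L →+ (GolayPt → ℤ) := (AddMonoidHom.mk' (signedPerm σ d) (sp_add σ d)).comp φ
  have n' : ∀ v, sqNorm (ψ v) = 8 * b v v := fun v => (sp_norm σ d _).trans (n v)
  have inj' : Function.Injective ψ := (injective_iff_map_eq_zero ψ).2 fun v e =>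
    z v (by rw [← n', e, sqNorm_zero])
  have le : leechLattice ≤ ψ.range := leech_le_of_min _ fun x hx hn => by
    have : ψ '' {x | b x x = 4 * 1} = {x | x ∈ leechLattice ∧ sqNorm x = 32} :=
      Set.eq_of_subset_of_ncard_le (by
        rintro _ ⟨v, hv, rfl⟩; exact ⟨hσ _ ⟨v, rfl⟩, by rw [n', hv]; rfl⟩)
        (by rw [Set.ncard_image_of_injective _ inj', h4, leech_ncard32])
        ((finite_norm 32).subset fun _ h => h.2)
    obtain ⟨v, -, hv⟩ := this.ge ⟨hx, hn⟩
    exact ⟨v, hv⟩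
  refine ⟨AddEquiv.ofBijective (ψ.codRestrict leechLattice fun v => hσ _ ⟨v, rfl⟩)
    ⟨fun v w e => inj' (congrArg Subtype.val e), fun x => ?_⟩, n'⟩
  obtain ⟨v, hv⟩ := le x.2
  exact ⟨v, Subtype.ext hv⟩

end H15
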