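import Cfsg.Agent.H15.R3b
import Cfsg.Agent.H16.Fast

/-! Rank 3 groups: certificates. -/

set_option linter.unusedSectionVars false

namespace H15.R3
open MulAction H16 H0.TR

variable {H Λ : Type*} [Group H] [MulAction H Λ] {g x : ℕ → H} {pt : ℕ → Λ} {P Px : ℕ → ℕ → ℕ}
  {N K c n m : ℕ} {B : List ℕ}

theorem ncard_ge {Y : Set Λ} (hf : Y.Finite) (hp : PtInj pt N) {l : Lev}
    (h : ∀ v < l.n, l.Pt v < N ∧ l.Q (l.Pt v) = v ∧ pt (l.Pt v) ∈ Y) : l.n ≤ Y.ncard := by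
  have := Set.ncard_le_ncard (s := (fun v => pt (l.Pt v)) '' (Finset.range l.n : Set ℕ)) (t := Y)
    (by rintro _ ⟨i, hi, rfl⟩; exact (h i (by simpa using hi)).2.2) hf
  rwa [Set.InjOn.ncard_image fun i hi j hj e => by
    have h1 := h i (by simpa using hi); have h2 := h j (by simpa using hj)
    rw [← h1.2.1, hp _ h1.1 _ h2.1 e, h2.2.1], Set.ncard_coe_finset, Finset.card_range] at this

theorem card_inf {A : Subgroup H} (y : Λ) :
    Nat.card A = (orbit A y).ncard * Nat.card (A ⊓ stabilizer H y : Subgroup H) := by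
  rw [card_stab y]
  congr 1
  exact Nat.card_congr ⟨fun z => ⟨z.1.1, z.1.2, z.2⟩, fun z => ⟨⟨z.1, z.2.1⟩, z.2.2⟩, fun _ => rfl, fun _ => rfl⟩

theorem orb_ge [Finite H] (hp : PtInj pt N) {l : Lev} (hl : DOK l Px N) (hx : Act x pt Px N n)
    (e : 0 < l.K ∧ l.K ≤ n) : l.n ≤ (orbit (gen x n) (pt (l.Pt 0))).ncard :=
  ncard_ge (Set.finite_range _) hp fun v hv => by
    obtain ⟨h1, h2, h3⟩ := hl.sound (hx.mono e.2) v hv
    exact ⟨h1, h2, ⟨_, gen_mono x e.2 (gen_gi x _ ▸ tw_mem _ l.D e.1 v)⟩, h3⟩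

theorem big [Finite H] (hp : PtInj pt N) {l : Lev} (hl : DOK l Px N) (hx : Act x pt Px N n) {a b r : ℕ}
    (ha : Nat.card (gen x n) = a) (e : 0 < l.K ∧ l.K ≤ n ∧ a < l.n * b ∧ l.Pt 0 = r) :
    Nat.card (gen x n ⊓ stabilizer H (pt r) : Subgroup H) ≠ b := fun h => by
  have h1 := card_inf (A := gen x n) (pt r)
  have h2 := Nat.mul_le_mul_right b (e.2.2.2 ▸ orb_ge hp hl hx ⟨e.1, e.2.1⟩)
  rw [h, ha] at h1
  omega

noncomputable def fxEnt (P : ℕ → ℕ → ℕ) (k p q i : ℕ) : ℕ :=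
  force i fun i => Nat.mul (Nat.mul (Nat.xor i p) (Nat.xor i q))
    (Nat.sub 1 (Nat.rec (nat_lit 0) (fun j ih => Nat.add ih (Nat.xor (P j i) i)) k))

theorem mv_zero {P : ℕ → ℕ → ℕ} {k i : ℕ} (h : ∀ j < k, P j i = i) :
    (Nat.rec (nat_lit 0) (fun j ih => Nat.add ih (Nat.xor (P j i) i)) k : ℕ) = 0 := by
  induction k with
  | zero => rfl
  | succ k ih =>
    show Nat.add (Nat.rec _ _ k) _ = 0
    rw [ih fun j hj => h j (by omega), h k k.lt_succ_self, H0.TR.xor_self]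

theorem Tri.of_md (M : Md g pt P N K B c) {l0 l1 : Lev} {L : List Lev} (ch : IsChain g pt N (l0 :: l1 :: L))
    (hx : Act x pt Px N (n + 1)) {F : ℕ → ℕ} {w : ℕ} {Rt : List ℕ}
    (e1 : l0.K = K ∧ Px n (l0.Pt 0) = l1.Pt 0 ∧ l1.Pt 0 ≠ l0.Pt 0 ∧ fixL Px (n + 1) B [n, n] = 0 ∧
      chainCard (l1 :: L) ≠ chainCard L)
    (cen : ∀ z : H, (∀ l ∈ gen g (topK L), z * l = l * z) → z = 1)
    (e2 : ∀ i < N, fxEnt P (topK L) (l0.Pt 0) (l1.Pt 0) i = 0) (e3 : ∀ i < N, forEnt P F l1.K w N Rt i = 0)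
    (e4 : ∀ r ∈ Rt, r = l0.Pt 0 ∨ r = l1.Pt 0 ∨
      Nat.card (gen g l1.K ⊓ stabilizer H (pt r) : Subgroup H) ≠ chainCard L) :
    Tri H Λ (pt (l0.Pt 0)) (x n) (gen g l1.K) (gen g (topK L)) := by
  have p0 : l0.Pt 0 < N := (ch.2.2.2.1 0 ch.1).1
  have p1 : l1.Pt 0 < N := (ch.tail.2.2.2.1 0 ch.tail.1).1
  have k1 : l1.K ≤ K := e1.1 ▸ ch.2.2.1
  have k2 : topK L ≤ l1.K := ch.tail.2.2.1
  have sp : x n • pt (l0.Pt 0) = pt (l1.Pt 0) := e1.2.1 ▸ (hx n n.lt_succ_self _ p0).2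
  have hK : ∀ h, h ∈ gen g l1.K ↔ h • pt (l0.Pt 0) = pt (l0.Pt 0) := fun h => by
    have := ch.stab_eq M.inj
    rw [e1.1, M.top, top_inf_eq] at this
    exact this ▸ Iff.rfl
  have cK : Nat.card (gen g l1.K) = chainCard (l1 :: L) := (ch.tail.card M.inj).2
  have cL : Nat.card (gen g (topK L)) = chainCard L := (ch.tail.tail.card M.inj).2
  have ex : ∀ h : H, ∃ i < N, h • pt (l0.Pt 0) = pt i := fun h => M.act.exists_smul (M.top ▸ trivial) p0
  refine ⟨hK, fun h => ?_, by simpa using M.rel hx e1.2.2.2.1, fun h => e1.2.2.1 (M.inj _ p1 _ p0 (sp ▸ h)),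
    cen, fun h hh => ?_, fun h hh => ?_, cK ▸ cL ▸ e1.2.2.2.2⟩
  · rw [ch.tail.stab_eq M.inj, Subgroup.mem_inf, hK, sp]; rfl
  · obtain ⟨i, hi, e⟩ := ex h
    have := e2 i hi
    rw [fxEnt, force_eq] at this
    rw [e, sp]
    rcases Nat.mul_eq_zero.1 this with h1 | h1
    · rcases Nat.mul_eq_zero.1 h1 with h1 | h1
      · exact .inl (congrArg pt (Nat.eq_of_xor_eq_zero h1))
      · exact .inr (congrArg pt (Nat.eq_of_xor_eq_zero h1))
    · rw [mv_zero fun k hk => ?_] at h1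
      · exact absurd h1 (by decide)
      · have h2 := M.act k (by omega) i hi
        exact M.inj _ h2.1 _ hi (h2.2 ▸ e ▸ hh _ (mem_gen g hk))
  · obtain ⟨i, hi, e⟩ := ex h
    obtain ⟨r, hr, k, hk, e'⟩ := forest_sound (M.act.mono k1) ch.tail.2.1 e3 i hi
    have : Nat.card (gen g l1.K ⊓ stabilizer H (pt r) : Subgroup H) = chainCard L := by
      rw [← cL, ← hh, e, ← e']
      refine card_conj k fun y => ?_
      simp only [Subgroup.mem_inf, mem_stabilizer_iff, mul_smul, inv_smul_smul, smul_left_cancel_iff]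
      rw [mul_mem_cancel_right (inv_mem hk), mul_mem_cancel_left hk]
    rcases e4 r hr with rfl | rfl | h1
    · rw [inf_eq_left.2 fun y hy => (hK y).1 hy, cK] at this
      exact (e1.2.2.2.2 this).elim
    · exact ⟨k, hk, by rw [e, sp, e']⟩
    · exact (h1 this).elim

theorem cen_of {r : ℕ} {e : ℕ → H} {A : Subgroup H} (h : Subgroup.centralizer (gen x r : Set H) = gen e 0)
    (hA : gen x r ≤ A) (z : H) (hz : ∀ l ∈ A, z * l = l * z) : z = 1 := by
  have : z ∈ Subgroup.centralizer (gen x r : Set H) := fun y hy => (hz y (hA hy)).symm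
  rwa [h, gen_zero] at this

/-- the relators of the amalgam -/
def relOK (P : ℕ → ℕ → ℕ) (n : ℕ) (B : List ℕ) (Wt : List (List ℕ)) (r : List ℕ) : Prop :=
  fixL P (n + 1) B r = 0 ∨ r = [n + 1, n + 1] ∨ r = [n, n + 1, n, n + 1, n, n + 1] ∨
    (r = (n + 1) :: nth 0 r 1 :: (n + 1) :: r.drop 3 ∧ nth 0 r 1 < n ∧
      fixL P n B (nth [] Wt (nth 0 r 1) ++ r.drop 3) = 0)

noncomputable instance (P : ℕ → ℕ → ℕ) (n : ℕ) (B : List ℕ) (Wt : List (List ℕ)) (r : List ℕ) :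
    Decidable (relOK P n B Wt r) := by unfold relOK; infer_instance

theorem rels_ext (M : Md g pt P N K B c) (hx : Act x pt Px N (n + 1)) {G : Type*} [Group G] (ι : H →* G)
    {t : G} {Wt R : List (List ℕ)} (h1 : ∀ k < n, ι (wds x Wt k) = t * ι (x k) * t⁻¹) (h2 : t * t = 1)
    (h3 : (ι (x n) * t) ^ 3 = 1) (e : ∀ r ∈ R, relOK Px n B Wt r) :
    Rels (fun k => if k < n + 1 then ι (x k) else t) R := by
  have ev : ∀ W : List ℕ, (∀ k ∈ W, k < n + 1) →
      evA (fun k => if k < n + 1 then ι (x k) else t) W = ι (evA x W) := fun W hW => by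
    rw [map_evA]; exact evA_congr _ fun k hk => if_pos (hW k hk)
  have ti : t⁻¹ = t := inv_eq_of_mul_eq_one_right h2
  intro r hr
  rcases e r hr with h | rfl | rfl | ⟨h, h4, h5⟩
  · rw [ev _ (fixL_sound hx M.ltB h).1, M.rel hx h, map_one]
  · simpa using h2
  · have : t * ι (x n) * t * ι (x n) * t * ι (x n) = t * (ι (x n) * t) ^ 3 * t⁻¹ := by
      simp only [pow_succ, pow_zero]; group
    rw [h3] at this
    simpa using this
  · have h6 := (fixL_sound (hx.mono n.le_succ) M.ltB h5).1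
    have h7 := congrArg ι (M.rel (hx.mono n.le_succ) h5)
    rw [evA_append, map_mul, map_one] at h7
    rw [h, evA_cons, evA_cons, evA_cons, ev _ fun k hk => (h6 k (List.mem_append_right _ hk)).trans n.lt_succ_self,
      if_neg (lt_irrefl _), if_pos (h4.trans n.lt_succ_self), ← h7]
    rw [show evA x (nth [] Wt (nth 0 r 1)) = wds x Wt (nth 0 r 1) from rfl, h1 _ h4, ti]
    group

/-- `0` iff the letters `< n` of the two tables agree on `B` -/
noncomputable def agr (P Q : ℕ → ℕ → ℕ) (n : ℕ) (B : List ℕ) : Bool :=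
  allZ (fun k => sumL (fun β => Nat.xor (P k β) (Q k β)) B) 0 n

theorem agr_sound (M : Md g pt P N K B c) {y : ℕ → H} {Py : ℕ → ℕ → ℕ} (hx : Act x pt Px N n)
    (hy : Act y pt Py N n) (h : agr Px Py n B = true) : ∀ k < n, x k = y k := fun k hk =>
  M.base.ext trivial trivial fun β hβ => by
    have hb := ltAll_zero M.ltB β hβ
    rw [(hx k hk β hb).2, (hy k hk β hb).2,
      Nat.eq_of_xor_eq_zero (sumL_zero (allZ_sound h k (Nat.zero_le _) (by omega)) β hβ)]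

theorem hom_ev {G : Type*} [Group G] (f : gen x n →* G) {y : ℕ → G}
    (hf : ∀ k (hk : k < n), f ⟨x k, mem_gen x hk⟩ = y k) (W : List ℕ) (hW : ∀ k ∈ W, k < n) :
    f ⟨evA x W, evA_mem_gen x hW⟩ = evA y W := by
  induction W with
  | nil => exact f.map_one
  | cons k W ih =>
    rw [evA_cons y, ← ih fun j hj => hW j (List.mem_cons_of_mem _ hj), ← hf k (hW k List.mem_cons_self),
      ← map_mul]
    rfl

theorem hom_mem {G : Type*} [Group G] (f : gen x n →* G) {A : Subgroup G} (h : m ≤ n)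
    (hf : ∀ k (hk : k < m), f ⟨x k, mem_gen x (hk.trans_le h)⟩ ∈ A) (z : gen x n) (hz : (z : H) ∈ gen x m) :
    f z ∈ A := by
  have : ∀ y (hy : y ∈ gen x m), f ⟨y, gen_mono x h hy⟩ ∈ A := fun y hy => by
    induction hy using Subgroup.closure_induction with
    | mem y hy => obtain ⟨k, hk, rfl⟩ := hy; exact hf k hk
    | one => exact f.map_one ▸ A.one_mem
    | mul a b ha hb iha ihb => exact (f.map_mul ⟨a, _⟩ ⟨b, _⟩).symm ▸ A.mul_mem iha ihb
    | inv a ha iha => exact (f.map_inv ⟨a, _⟩).symm ▸ A.inv_mem iha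
  exact this z hz

theorem hom_ext {G : Type*} [Group G] {f f' : gen x n →* G}
    (hf : ∀ k (hk : k < n), f ⟨x k, mem_gen x hk⟩ = f' ⟨x k, mem_gen x hk⟩) (z : gen x n) : f z = f' z :=
  hom_mem (MonoidHom.id _) (A := f.eqLocus f') le_rfl hf z z.2

theorem exists_tau (M : Md g pt P N K B c) (hx : Act x pt Px N (n + 1)) {R Wt V : List (List ℕ)} {d : ℕ}
    (hB : Bound R n d) (hc : Nat.card (gen x n) = d) (ss : x n * x n = 1)
    (e1 : m ≤ n ∧ allL (ltAll n) Wt = true ∧ allL (ltAll m) (Wt.take m) = true ∧ allL (ltAll m) V = true ∧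
      allL (fixL Px n B) R = true ∧ allL (fixL (wdsP Px Wt) n B) R = true ∧
      agr (wdsP (wdsP Px Wt) Wt) Px n B = true ∧
      agr (fun k i => Px n (wdsP Px Wt k (Px n i))) (wdsP Px V) m B = true ∧
      agr (wdsP (wdsP (wdsP Px V) V) V) Px m B = true) :
    ∃ τ : MulAut (gen x n), (∀ k (hk : k < n), (τ ⟨x k, mem_gen x hk⟩ : H) = wds x Wt k) ∧ τ * τ = 1 ∧
      (∀ l : gen x n, (l : H) ∈ gen x m → (τ l : H) ∈ gen x m) ∧
      ∀ l l1 l2 : gen x n, (l : H) ∈ gen x m → (l1 : H) = x n * τ l * x n → (l2 : H) = x n * τ l1 * x n →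
        x n * τ l2 * x n = l := by
  obtain ⟨q1, q2, q3, q4, q5, q6, q7, q8, q9⟩ := e1
  have := M.fin
  have hx' := hx.mono n.le_succ
  have hy := hx'.wds q2 n
  obtain ⟨f, hf, hr⟩ := hB.exists_hom (CS.rels M hx' q5) hc (CS.rels M hy q6)
  have fm : ∀ z, f z ∈ gen x n := fun z => gen_wds_le q2 n (hr ▸ ⟨z, rfl⟩)
  let f' : gen x n →* gen x n := f.codRestrict _ fm
  have ff : ∀ z, f' (f' z) = z := hom_ext (f := f'.comp f') (f' := MonoidHom.id _) fun k hk => Subtype.ext (by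
    have : f' ⟨x k, mem_gen x hk⟩ = ⟨evA x (nth [] Wt k), evA_mem_gen x (nth_lt q2 k)⟩ := Subtype.ext (hf k hk)
    rw [MonoidHom.comp_apply, this]
    exact (hom_ev f hf _ (nth_lt q2 k)).trans (agr_sound M (hy.wds q2 n) hx' q7 k hk))
  have hL : ∀ l : gen x n, (l : H) ∈ gen x m → f l ∈ gen x m := hom_mem f q1 fun k hk => by
    rw [hf k (hk.trans_le q1)]
    have : nth [] Wt k = nth [] (Wt.take m) k := by
      simp only [nth_eq_getD, List.getD_eq_getElem?_getD, List.getElem?_take, hk, if_true]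
    exact evA_mem_gen x (this ▸ nth_lt q3 k)
  refine ⟨⟨⟨f', f', ff, ff⟩, f'.map_mul⟩, hf, MulEquiv.ext ff, hL, fun l l1 l2 hl h1 h2 => ?_⟩
  have si : (x n)⁻¹ = x n := inv_eq_of_mul_eq_one_right ss
  let ψ : gen x m →* H := (MulAut.conj (x n)).toMonoidHom.comp (f.comp (Subgroup.inclusion (gen_mono x q1)))
  have e : ∀ z : gen x m, ψ z = x n * f ⟨z, gen_mono x q1 z.2⟩ * x n := fun z => by
    show x n * _ * (x n)⁻¹ = _
    rw [si]; rfl
  have hm := hx'.mono q1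
  have hv := hm.wds q4 m
  have ha : Act (fun k => x n * wds x Wt k * x n) pt (fun k i => Px n (wdsP Px Wt k (Px n i))) N m :=
    fun k hk => ((rp_let hx n.lt_succ_self).mul (rp_let hy (hk.trans_le q1))).mul (rp_let hx n.lt_succ_self)
  have hψ : ∀ k (hk : k < m), ψ ⟨x k, mem_gen x hk⟩ = wds x V k := fun k hk => by
    rw [e, hf k (hk.trans_le q1)]; exact agr_sound M ha hv q8 k hk
  let ψ' : gen x m →* gen x m := ψ.codRestrict _ fun z =>
    hom_mem ψ le_rfl (fun k hk => hψ k hk ▸ gen_wds_le q4 m (mem_gen _ hk)) z z.2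
  have a1 : ∀ k (hk : k < m), ψ' ⟨x k, mem_gen x hk⟩ = ⟨evA x (nth [] V k), evA_mem_gen x (nth_lt q4 k)⟩ :=
    fun k hk => Subtype.ext (hψ k hk)
  have a2 : ∀ k (hk : k < m), ψ.comp ψ' ⟨x k, mem_gen x hk⟩ = wds (wds x V) V k := fun k hk => by
    rw [MonoidHom.comp_apply, a1 k hk]; exact hom_ev ψ hψ _ (nth_lt q4 k)
  have a3 := hom_ext (f := (ψ.comp ψ').comp ψ') (f' := (gen x m).subtype) (fun k hk => by
    rw [MonoidHom.comp_apply, a1 k hk]
    exact (hom_ev _ a2 _ (nth_lt q4 k)).trans (agr_sound M ((hv.wds q4 m).wds q4 m) hm q9 k hk)) ⟨l, hl⟩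
  have b1 : (ψ' ⟨l, hl⟩ : H) = l1 := (e _).trans h1.symm
  have b2 : (ψ' (ψ' ⟨l, hl⟩) : H) = l2 := (e _).trans (by rw [h2]; congr 3; exact Subtype.ext b1)
  refine Eq.trans ?_ ((e _).symm.trans a3)
  congr 2
  exact congrArg f (Subtype.ext b2.symm)

/-- the recognition theorem -/
theorem master (M : Md g pt P N K B c) (hx : Act x pt Px N (n + 1)) {p : Λ}
    (T : Tri H Λ p (x n) (gen x n) (gen x m)) (top : gen x (n + 1) = ⊤)
    (hO : Nat.card (Cfsg.Out (gen x n)) = 2) {R Wt V R' : List (List ℕ)} {d d' d2 n1 n2 c' : ℕ}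
    (hB : Bound R n d) (hc : Nat.card (gen x n) = d) (hc' : Nat.card (gen x m) = d')
    (e1 : m ≤ n ∧ allL (ltAll n) Wt = true ∧ allL (ltAll m) (Wt.take m) = true ∧ allL (ltAll m) V = true ∧
      allL (fixL Px n B) R = true ∧ allL (fixL (wdsP Px Wt) n B) R = true ∧
      agr (wdsP (wdsP Px Wt) Wt) Px n B = true ∧
      agr (fun k i => Px n (wdsP Px Wt k (Px n i))) (wdsP Px V) m B = true ∧
      agr (wdsP (wdsP (wdsP Px V) V) V) Px m B = true)
    (e2 : ∀ r ∈ R', relOK Px n B Wt r) (hB' : Bound R' (n + 2) c')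
    (cl : ∀ A : Subgroup H, Nat.card A = d → ∃ γ : H, ∀ h, h ∈ A ↔ h • γ • p = γ • p)
    {Γ : Type*} [Group Γ] [IsSimpleGroup Γ] {S : ℕ → Γ} (hS : Rels S R') (gS : gen S (n + 2) = ⊤)
    (cΓ : Nat.card Γ = (1 + n1 + n2) * c)
    (hn : (n1 ≠ n2 ∧ n1 ≠ 1 ∧ n2 ≠ 1 ∧ c = n1 * d ∧ c = n2 * d2 ∧ ¬ d' ∣ d2 ∧ ¬ 1 + n1 ∣ 1 + n1 + n2) ∧
      c' < (1 + n1 + n2) * c * ((1 + n1 + n2) * c))
    {G Ω : Type*} [Group G] [MulAction G Ω] [Finite Ω] [IsPretransitive G Ω] {a b b' : Ω}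
    (e : stabilizer G a ≃* H) (hΩ : Nat.card Ω = 1 + n1 + n2)
    (hb : (orbit (stabilizer G a) b).ncard = n1) (hb' : (orbit (stabilizer G a) b').ncard = n2) :
    Nonempty (G ≃* Γ) := by
  have := M.fin
  obtain ⟨ι, b, t, A, h1, h2, cG, gn⟩ := amb e hΩ hb hb' M.card hn.1 cl
  obtain ⟨τ, k1, k2, k3, k4⟩ := exists_tau M hx hB hc T.ss e1
  obtain ⟨u, u1, u2, u3, u4⟩ := tri T (hc' ▸ A) h1 h2 hO k2 k3 k4
  have : Finite Γ := Nat.finite_of_card_ne_zero fun h => by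
    have := hn.2
    rw [← cΓ, h] at this; omega
  refine iso_of_bound hB' (rels_ext M hx ι (fun k hk => k1 k hk ▸ u2 _) u3 u4 e2) hS
    (gn _ u (fun h => ?_) ?_ u1) gS (cG.trans cΓ.symm) (cΓ ▸ hn.2)
  · refine Subgroup.mem_comap.1 ((gen_le (A := Subgroup.comap ι _)).2 (fun k hk => ?_)
      (top ▸ trivial : h ∈ gen x (n + 1)))
    have := mem_gen (fun k => if k < n + 1 then ι (x k) else u) (hk.trans (n + 1).lt_succ_self)
    rwa [if_pos hk] at this
  · have := mem_gen (fun k => if k < n + 1 then ι (x k) else u) (n + 1).lt_succ_self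
    rwa [if_neg (lt_irrefl _)] at this

end H15.R3
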