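import Cfsg.Agent.H15.R3c

/-! Rank 3 groups: classification of subgroups of given order through covers of conjugacy classes. -/

set_option linter.unusedSectionVars false

namespace H15.R3
open MulAction H16 H0.TR

variable {H Λ : Type*} [Group H] [MulAction H Λ] {g q : ℕ → H} {pt : ℕ → Λ} {P Pq : ℕ → ℕ → ℕ}
  {N K c m : ℕ} {B : List ℕ}

theorem pgroup_comm {n p : ℕ} (h1 : ∀ i < n, ∀ j < n, q i * q j = q j * q i) (h2 : ∀ i < n, q i ^ p = 1) :
    IsPGroup p (gen q n) := by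
  have a1 : ∀ y ∈ gen q n, gen q n ≤ Subgroup.centralizer {y} := fun y hy => gen_le.2 fun k hk =>
    Subgroup.mem_centralizer_singleton_iff.2 (Subgroup.mem_centralizer_singleton_iff.1
      ((gen_le (A := Subgroup.centralizer {q k})).2 (fun j hj =>
        Subgroup.mem_centralizer_singleton_iff.2 (h1 j hj k hk)) hy)).symm
  have a2 : ∀ y ∈ gen q n, y ^ p = 1 := fun y hy => by
    induction hy using Subgroup.closure_induction with
    | mem y hy => obtain ⟨k, hk, rfl⟩ := hy; exact h2 k hk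
    | one => exact one_pow _
    | mul a b ha hb iha ihb =>
      rw [Commute.mul_pow (Subgroup.mem_centralizer_singleton_iff.1 (a1 b hb ha)), iha, ihb, one_mul]
    | inv a ha iha => rw [inv_pow, iha, inv_one]
  exact fun y => ⟨1, Subtype.ext (by simpa using a2 y y.2)⟩

/-- the conjugate `γ⁻¹ A γ` -/
def cjS (γ : H) (A : Subgroup H) : Subgroup H := A.comap (MulAut.conj γ).toMonoidHom

theorem mem_cjS {γ h : H} {A : Subgroup H} : h ∈ cjS γ A ↔ γ * h * γ⁻¹ ∈ A := Iff.rfl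

theorem card_cjS (γ : H) (A : Subgroup H) : Nat.card (cjS γ A) = Nat.card A := card_conj γ fun _ => Iff.rfl

theorem exists_cjS [Finite H] (p : ℕ) [Fact p.Prime] {S : Subgroup H} (hS : IsPGroup p S) (A : Subgroup H)
    (h : ¬ p ∣ A.index) : ∃ γ, S ≤ cjS γ A := by
  obtain ⟨T, hT⟩ := exists_sylow_le p A h
  obtain ⟨Q, hQ⟩ := hS.exists_le_sylow
  obtain ⟨γ, rfl⟩ := exists_smul_eq H Q T
  exact ⟨γ, fun y hy => hT (Subgroup.smul_mem_pointwise_smul y (MulAut.conj γ) _ (hQ hy))⟩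

theorem index_eq [Finite H] {A : Subgroup H} {n d : ℕ} (h : Nat.card H = n * d) (hA : Nat.card A = d) :
    A.index = n := Nat.eq_of_mul_eq_mul_right (hA ▸ Nat.card_pos) (by rw [← h, ← hA, A.index_mul_card])

theorem cl_of_eq {A J : Subgroup H} {γ : H} {p : Λ} (hJ : ∀ h, h ∈ J ↔ h • p = p) (e : cjS γ A = J) (h : H) :
    h ∈ A ↔ h • γ • p = γ • p := by
  have := hJ (γ⁻¹ * h * γ)
  rw [← e, mem_cjS, mul_smul, mul_smul, inv_smul_eq_iff] at this
  simpa [mul_assoc] using this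

theorem le_cjS {A S : Subgroup H} {a : ℕ} (hn : ∀ k < a, q k ∈ Subgroup.normalizer (S : Set H)) (hA : S ≤ A) {n : H}
    (h : n ∈ gen q a) : S ≤ cjS n A := fun y hy =>
  hA ((Subgroup.mem_normalizer_iff.1 (gen_le.2 hn h) y).1 hy)

/-- `0` iff the word `V` in the letters `< b` and `r` has a cycle of length `p` through `β` -/
noncomputable def cyc (P : ℕ → ℕ → ℕ) (N b r p : ℕ) (V : List ℕ) (β : ℕ) : Prop :=
  (∀ k ∈ V, k < b ∨ k = r) ∧ β < N ∧ itW P V p β = β ∧ apW P V β ≠ β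

noncomputable instance (P : ℕ → ℕ → ℕ) (N b r p : ℕ) (V : List ℕ) (β : ℕ) : Decidable (cyc P N b r p V β) := by
  unfold cyc; infer_instance

theorem cyc.dvd [Finite H] (hq : Act q pt Pq N m) (hp : PtInj pt N) {b r p β : ℕ} {V : List ℕ}
    (h : cyc Pq N b r p V β) (hb : b ≤ m ∧ r < m) (h1 : p.Prime) {A : Subgroup H} (h2 : gen q b ≤ A)
    (h3 : q r ∈ A) : p ∣ Nat.card A := by
  obtain ⟨a1, a2, a3, a4⟩ := h
  have hV : ∀ k ∈ V, k < m := fun k hk => by rcases a1 k hk with h | h <;> omega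
  refine dvd_of_cycle (x := pt β) (evA_mem q (W := V) fun k hk => ?_) h1 ?_ fun e => a4 ?_
  · rcases a1 k hk with h | rfl
    · exact h2 (mem_gen q h)
    · exact h3
  · rw [(hq.itW hV p a2).2, a3]
  · exact hp _ (hq.apW hV a2).1 _ a2 ((hq.apW hV a2).2 ▸ e)

/-- `0` iff `i ∈ F` or the letter `r` moves the image of `i` under a word of `Sw` -/
noncomputable def shEnt (P : ℕ → ℕ → ℕ) (r : ℕ) (F : List ℕ) (Sw : List (List ℕ)) (i : ℕ) : ℕ :=
  force i fun i => List.rec (motive := fun _ => ℕ) (List.rec (motive := fun _ => ℕ) (nat_lit 1) (fun a _ ih =>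
      Bool.rec (motive := fun _ => ℕ) ih (nat_lit 0) (Nat.beq a i)) F)
    (fun w _ ih => force (apW P w i) fun j => Bool.rec (motive := fun _ => ℕ) (nat_lit 0) ih (Nat.beq (P r j) j)) Sw

theorem shEnt_zero {r i : ℕ} {F : List ℕ} {Sw : List (List ℕ)} (h : shEnt P r F Sw i = 0)
    (h1 : ∀ w ∈ Sw, P r (apW P w i) = apW P w i) : i ∈ F := by
  rw [shEnt, force_eq] at h
  induction Sw with
  | nil =>
    induction F with
    | nil => exact absurd h Nat.one_ne_zero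
    | cons a F ih =>
      by_cases e : a = i
      · exact e ▸ List.mem_cons_self
      · refine List.mem_cons_of_mem _ (ih ?_)
        have : Nat.beq a i = false := by rw [← Bool.not_eq_true, Nat.beq_eq]; exact e
        change Bool.rec (motive := fun _ => ℕ) _ _ (Nat.beq a i) = 0 at h
        rwa [this] at h
  | cons w Sw ih =>
    refine ih ?_ fun v hv => h1 v (List.mem_cons_of_mem _ hv)
    change force _ _ = 0 at h
    rwa [force_eq, h1 w List.mem_cons_self, Nat.beq_refl] at h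

theorem core_fix (M : Md g pt P N K B c) (hq : Act q pt Pq N m) {a b R p s d u : ℕ} {x : H}
    (h0 : b ≤ a ∧ a + R ≤ m ∧ u < N ∧ p.Prime ∧ ¬ p ∣ d ∧ fixLetters Pq a u = true)
    (hn : ∀ k < a, q k ∈ Subgroup.normalizer (gen q b : Set H))
    (cov : ∀ y, IsConj x y → ∃ j < R, ∃ n ∈ gen q a, y = n * q (a + j) * n⁻¹)
    {Sw : List (List ℕ)} (hS : allL (ltAll b) Sw = true)
    (e : ∀ j < R, (∃ V β, cyc Pq N b (a + j) p V β) ∨ (Pq (a + j) u = u ∧ ∃ F : List ℕ, F.length ≤ s ∧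
      allZ (shEnt Pq (a + j) F Sw) 0 N = true))
    {A : Subgroup H} (hA : Nat.card A = d) (h1 : gen q b ≤ A) {y : H} (hy : y ∈ A) (hx : IsConj x y) :
    (orbit A (pt u)).ncard ≤ s := by
  have := M.fin
  obtain ⟨q1, q2, q3, q4, q5, q6⟩ := h0
  have good : ∀ y ∈ A, IsConj x y → ∃ j < R, ∃ n ∈ gen q a, y = n * q (a + j) * n⁻¹ ∧ Pq (a + j) u = u ∧
      ∃ F : List ℕ, F.length ≤ s ∧ allZ (shEnt Pq (a + j) F Sw) 0 N = true := fun y hy hx => by
    obtain ⟨j, hj, n, hn', rfl⟩ := cov y hx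
    rcases e j hj with ⟨V, β, h⟩ | h
    · have := h.dvd hq M.inj ⟨by omega, by omega⟩ q4 (le_cjS hn h1 hn') hy
      rw [card_cjS, hA] at this
      exact (q5 this).elim
    · exact ⟨j, hj, n, hn', rfl, h⟩
  have fu := fixLetters_sound (hq.mono (by omega : a ≤ m)) q3 q6
  have fx : ∀ y ∈ A, IsConj x y → ∀ k ∈ A, y • k • pt u = k • pt u := fun y hy hx k hk => by
    obtain ⟨j, hj, n, hn', e1, e2, -⟩ := good (k⁻¹ * y * k) (mul_mem (mul_mem (inv_mem hk) hy) hk)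
      (hx.trans (isConj_iff.2 ⟨k⁻¹, by rw [inv_inv]⟩))
    rw [← inv_smul_eq_iff, ← mul_smul, ← mul_smul, e1, mul_smul, mul_smul, fu _ (inv_mem hn'),
      (hq _ (by omega) _ q3).2, e2, fu _ hn']
  obtain ⟨j, hj, n, hn', e1, -, F, e2, e3⟩ := good y hy hx
  refine le_trans (Set.ncard_le_ncard (t := (fun i => n • pt i) '' (F.toFinset : Set ℕ)) ?_ (Set.toFinite _))
    ((Set.ncard_image_le (Set.toFinite _)).trans ?_)
  · rintro _ ⟨k, rfl⟩
    obtain ⟨i, hi, e4⟩ := M.act.exists_smul (a := n⁻¹ * k) (M.top ▸ trivial) q3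
    refine ⟨i, Finset.mem_coe.2 (List.mem_toFinset.2
      (shEnt_zero (allZ_sound e3 i (Nat.zero_le _) (by omega)) fun w hw => ?_)), ?_⟩
    · have hw' := ltAll_zero (allL_sound hS w hw)
      obtain ⟨a1, a2⟩ := hq.apW (W := w) (fun k hk => by have := hw' k hk; omega) hi
      obtain ⟨a3, a4⟩ := hq (a + j) (by omega) _ a1
      refine M.inj _ a3 _ a1 ?_
      have := fx y hy hx _ (mul_mem (le_cjS hn h1 hn' (evA_mem_gen q hw')) k.2)
      rw [← a4, ← a2, ← e4, ← smul_left_cancel_iff n]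
      simpa only [e1, mul_smul, inv_smul_smul, MulEquiv.coe_toMonoidHom, MulAut.conj_apply] using this
    · show n • pt i = (k : H) • pt u
      rw [← e4, mul_smul, smul_inv_smul]
  · rw [Set.ncard_coe_finset]
    exact (List.toFinset_card_le F).trans e2

theorem iv_of (M : Md g pt P N K B c) (hq : Act q pt Pq N m) {a : ℕ}
    (h : ∀ k < a, Nat.xor k 1 < a ∧ fixL Pq m B [Nat.xor k 1, k] = 0) :
    ∀ k < a, Nat.xor k 1 < a ∧ q k * q (Nat.xor k 1) = 1 := fun k hk =>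
  ⟨(h k hk).1, by simpa using M.rel hq (h k hk).2⟩

theorem conj_of (M : Md g pt P N K B c) (hq : Act q pt Pq N m) {y : ℕ → H} {Py : ℕ → ℕ → ℕ} {a R : ℕ}
    (hy : Act y pt Py N R) (h : allZ (fun j => cjL Pq Py m B j [a] [a + j]) 0 R = true) :
    ∀ j < R, IsConj (q a) (q (a + j)) := fun j hj => isConj_iff.2 ⟨y j, by
  have := M.cjw hq hy hj (allZ_sound h j (Nat.zero_le _) (by omega))
  rw [mul_inv_eq_iff_eq_mul]; simpa using this⟩

theorem cent_ge (M : Md g pt P N K B c) (hq : Act q pt Pq N m) {y : ℕ → H} {Py : ℕ → ℕ → ℕ} {a n d : ℕ}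
    (hy : Act y pt Py N n) (h : allZ (fun j => cjL Pq Py m B j [a] [a]) 0 n = true)
    (hc : d ≤ Nat.card (gen y n)) : d ≤ Nat.card (Subgroup.centralizer {q a}) :=
  have := M.fin
  hc.trans (Subgroup.card_le_of_le (gen_le.2 fun j hj => Subgroup.mem_centralizer_singleton_iff.2 (by
    simpa using M.cjw hq hy hj (allZ_sound h j (Nat.zero_le _) (by omega)))))

theorem norm_of (M : Md g pt P N K B c) (hq : Act q pt Pq N m) {a b : ℕ} {Ws : List (List (List ℕ))}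
    (h : b ≤ a ∧ a ≤ m ∧ ∀ k < a, allZ (fun j => cjL Pq Pq b B k [j] (nth [] (nth [] Ws k) j)) 0 b = true) :
    ∀ k < a, q k ∈ Subgroup.normalizer (gen q b : Set H) := fun k hk =>
  M.norm (hq.mono (by omega)) hq (by omega) (h.2.2 k hk)

theorem pgroup_of (M : Md g pt P N K B c) (hq : Act q pt Pq N m) {b p : ℕ}
    (h : b ≤ m ∧ (∀ i < b, ∀ j < b, eqL Pq b B [j, i] [i, j] = 0) ∧ ∀ i < b, fixL Pq b B (List.replicate p i) = 0) :
    IsPGroup p (gen q b) :=
  pgroup_comm (fun i hi j hj => by simpa using M.eq_of (hq.mono h.1) (h.2.1 i hi j hj))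
    fun i hi => M.pw (hq.mono h.1) (h.2.2 i hi)

theorem gen_eq (M : Md g pt P N K B c) {Ws Vs : List (List ℕ)} {n k : ℕ} (hq : Act (wds g Ws) pt Pq N m)
    (h : n ≤ m ∧ k ≤ K ∧ (∀ i < n, ltAll k (nth [] Ws i) = 0) ∧ allZ (fun a => Nat.add (ltAll n (nth [] Vs a))
      (sumL (fun β => Nat.xor (P a β) (apW Pq (nth [] Vs a) β)) B)) 0 k = true) :
    gen (wds g Ws) n = gen g k :=
  le_antisymm (gen_le.2 fun i hi => evA_mem_gen g (ltAll_zero (h.2.2.1 i hi)))
    (M.gen_le (hq.mono h.1) (M.act.mono h.2.1) h.2.2.2)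

theorem equiv_sub (M : Md g pt P N K B c) {G₀ : Type*} [Group G₀] {g₀ : ℕ → G₀} {Rl Ws : List (List ℕ)}
    {n d k β : ℕ} (hB : Bound Rl n d) (h₀ : Rels g₀ Rl) (hc : Nat.card (gen g₀ n) = d)
    (hs : IsSimpleGroup (gen g₀ n)) (hk : Nat.card (gen g k) = d)
    (h : k ≤ K ∧ allL (ltAll k) Ws = true ∧ allL (fixL (wdsP P Ws) n B) Rl = true ∧ 0 < n ∧
      ltAll k (nth [] Ws 0) = 0 ∧ β < N ∧ apW P (nth [] Ws 0) β ≠ β) : Nonempty (gen g₀ n ≃* gen g k) := by
  have := M.fin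
  have ha := M.act.mono h.1
  obtain ⟨e, -⟩ := hB.exists_equiv_of_simple h₀ hc (CS.rels M (ha.wds h.2.1 n) h.2.2.1) h.2.2.2.1
    (ha.ne_one M.inj h.2.2.2.2)
  exact ⟨e.trans (MulEquiv.subgroupCongr (Subgroup.eq_of_le_of_card_ge (gen_wds_le h.2.1 n)
    (by rw [hk, ← hc, Nat.card_congr e.toEquiv])))⟩

end H15.R3
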