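import Cfsg.Agent.H15.R3d
import Cfsg.Agent.H16.Out

/-! Rank 3 groups: covers of classes of involutions, bounds for outer automorphism groups. -/

set_option linter.unusedSectionVars false

namespace H15.R3
open MulAction H16 H0.TR

theorem out_le {Γ : Type*} [Group Γ] {L : List (MulAut Γ)}
    (h : ∀ α : MulAut Γ, ∃ γ : Γ, MulAut.conj γ * α ∈ L) : Nat.card (Cfsg.Out Γ) ≤ L.length := by
  classical
  have : (Set.univ : Set (Cfsg.Out Γ)) ⊆ (fun a : MulAut Γ => (a : Cfsg.Out Γ)) '' (L.toFinset : Set _) := by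
    intro q _
    obtain ⟨α, rfl⟩ := QuotientGroup.mk_surjective q
    obtain ⟨γ, e⟩ := h α
    refine ⟨_, by simpa using e, ?_⟩
    show ((MulAut.conj γ * α : MulAut Γ) : Cfsg.Out Γ) = α
    rw [QuotientGroup.mk_mul, (QuotientGroup.eq_one_iff (N := Cfsg.Inn Γ) _).2 ⟨γ, rfl⟩, one_mul]
  have := Set.ncard_le_ncard this (Set.toFinite _)
  rw [Set.ncard_univ] at this
  exact this.trans ((Set.ncard_image_le (Set.toFinite _)).trans (by
    rw [Set.ncard_coe_finset]; exact List.toFinset_card_le L))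

theorem od_le {G Ω : Type*} [Group G] [MulAction G Ω] {g : ℕ → G} {pt : ℕ → Ω} {P : ℕ → ℕ → ℕ} {N K : ℕ}
    (D : OD) (h : Act g pt P N K) (hp : PtInj pt N) {B : List ℕ} (hB : ltAll N B = 0)
    (hb : IsBase (gen g K) pt B) {c : ℕ} (hcard : Nat.card (gen g K) = c) (h0 : 0 < c)
    (hc : D.chk P N K B = true) (ha : D.ar c)
    (hV : ∀ {a : G}, a ∈ gen g K → a * evA g D.V = evA g D.V * a →
      ∃ j : ℤ, ∃ E ∈ [([] : List ℕ)], a = evA g D.V ^ j * evA g E)
    (hW : ∀ {a : G}, a ∈ gen g K → a * evA g D.W = evA g D.W * a →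
      ∃ j : ℤ, ∃ E ∈ D.Acc, a = evA g D.W ^ j * evA g E) {Exc : List ℕ}
    (hf : ∀ y < D.R.length * D.Acc.length * D.o, D.fail P Exc y = 0)
    (hg : ∀ A : Subgroup G, (∀ i < 3, evA g (nth [] [D.X, D.W, D.S] i) ∈ A) → gen g K ≤ A) :
    Nat.card (Cfsg.Out (gen g K)) ≤ Exc.length := by
  classical
  have f1 := (D.facts h hp hB hb hc).1
  rw [← List.length_map (fun z => if h : ∃ β, D.Is g K z β then h.choose else 1)]
  refine out_le fun α => ?_
  obtain ⟨γ, z, hz, e⟩ := D.main h hp hB hb hcard h0 hc ha hV hW hf α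
  refine ⟨γ, List.mem_map.2 ⟨z, hz, ?_⟩⟩
  rw [dif_pos ⟨_, e⟩]
  exact D.uniq f1 hg (Exists.choose_spec (⟨_, e⟩ : ∃ β, D.Is g K z β)) e

theorem out_two_of_le {Γ : Type*} [Group Γ] [Finite Γ] (h : Nat.card (Cfsg.Out Γ) ≤ 2) {τ : MulAut Γ}
    (hτ : ∀ k, MulAut.conj k ≠ τ) : Nat.card (Cfsg.Out Γ) = 2 := by
  have : Nontrivial (Cfsg.Out Γ) := ⟨_, 1, fun e => by
    obtain ⟨k, hk⟩ := (QuotientGroup.eq_one_iff τ).1 e
    exact hτ k hk⟩
  exact h.antisymm Finite.one_lt_card

variable {H Λ : Type*} [Group H] [MulAction H Λ] {g q x z : ℕ → H} {pt : ℕ → Λ} {P Pq Px Pz : ℕ → ℕ → ℕ}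
  {N K c m n : ℕ} {B : List ℕ}

theorem out_of_le (M : Md g pt P N K B c) (hx : Act x pt Px N (n + 1)) {p : Λ}
    (T : Tri H Λ p (x n) (gen x n) (gen x m)) (hO : Nat.card (Cfsg.Out (gen x n)) ≤ 2)
    {R Wt V : List (List ℕ)} {d : ℕ} (hB : Bound R n d) (hc : Nat.card (gen x n) = d)
    (e1 : m ≤ n ∧ allL (ltAll n) Wt = true ∧ allL (ltAll m) (Wt.take m) = true ∧ allL (ltAll m) V = true ∧
      allL (fixL Px n B) R = true ∧ allL (fixL (wdsP Px Wt) n B) R = true ∧
      agr (wdsP (wdsP Px Wt) Wt) Px n B = true ∧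
      agr (fun k i => Px n (wdsP Px Wt k (Px n i))) (wdsP Px V) m B = true ∧
      agr (wdsP (wdsP (wdsP Px V) V) V) Px m B = true) : Nat.card (Cfsg.Out (gen x n)) = 2 :=
  have := M.fin
  have ⟨_, _, _, k3, k4⟩ := exists_tau M hx hB hc T.ss e1
  out_two_of_le hO (T.not_inner k3 k4)

theorem equiv_sub' (M : Md g pt P N K B c) {G₀ : Type*} [Group G₀] {g₀ : ℕ → G₀} {Rl Ws Vs : List (List ℕ)}
    {d k : ℕ} (hB : Bound Rl n d) (h₀ : Rels g₀ Rl) (hc : Nat.card (gen g₀ n) = d)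
    (hk : Nat.card (gen g k) = d)
    (h : allL (ltAll K) Ws = true ∧ allL (fixL (wdsP P Ws) n B) Rl = true ∧
      n ≤ n ∧ k ≤ K ∧ (∀ i < n, ltAll k (nth [] Ws i) = 0) ∧ allZ (fun a => Nat.add (ltAll n (nth [] Vs a))
      (sumL (fun β => Nat.xor (P a β) (apW (wdsP P Ws) (nth [] Vs a) β)) B)) 0 k = true) :
    Nonempty (gen g₀ n ≃* gen g k) := by
  have e := gen_eq M (M.wact h.1) h.2.2
  obtain ⟨f, -⟩ := hB.exists_equiv h₀ hc (CS.rels M (M.wact h.1) h.2.1) (by rw [e, hk])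
  exact ⟨f.trans (MulEquiv.subgroupCongr e)⟩

theorem cls_cover2 (M : Md g pt P N K B c) (hq : Act q pt Pq N m) {a R f d : ℕ} {σ : ℕ → ℕ} {x : H}
    (h0 : 0 < a ∧ 0 < R ∧ a + R ≤ m) (hiv : ∀ k < a, Nat.xor k 1 < a ∧ q k * q (Nat.xor k 1) = 1)
    (hR : ∀ j < R, IsConj x (q (a + j))) (hc : c ≤ (d + 1) * Nat.card (Subgroup.centralizer {x}))
    (e : ∀ i < d, cEnt Pq N a R f B σ i = 0) :
    c = (d + 1) * Nat.card (Subgroup.centralizer {x}) ∧ ∃ n : ℕ → H, (∀ i, n i ∈ gen q a) ∧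
      ∀ y, IsConj x y → ∃ i < d + 1, n i * q (a + σ i % R) * (n i)⁻¹ = y := by
  have := M.fin
  have hj : ∀ i, σ i % R < R := fun i => Nat.mod_lt _ h0.2.1
  choose n hn hn' using fun i => cjA_rp hq (r := a + σ i % R) ⟨h0.1, by omega, by have := hj i; omega⟩ hiv f (σ i / R)
  have h1 : ∀ i j, i < j → j < d + 1 → ckey Pq N a R f B (σ i) < ckey Pq N a R f B (σ j) := by
    have h0 : ∀ i < d, ckey Pq N a R f B (σ i) < ckey Pq N a R f B (σ (i + 1)) := fun i hi => by
      have := e i hi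
      simp only [cEnt, force_eq] at this
      exact Nat.le_of_sub_eq_zero this
    intro i j hij hj
    induction j, hij using Nat.le_induction with
    | base => exact h0 i (by omega)
    | succ j _ ih => exact (ih (by omega)).trans (h0 j (by omega))
  have inj : PtInj (fun i => n i * q (a + σ i % R) * (n i)⁻¹) (d + 1) := fun i hi j hj e => by
    have : ckey Pq N a R f B (σ i) = ckey Pq N a R f B (σ j) := by
      simp only [ckey, force_eq]
      have hB := ltAll_zero M.ltB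
      generalize B = B' at hB
      induction B' with
      | nil => rfl
      | cons b B' ih =>
        have hb := hB b List.mem_cons_self
        change Nat.add (Nat.mul (keyF _ N B') N) _ = Nat.add (Nat.mul (keyF _ N B') N) _
        rw [ih fun j hj => hB j (List.mem_cons_of_mem _ hj)]
        congr 1
        exact M.inj _ (hn' i b hb).1 _ (hn' j b hb).1
          ((hn' i b hb).2.symm.trans ((congrArg (· • pt b) e).trans (hn' j b hb).2))
    rcases lt_trichotomy i j with h | h | h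
    · exact absurd this (h1 i j h hj).ne
    · exact h
    · exact absurd this (h1 j i h hi).ne'
  have hm : ∀ i < d + 1, n i * q (a + σ i % R) * (n i)⁻¹ ∈ {y | IsConj x y} := fun i _ =>
    (hR _ (hj i)).trans (isConj_iff.2 ⟨_, rfl⟩)
  have c1 : c = {y | IsConj x y}.ncard * Nat.card (Subgroup.centralizer {x}) := by
    have := card_stab (H := ConjAct H) x
    rw [show orbit (ConjAct H) x = {y | IsConj x y} from Set.ext fun y => by
      rw [ConjAct.mem_orbit_conjAct, isConj_comm]; rfl, ← Subgroup.nat_card_centralizer_nat_card_stabilizer] at this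
    exact M.card ▸ this
  have c2 : {y | IsConj x y}.ncard ≤ d + 1 := Nat.le_of_mul_le_mul_right (c1 ▸ hc) Nat.card_pos
  have c3 : d + 1 ≤ {y | IsConj x y}.ncard := by
    have := Set.ncard_le_ncard (s := (fun i => n i * q (a + σ i % R) * (n i)⁻¹) '' (Finset.range (d + 1) : Set ℕ))
      (t := {y | IsConj x y}) (by rintro _ ⟨i, hi, rfl⟩; exact hm i (by simpa using hi)) (Set.toFinite _)
    rwa [Set.InjOn.ncard_image fun i hi j hj => inj i (by simpa using hi) j (by simpa using hj),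
      Set.ncard_coe_finset, Finset.card_range] at this
  exact ⟨c2.antisymm c3 ▸ c1, n, hn, CS.cover inj (c2.antisymm c3) (Set.toFinite _) hm⟩

/-- the letters `< n` of `Pz` are the words `V` in the letters `< b` and `r` -/
def wdOK (Pq Pz : ℕ → ℕ → ℕ) (b r n : ℕ) (B : List ℕ) (V : List (List ℕ)) : Prop :=
  (∀ w ∈ V, ∀ k ∈ w, k < b ∨ k = r) ∧ agr (wdsP Pq V) Pz n B = true

noncomputable instance (Pq Pz : ℕ → ℕ → ℕ) (b r n : ℕ) (B : List ℕ) (V : List (List ℕ)) :
    Decidable (wdOK Pq Pz b r n B V) := by unfold wdOK; infer_instance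

theorem wdOK.le (M : Md g pt P N K B c) (hq : Act q pt Pq N m) (hz : Act z pt Pz N n) {b r : ℕ}
    {V : List (List ℕ)} (h : wdOK Pq Pz b r n B V) (hb : b ≤ m ∧ r < m) {A : Subgroup H} (h2 : gen q b ≤ A)
    (h3 : q r ∈ A) : gen z n ≤ A := gen_le.2 fun k hk => by
  have hV : ∀ j, ∀ k ∈ nth [] V j, k < b ∨ k = r := fun j => by
    rcases nth_mem [] V j with e | e
    · rw [e]; simp
    · exact h.1 _ e
  rw [← agr_sound M (x := wds q V) (fun j _ i hi => hq.apW (fun k hk => by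
    rcases hV j k hk with h | h <;> omega) hi) hz h.2 k hk]
  refine evA_mem q fun j hj => ?_
  rcases hV k j hj with h | rfl
  · exact h2 (mem_gen q h)
  · exact h3

theorem fix_of_half (M : Md g pt P N K B c) (hz : Act z pt Pz N n) {u d : ℕ}
    (h1 : u < N ∧ fixLetters Pz n u = true) (h2 : ∀ i < N, fxEnt Pz n u u i = 0) (h3 : d ≤ 2 * Nat.card (gen z n))
    {A : Subgroup H} (hA : Nat.card A = d) (h4 : gen z n ≤ A) : ∀ k ∈ A, k • pt u = pt u := by
  have := M.fin
  have c1 := ((gen z n).subgroupOf A).index_mul_card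
  rw [Nat.card_congr (Subgroup.subgroupOfEquivOfLe h4).toEquiv, hA] at c1
  have c2 : ((gen z n).subgroupOf A).index ≤ 2 := Nat.le_of_mul_le_mul_right (c1 ▸ h3) Nat.card_pos
  have nm : ((gen z n).subgroupOf A).Normal := by
    have := ((gen z n).subgroupOf A).index_ne_zero_of_finite
    rcases (by omega : ((gen z n).subgroupOf A).index = 1 ∨ ((gen z n).subgroupOf A).index = 2) with h | h
    · rw [Subgroup.index_eq_one.1 h]; infer_instance
    · exact Subgroup.normal_of_index_eq_two h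
  intro k hk
  obtain ⟨i, hi, e⟩ := M.act.exists_smul (a := k) (M.top ▸ trivial) h1.1
  have := h2 i hi
  rw [fxEnt, force_eq, mv_zero fun j hj => ?_] at this
  · rw [e]
    rcases Nat.mul_eq_zero.1 this with h | h
    · exact congrArg pt (Nat.eq_of_xor_eq_zero ((or_self_iff).1 (Nat.mul_eq_zero.1 h)))
    · exact absurd h (by decide)
  · have a := hz j hj i hi
    have b := fixLetters_sound hz h1.1 h1.2 _ (nm.conj_mem' ⟨z j, h4 (mem_gen z hj)⟩ (mem_gen z hj) ⟨k, hk⟩)
    refine M.inj _ a.1 _ hi ?_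
    rw [← a.2, ← e, ← inv_smul_eq_iff, ← mul_smul, ← mul_smul]
    exact b

noncomputable def liEnt (σ : ℕ → ℕ) (R J : ℕ) (LI : List ℕ) (i : ℕ) : ℕ :=
  force i fun i => Bool.rec (motive := fun _ => ℕ) (memL i LI) (nat_lit 0) (Nat.ble J (Nat.mod (σ i) R))

theorem core_inv (M : Md g pt P N K B c) (hq : Act q pt Pq N m) {a b R J d e l : ℕ} {σ : ℕ → ℕ} {x : H} {p : Λ}
    (hn : ∀ k < a, q k ∈ Subgroup.normalizer (gen q b : Set H))
    (cov : c = (e + 1) * Nat.card (Subgroup.centralizer {x}) ∧ ∃ n : ℕ → H, (∀ i, n i ∈ gen q a) ∧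
      ∀ y, IsConj x y → ∃ i < e + 1, n i * q (a + σ i % R) * (n i)⁻¹ = y)
    {LI : List ℕ} (h1 : ∀ i < e + 1, liEnt σ R J LI i = 0)
    (h2 : 0 < R ∧ c = (e + 1) * l ∧ ∀ k < LI.length + 1, k ∣ d → ¬ d / k ∣ l)
    (h3 : ∀ j < R, J ≤ j → ∀ A : Subgroup H, Nat.card A = d → gen q b ≤ A → q (a + j) ∈ A → ∀ k ∈ A, k • p = p)
    {A : Subgroup H} (hA : Nat.card A = d) (h4 : gen q b ≤ A) {y : H} (hy : y ∈ A) (hx : IsConj x y) :
    ∃ γ : H, ∀ k ∈ A, k • γ • p = γ • p := by
  have := M.fin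
  obtain ⟨c1, n, n1, n2⟩ := cov
  by_contra hc
  obtain ⟨k, d', k1, k2, k3⟩ := conj_orbit A y
    (S := (fun i => n i * q (a + σ i % R) * (n i)⁻¹) '' (LI.toFinset : Set ℕ)) fun u hu => by
      obtain ⟨i, hi, e1⟩ := n2 (u * y * u⁻¹) (hx.trans (isConj_iff.2 ⟨u, rfl⟩))
      refine ⟨i, ?_, e1⟩
      have := h1 i hi
      rw [liEnt, force_eq] at this
      cases hb : Nat.ble J (Nat.mod (σ i) R) with
      | false => rw [hb] at this; simpa using memL_zero this
      | true =>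
        refine (hc ⟨n i, fun k hk => ?_⟩).elim
        have := h3 _ (Nat.mod_lt _ h2.1) (Nat.le_of_ble_eq_true hb) (cjS (n i) A) ((card_cjS _ _).trans hA)
          (le_cjS hn h4 (n1 i)) (mem_cjS.2 (e1 ▸ mul_mem (mul_mem hu hy) (inv_mem hu))) ((n i)⁻¹ * k * n i)
          (mem_cjS.2 (by simpa [mul_assoc] using hk))
        rwa [mul_smul, mul_smul, inv_smul_eq_iff] at this
  have k4 : k ≤ LI.length := k3.trans ((Set.ncard_image_le (Set.toFinite _)).trans (by
    rw [Set.ncard_coe_finset]; exact List.toFinset_card_le LI))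
  rw [hA] at k1
  have k0 : 0 < k := Nat.pos_of_ne_zero fun h => by
    have := Nat.card_pos (α := A); rw [hA, k1, h] at this; simp at this
  refine h2.2.2 k (by omega) ⟨_, k1⟩ ?_
  rw [k1, Nat.mul_div_cancel_left _ k0, ← Nat.eq_of_mul_eq_mul_left e.succ_pos (c1.symm.trans h2.2.1),
    card_cent_conj hx]
  exact k2

theorem cl_of_fix [Finite H] {A J : Subgroup H} {γ δ : H} {p : Λ} (hJ : ∀ h, h ∈ J ↔ h • p = p)
    (hc : Nat.card A = Nat.card J) (e : ∀ k ∈ cjS γ A, k • δ • p = δ • p) :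
    ∃ γ : H, ∀ h, h ∈ A ↔ h • γ • p = γ • p :=
  ⟨γ * δ, cl_of_eq hJ (Subgroup.eq_of_le_of_card_ge (fun k hk => (hJ k).2 (by
    have := e (δ * k * δ⁻¹) (mem_cjS.2 (by simpa [mul_assoc] using mem_cjS.1 hk))
    rwa [mul_smul, mul_smul, inv_smul_smul, smul_left_cancel_iff] at this)) (by rw [card_cjS, hc]))⟩

/-- an injective homomorphism onto a subgroup -/
theorem equiv_of_half [Finite H] {G : Type*} [Group G] (f : H →* G) {X Y : Subgroup G} (h1 : f.range ≤ X)
    (h2 : Y ≤ f.range) {d : ℕ} (hH : Nat.card H = 2 * d) (hX : Nat.card X = 2 * d) (hY : Nat.card Y = d)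
    (hZ : ∀ z : H, (∀ y, z * y = y * z) → z = 1) : Nonempty (H ≃* X) := by
  have d0 : 0 < d := by have := Nat.card_pos (α := H); omega
  have fr : Finite f.range := Set.finite_range f
  have c1 : Nat.card H = Nat.card f.range * Nat.card f.ker := by
    rw [Subgroup.card_eq_card_quotient_mul_card_subgroup f.ker,
      Nat.card_congr (QuotientGroup.quotientKerEquivRange f).toEquiv]
  have c2 : d ≤ Nat.card f.range := hY ▸ Subgroup.card_le_of_le h2
  have c3 : Nat.card f.ker ≤ 2 := by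
    by_contra h
    have := Nat.mul_le_mul c2 (not_le.1 h)
    omega
  have inj : Function.Injective f := (injective_iff_map_eq_one f).2 fun z hz => hZ z fun y => by
    by_contra h
    have m : y * z * y⁻¹ ∈ f.ker := f.normal_ker.conj_mem z hz y
    have z1 : z ≠ 1 := fun e => h (by simp [e])
    have : 3 ≤ Nat.card f.ker := by
      have := Set.ncard_le_ncard (s := {1, z, y * z * y⁻¹}) (t := (f.ker : Set H)) (by
        rintro _ (rfl | rfl | rfl)
        exacts [one_mem _, hz, m]) (Set.toFinite _)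
      rwa [Set.ncard_eq_three.2 ⟨_, _, _, z1.symm, fun e => z1 (by simpa using e.symm),
        fun e => h (by rw [← mul_inv_eq_iff_eq_mul.1 e.symm]), rfl⟩] at this
    omega
  have : Finite X := Nat.finite_of_card_ne_zero (by omega)
  exact ⟨(MonoidHom.ofInjective inj).trans (MulEquiv.subgroupCongr (Subgroup.eq_of_le_of_card_ge h1 (by
    rw [hX, ← hH, Nat.card_congr (MonoidHom.ofInjective inj).toEquiv])))⟩

end H15.R3
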