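import Cfsg.Agent.H15.RuI.C0
import Cfsg.Agent.H15.RuI.C1

/-! Generated by tools/h0/tr.py. -/

set_option maxRecDepth 100000
set_option maxHeartbeats 0

namespace H15.RuI
open H16 H0.TR
open H15.R3

theorem p2t_act {G Ω : Type*} [Group G] [MulAction G Ω] {g : ℕ → G} {pt : ℕ → Ω}
    (M : Md g pt H15.XF42.P 2304 5 H15.XF42.B 35942400) : Act (wds g p2t_W) pt p2t_P 2304 12 :=
  M.wact p2t_lt
theorem p2_r_0 : ∀ i < 1280, (resEnt p2t_P p2P p2E p2I (nat_lit 2304) (nat_lit 1280) (nat_lit 0)) i = 0 := allZ_sound0 p2_r_0_0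
theorem p2_r_1 : ∀ i < 1280, (resEnt p2t_P p2P p2E p2I (nat_lit 2304) (nat_lit 1280) (nat_lit 1)) i = 0 := allZ_sound0 p2_r_1_0
theorem p2_r_2 : ∀ i < 1280, (resEnt p2t_P p2P p2E p2I (nat_lit 2304) (nat_lit 1280) (nat_lit 2)) i = 0 := allZ_sound0 p2_r_2_0
theorem p2_r_3 : ∀ i < 1280, (resEnt p2t_P p2P p2E p2I (nat_lit 2304) (nat_lit 1280) (nat_lit 3)) i = 0 := allZ_sound0 p2_r_3_0
theorem p2_r_4 : ∀ i < 1280, (resEnt p2t_P p2P p2E p2I (nat_lit 2304) (nat_lit 1280) (nat_lit 4)) i = 0 := allZ_sound0 p2_r_4_0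
theorem p2_r_5 : ∀ i < 1280, (resEnt p2t_P p2P p2E p2I (nat_lit 2304) (nat_lit 1280) (nat_lit 5)) i = 0 := allZ_sound0 p2_r_5_0
theorem p2_r_6 : ∀ i < 1280, (resEnt p2t_P p2P p2E p2I (nat_lit 2304) (nat_lit 1280) (nat_lit 6)) i = 0 := allZ_sound0 p2_r_6_0
theorem p2_r_7 : ∀ i < 1280, (resEnt p2t_P p2P p2E p2I (nat_lit 2304) (nat_lit 1280) (nat_lit 7)) i = 0 := allZ_sound0 p2_r_7_0
theorem p2_r_8 : ∀ i < 1280, (resEnt p2t_P p2P p2E p2I (nat_lit 2304) (nat_lit 1280) (nat_lit 8)) i = 0 := allZ_sound0 p2_r_8_0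
theorem p2_r_9 : ∀ i < 1280, (resEnt p2t_P p2P p2E p2I (nat_lit 2304) (nat_lit 1280) (nat_lit 9)) i = 0 := allZ_sound0 p2_r_9_0
theorem p2_r_10 : ∀ i < 1280, (resEnt p2t_P p2P p2E p2I (nat_lit 2304) (nat_lit 1280) (nat_lit 10)) i = 0 := allZ_sound0 p2_r_10_0
theorem p2_r_11 : ∀ i < 1280, (resEnt p2t_P p2P p2E p2I (nat_lit 2304) (nat_lit 1280) (nat_lit 11)) i = 0 := allZ_sound0 p2_r_11_0
theorem p2_r : ∀ k < 12, ∀ i < 1280, (resEnt p2t_P p2P p2E p2I (nat_lit 2304) (nat_lit 1280)) k i = 0 :=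
  letters_glue (letters_glue (letters_glue (letters_glue (letters_glue (letters_glue (letters_glue (letters_glue (letters_glue (letters_glue (letters_glue (letters_glue (letters_nil) p2_r_0) p2_r_1) p2_r_2) p2_r_3) p2_r_4) p2_r_5) p2_r_6) p2_r_7) p2_r_8) p2_r_9) p2_r_10) p2_r_11
theorem p2_sm {G Ω : Type*} [Group G] [MulAction G Ω] {g : ℕ → G} {pt : ℕ → Ω}
    (M : Md g pt H15.XF42.P 2304 5 H15.XF42.B 35942400) : Sm (wds g p2t_W) (fun i => pt (p2E i)) p2P 1280 12 p2B ∧ ∀ i < 1280, p2E i < 2304 :=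
  M.res (p2t_act M) (by decide) p2_r p2_b
theorem p2l0_e : ∀ i < 1023, (dent p2l0 (wdsP p2P p2e) (nat_lit 1280)) i = 0 := allZ_sound0 p2l0_e_0
theorem p2l0_ok : DOK p2l0 (wdsP p2P p2e) 1280 := ⟨p2l0_h, p2l0_e⟩
theorem p2l1_e : ∀ i < 3, (dent p2l1 (wdsP p2P p2e) (nat_lit 1280)) i = 0 := allZ_sound0 p2l1_e_0
theorem p2l1_ok : DOK p2l1 (wdsP p2P p2e) 1280 := ⟨p2l1_h, p2l1_e⟩
theorem p2_low {G Ω : Type*} [Group G] [MulAction G Ω] {g : ℕ → G} {pt : ℕ → Ω}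
    (M : Md g pt H15.XF42.P 2304 5 H15.XF42.B 35942400) : SLow (gi (wds (wds g p2t_W) p2e)) (fun i => pt (p2E i)) 1280 [p2l0, p2l1] :=
  ((SLow.nil).cons p2l1_ok ((p2_sm M).1.act.wds p2_e 22) p2_f1).cons p2l0_ok ((p2_sm M).1.act.wds p2_e 22) p2_f0
theorem p2_pc {G Ω : Type*} [Group G] [MulAction G Ω] {g : ℕ → G} {pt : ℕ → Ω}
    (M : Md g pt H15.XF42.P 2304 5 H15.XF42.B 35942400) : PC (wds g p2t_W) 12 2 :=
  have := M.fin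
  ((p2_sm M).1.pc0 (by decide) p2_p).pc (p2_low M) (p2_sm M).1.inj
    (fun k => evA_mem_gen _ (nth_lt p2_e k)) M.card ⟨by decide, p2_c⟩
theorem cv2r_act {G Ω : Type*} [Group G] [MulAction G Ω] {g : ℕ → G} {pt : ℕ → Ω}
    (M : Md g pt H15.XF42.P 2304 5 H15.XF42.B 35942400) : Act (wds g cv2r_W) pt cv2r_P 2304 2 :=
  M.wact cv2r_lt
theorem cv2_0 {G Ω : Type*} [Group G] [MulAction G Ω] {g : ℕ → G} {pt : ℕ → Ω}
    (M : Md g pt H15.XF42.P 2304 5 H15.XF42.B 35942400) : H0.TR.Cov (wds g p2t_W) (wds g cv2r_W) 2 2 12 (evA (wds g p2t_W) []) :=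
  have := M.fin
  cv2T0.cov M (p2_sm M).1 (p2_sm M).2 (cv2r_act M) (p2_pc M) _ _ cv2_c0
theorem cv2 {G Ω : Type*} [Group G] [MulAction G Ω] {g : ℕ → G} {pt : ℕ → Ω}
    (M : Md g pt H15.XF42.P 2304 5 H15.XF42.B 35942400) {y : G} {e : ℕ} (hy : y ^ 2 ^ e = 1) (hq : y ^ 2 = 1) : Good (wds g cv2r_W) 2 y :=
  have := M.fin
  H0.TR.Cov.all (p2_pc M) (cv2_0 M) hy hq
theorem ZS_act {G Ω : Type*} [Group G] [MulAction G Ω] {g : ℕ → G} {pt : ℕ → Ω}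
    (M : Md g pt H15.XF42.P 2304 5 H15.XF42.B 35942400) : Act (wds g ZS_W) pt ZS_P 2304 4 :=
  M.wact ZS_lt
theorem ZSl0_e : ∀ i < 324, (dent ZSl0 ZS_P (nat_lit 2304)) i = 0 := allZ_sound0 ZSl0_e_0
theorem ZSl0_ok : DOK ZSl0 ZS_P 2304 := ⟨ZSl0_h, ZSl0_e⟩
theorem ZSl1_e : ∀ i < 11, (dent ZSl1 ZS_P (nat_lit 2304)) i = 0 := allZ_sound0 ZSl1_e_0
theorem ZSl1_ok : DOK ZSl1 ZS_P 2304 := ⟨ZSl1_h, ZSl1_e⟩
theorem ZSl2_e : ∀ i < 1, (dent ZSl2 ZS_P (nat_lit 2304)) i = 0 := allZ_sound0 ZSl2_e_0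
theorem ZSl2_ok : DOK ZSl2 ZS_P 2304 := ⟨ZSl2_h, ZSl2_e⟩
theorem ZS_low {G Ω : Type*} [Group G] [MulAction G Ω] {g : ℕ → G} {pt : ℕ → Ω}
    (M : Md g pt H15.XF42.P 2304 5 H15.XF42.B 35942400) : SLow (gi (wds g ZS_W)) pt 2304 [ZSl0, ZSl1, ZSl2] :=
  (((SLow.nil).cons ZSl2_ok (ZS_act M) ZS_f2).cons ZSl1_ok (ZS_act M) ZS_f1).cons ZSl0_ok (ZS_act M) ZS_f0
theorem ZS_card {G Ω : Type*} [Group G] [MulAction G Ω] {g : ℕ → G} {pt : ℕ → Ω}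
    (M : Md g pt H15.XF42.P 2304 5 H15.XF42.B 35942400) : 7800 ≤ Nat.card (gen (wds g ZS_W) 4) :=
  by
    have := M.fin
    have := (ZS_low M).card_ge M.inj
    rwa [ZS_c.1, ZS_c.2, gen_gi] at this
theorem ZT_act {G Ω : Type*} [Group G] [MulAction G Ω] {g : ℕ → G} {pt : ℕ → Ω}
    (M : Md g pt H15.XF42.P 2304 5 H15.XF42.B 35942400) : Act (wds g ZT_W) pt ZT_P 2304 8 :=
  M.wact ZT_lt
theorem ZTl0_e : ∀ i < 2303, (dent ZTl0 ZT_P (nat_lit 2304)) i = 0 := allZ_sound0 ZTl0_e_0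
theorem ZTl0_ok : DOK ZTl0 ZT_P 2304 := ⟨ZTl0_h, ZTl0_e⟩
theorem ZTl1_e : ∀ i < 77, (dent ZTl1 ZT_P (nat_lit 2304)) i = 0 := allZ_sound0 ZTl1_e_0
theorem ZTl1_ok : DOK ZTl1 ZT_P 2304 := ⟨ZTl1_h, ZTl1_e⟩
theorem ZTl2_e : ∀ i < 49, (dent ZTl2 ZT_P (nat_lit 2304)) i = 0 := allZ_sound0 ZTl2_e_0
theorem ZTl2_ok : DOK ZTl2 ZT_P 2304 := ⟨ZTl2_h, ZTl2_e⟩
theorem ZTl3_e : ∀ i < 1, (dent ZTl3 ZT_P (nat_lit 2304)) i = 0 := allZ_sound0 ZTl3_e_0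
theorem ZTl3_ok : DOK ZTl3 ZT_P 2304 := ⟨ZTl3_h, ZTl3_e⟩
theorem ZT_low {G Ω : Type*} [Group G] [MulAction G Ω] {g : ℕ → G} {pt : ℕ → Ω}
    (M : Md g pt H15.XF42.P 2304 5 H15.XF42.B 35942400) : SLow (gi (wds g ZT_W)) pt 2304 [ZTl0, ZTl1, ZTl2, ZTl3] :=
  ((((SLow.nil).cons ZTl3_ok (ZT_act M) ZT_f3).cons ZTl2_ok (ZT_act M) ZT_f2).cons ZTl1_ok (ZT_act M) ZT_f1).cons ZTl0_ok (ZT_act M) ZT_f0
theorem ZT_card {G Ω : Type*} [Group G] [MulAction G Ω] {g : ℕ → G} {pt : ℕ → Ω}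
    (M : Md g pt H15.XF42.P 2304 5 H15.XF42.B 35942400) : 17971200 ≤ Nat.card (gen (wds g ZT_W) 8) :=
  by
    have := M.fin
    have := (ZT_low M).card_ge M.inj
    rwa [ZT_c.1, ZT_c.2, gen_gi] at this
theorem zx : ∀ i < 2304, (fxEnt ZS_P (nat_lit 4) (nat_lit 0) (nat_lit 0)) i = 0 := allZ_sound0 zx_0
theorem Q0_m_0 : ∀ i < 2304, (matEnt (wdsP H15.XF42.P Q0_W) Q0_P (nat_lit 0)) i = 0 := allZ_sound0 Q0_m_0_0
theorem Q0_m_1 : ∀ i < 2304, (matEnt (wdsP H15.XF42.P Q0_W) Q0_P (nat_lit 1)) i = 0 := allZ_sound0 Q0_m_1_0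
theorem Q0_m_2 : ∀ i < 2304, (matEnt (wdsP H15.XF42.P Q0_W) Q0_P (nat_lit 2)) i = 0 := allZ_sound0 Q0_m_2_0
theorem Q0_m_3 : ∀ i < 2304, (matEnt (wdsP H15.XF42.P Q0_W) Q0_P (nat_lit 3)) i = 0 := allZ_sound0 Q0_m_3_0
theorem Q0_m_4 : ∀ i < 2304, (matEnt (wdsP H15.XF42.P Q0_W) Q0_P (nat_lit 4)) i = 0 := allZ_sound0 Q0_m_4_0
theorem Q0_m_5 : ∀ i < 2304, (matEnt (wdsP H15.XF42.P Q0_W) Q0_P (nat_lit 5)) i = 0 := allZ_sound0 Q0_m_5_0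
theorem Q0_m_6 : ∀ i < 2304, (matEnt (wdsP H15.XF42.P Q0_W) Q0_P (nat_lit 6)) i = 0 := allZ_sound0 Q0_m_6_0
theorem Q0_m_7 : ∀ i < 2304, (matEnt (wdsP H15.XF42.P Q0_W) Q0_P (nat_lit 7)) i = 0 := allZ_sound0 Q0_m_7_0
theorem Q0_m_8 : ∀ i < 2304, (matEnt (wdsP H15.XF42.P Q0_W) Q0_P (nat_lit 8)) i = 0 := allZ_sound0 Q0_m_8_0
theorem Q0_m_9 : ∀ i < 2304, (matEnt (wdsP H15.XF42.P Q0_W) Q0_P (nat_lit 9)) i = 0 := allZ_sound0 Q0_m_9_0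
theorem Q0_m_10 : ∀ i < 2304, (matEnt (wdsP H15.XF42.P Q0_W) Q0_P (nat_lit 10)) i = 0 := allZ_sound0 Q0_m_10_0
theorem Q0_m_11 : ∀ i < 2304, (matEnt (wdsP H15.XF42.P Q0_W) Q0_P (nat_lit 11)) i = 0 := allZ_sound0 Q0_m_11_0
theorem Q0_m_12 : ∀ i < 2304, (matEnt (wdsP H15.XF42.P Q0_W) Q0_P (nat_lit 12)) i = 0 := allZ_sound0 Q0_m_12_0
theorem Q0_m_13 : ∀ i < 2304, (matEnt (wdsP H15.XF42.P Q0_W) Q0_P (nat_lit 13)) i = 0 := allZ_sound0 Q0_m_13_0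
theorem Q0_m_14 : ∀ i < 2304, (matEnt (wdsP H15.XF42.P Q0_W) Q0_P (nat_lit 14)) i = 0 := allZ_sound0 Q0_m_14_0
theorem Q0_m_15 : ∀ i < 2304, (matEnt (wdsP H15.XF42.P Q0_W) Q0_P (nat_lit 15)) i = 0 := allZ_sound0 Q0_m_15_0
theorem Q0_m_16 : ∀ i < 2304, (matEnt (wdsP H15.XF42.P Q0_W) Q0_P (nat_lit 16)) i = 0 := allZ_sound0 Q0_m_16_0
theorem Q0_m_17 : ∀ i < 2304, (matEnt (wdsP H15.XF42.P Q0_W) Q0_P (nat_lit 17)) i = 0 := allZ_sound0 Q0_m_17_0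
theorem Q0_m_18 : ∀ i < 2304, (matEnt (wdsP H15.XF42.P Q0_W) Q0_P (nat_lit 18)) i = 0 := allZ_sound0 Q0_m_18_0
theorem Q0_m_19 : ∀ i < 2304, (matEnt (wdsP H15.XF42.P Q0_W) Q0_P (nat_lit 19)) i = 0 := allZ_sound0 Q0_m_19_0
theorem Q0_m_20 : ∀ i < 2304, (matEnt (wdsP H15.XF42.P Q0_W) Q0_P (nat_lit 20)) i = 0 := allZ_sound0 Q0_m_20_0
theorem Q0_m_21 : ∀ i < 2304, (matEnt (wdsP H15.XF42.P Q0_W) Q0_P (nat_lit 21)) i = 0 := allZ_sound0 Q0_m_21_0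
theorem Q0_m : ∀ k < 22, ∀ i < 2304, (matEnt (wdsP H15.XF42.P Q0_W) Q0_P) k i = 0 :=
  letters_glue (letters_glue (letters_glue (letters_glue (letters_glue (letters_glue (letters_glue (letters_glue (letters_glue (letters_glue (letters_glue (letters_glue (letters_glue (letters_glue (letters_glue (letters_glue (letters_glue (letters_glue (letters_glue (letters_glue (letters_glue (letters_glue (letters_nil) Q0_m_0) Q0_m_1) Q0_m_2) Q0_m_3) Q0_m_4) Q0_m_5) Q0_m_6) Q0_m_7) Q0_m_8) Q0_m_9) Q0_m_10) Q0_m_11) Q0_m_12) Q0_m_13) Q0_m_14) Q0_m_15) Q0_m_16) Q0_m_17) Q0_m_18) Q0_m_19) Q0_m_20) Q0_m_21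
theorem Q0_act {G Ω : Type*} [Group G] [MulAction G Ω] {g : ℕ → G} {pt : ℕ → Ω}
    (M : Md g pt H15.XF42.P 2304 5 H15.XF42.B 35942400) : Act (wds g Q0_W) pt Q0_P 2304 22 :=
  act_mat (M.wact Q0_lt) Q0_m
theorem c0e : ∀ i < 11699, (cEnt Q0_P (nat_lit 2304) (nat_lit 8) (nat_lit 14) (nat_lit 7) H15.XF42.B c0s) i = 0 := range_glue (range_glue (range_glue (range_glue (range_glue (range_glue (range_glue (range_glue (range_glue (range_glue (range_glue (range_glue (range_glue (range_glue (range_glue (range_glue (allZ_sound0 c0e_0) c0e_1) c0e_2) c0e_3) c0e_4) c0e_5) c0e_6) c0e_7) c0e_8) c0e_9) c0e_10) c0e_11) c0e_12) c0e_13) c0e_14) c0e_15) c0e_16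
theorem c0y_act {G Ω : Type*} [Group G] [MulAction G Ω] {g : ℕ → G} {pt : ℕ → Ω}
    (M : Md g pt H15.XF42.P 2304 5 H15.XF42.B 35942400) : Act (wds g c0y_W) pt c0y_P 2304 14 :=
  M.wact c0y_lt
theorem c0C_act {G Ω : Type*} [Group G] [MulAction G Ω] {g : ℕ → G} {pt : ℕ → Ω}
    (M : Md g pt H15.XF42.P 2304 5 H15.XF42.B 35942400) : Act (wds g c0C_W) pt c0C_P 2304 8 :=
  M.wact c0C_lt
theorem c0Cl0_e : ∀ i < 767, (dent c0Cl0 c0C_P (nat_lit 2304)) i = 0 := allZ_sound0 c0Cl0_e_0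
theorem c0Cl0_ok : DOK c0Cl0 c0C_P 2304 := ⟨c0Cl0_h, c0Cl0_e⟩
theorem c0Cl1_e : ∀ i < 3, (dent c0Cl1 c0C_P (nat_lit 2304)) i = 0 := allZ_sound0 c0Cl1_e_0
theorem c0Cl1_ok : DOK c0Cl1 c0C_P 2304 := ⟨c0Cl1_h, c0Cl1_e⟩
theorem c0C_low {G Ω : Type*} [Group G] [MulAction G Ω] {g : ℕ → G} {pt : ℕ → Ω}
    (M : Md g pt H15.XF42.P 2304 5 H15.XF42.B 35942400) : SLow (gi (wds g c0C_W)) pt 2304 [c0Cl0, c0Cl1] :=
  ((SLow.nil).cons c0Cl1_ok (c0C_act M) c0C_f1).cons c0Cl0_ok (c0C_act M) c0C_f0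
theorem c0C_card {G Ω : Type*} [Group G] [MulAction G Ω] {g : ℕ → G} {pt : ℕ → Ω}
    (M : Md g pt H15.XF42.P 2304 5 H15.XF42.B 35942400) : 3072 ≤ Nat.card (gen (wds g c0C_W) 8) :=
  by
    have := M.fin
    have := (c0C_low M).card_ge M.inj
    rwa [c0C_c.1, c0C_c.2, gen_gi] at this
theorem c0l : ∀ i < 11700, (liEnt c0s (nat_lit 14) (nat_lit 1) c0L) i = 0 := allZ_sound0 c0l_0
theorem c0 {G Ω : Type*} [Group G] [MulAction G Ω] {g : ℕ → G} {pt : ℕ → Ω}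
    (M : Md g pt H15.XF42.P 2304 5 H15.XF42.B 35942400) : 35942400 = (11699 + 1) * Nat.card (Subgroup.centralizer {(wds g Q0_W) 8}) ∧ ∃ n : ℕ → G, (∀ i, n i ∈ gen (wds g Q0_W) 8) ∧
      ∀ y, IsConj ((wds g Q0_W) 8) y → ∃ i < 11699 + 1, n i * (wds g Q0_W) (8 + c0s i % 14) * (n i)⁻¹ = y :=
  cls_cover2 M (Q0_act M) (by decide) (iv_of M (Q0_act M) c0i) (conj_of M (Q0_act M) (c0y_act M) c0c)
    (le_trans (by norm_num) (Nat.mul_le_mul_left _ (cent_ge M (Q0_act M) (c0C_act M) c0d (c0C_card M)))) c0e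
theorem c0n {G Ω : Type*} [Group G] [MulAction G Ω] {g : ℕ → G} {pt : ℕ → Ω}
    (M : Md g pt H15.XF42.P 2304 5 H15.XF42.B 35942400) : ∀ k < 8, (wds g Q0_W) k ∈ Subgroup.normalizer (gen (wds g Q0_W) 4 : Set G) :=
  norm_of M (Q0_act M) c0nc
theorem c0nP {G Ω : Type*} [Group G] [MulAction G Ω] {g : ℕ → G} {pt : ℕ → Ω}
    (M : Md g pt H15.XF42.P 2304 5 H15.XF42.B 35942400) : IsPGroup 5 (gen (wds g Q0_W) 4) :=
  pgroup_of M (Q0_act M) c0np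
theorem c0m {G Ω : Type*} [Group G] [MulAction G Ω] {g : ℕ → G} {pt : ℕ → Ω}
    (M : Md g pt H15.XF42.P 2304 5 H15.XF42.B 35942400) {A : Subgroup G} (hA : Nat.card A = 15600) (h1 : gen (wds g Q0_W) 4 ≤ A)
    {y : G} (hy : y ∈ A) (hx : IsConj y (wds g cv2r_W 0)) : ∃ γ : G, ∀ k ∈ A, k • γ • pt 0 = γ • pt 0 :=
  have := M.fin
  core_inv M (Q0_act M) (c0n M) (c0 M) c0l c0a (fun j hj h A hA h1 h2 => (c0w j hj h).elim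
    (fun h => fix_of_half M (ZS_act M) zf zx (le_trans (by norm_num) (Nat.mul_le_mul_left 2 (ZS_card M))) hA
      (h.le M (Q0_act M) (ZS_act M) ⟨by decide, by omega⟩ h1 h2))
    fun h => absurd ((ZT_card M).trans (hA ▸ Subgroup.card_le_of_le (h.le M (Q0_act M) (ZT_act M) ⟨by decide, by omega⟩ h1 h2)))
      (by norm_num)) hA
    ((gen_le.2 fun k hk => (show wds g Q0_W k = wds g Q0_W k from congrArg (evA g) (c0q.2 k hk)) ▸ mem_gen _ hk).trans h1) hy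
    ((show wds g cv2r_W 0 = wds g Q0_W 8 from congrArg (evA g) c0q.1) ▸ hx.symm)
theorem Q1_m_0 : ∀ i < 2304, (matEnt (wdsP H15.XF42.P Q1_W) Q1_P (nat_lit 0)) i = 0 := allZ_sound0 Q1_m_0_0
theorem Q1_m_1 : ∀ i < 2304, (matEnt (wdsP H15.XF42.P Q1_W) Q1_P (nat_lit 1)) i = 0 := allZ_sound0 Q1_m_1_0
theorem Q1_m_2 : ∀ i < 2304, (matEnt (wdsP H15.XF42.P Q1_W) Q1_P (nat_lit 2)) i = 0 := allZ_sound0 Q1_m_2_0
theorem Q1_m_3 : ∀ i < 2304, (matEnt (wdsP H15.XF42.P Q1_W) Q1_P (nat_lit 3)) i = 0 := allZ_sound0 Q1_m_3_0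
theorem Q1_m_4 : ∀ i < 2304, (matEnt (wdsP H15.XF42.P Q1_W) Q1_P (nat_lit 4)) i = 0 := allZ_sound0 Q1_m_4_0
theorem Q1_m_5 : ∀ i < 2304, (matEnt (wdsP H15.XF42.P Q1_W) Q1_P (nat_lit 5)) i = 0 := allZ_sound0 Q1_m_5_0
theorem Q1_m_6 : ∀ i < 2304, (matEnt (wdsP H15.XF42.P Q1_W) Q1_P (nat_lit 6)) i = 0 := allZ_sound0 Q1_m_6_0
theorem Q1_m_7 : ∀ i < 2304, (matEnt (wdsP H15.XF42.P Q1_W) Q1_P (nat_lit 7)) i = 0 := allZ_sound0 Q1_m_7_0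
theorem Q1_m_8 : ∀ i < 2304, (matEnt (wdsP H15.XF42.P Q1_W) Q1_P (nat_lit 8)) i = 0 := allZ_sound0 Q1_m_8_0
theorem Q1_m_9 : ∀ i < 2304, (matEnt (wdsP H15.XF42.P Q1_W) Q1_P (nat_lit 9)) i = 0 := allZ_sound0 Q1_m_9_0
theorem Q1_m_10 : ∀ i < 2304, (matEnt (wdsP H15.XF42.P Q1_W) Q1_P (nat_lit 10)) i = 0 := allZ_sound0 Q1_m_10_0
theorem Q1_m_11 : ∀ i < 2304, (matEnt (wdsP H15.XF42.P Q1_W) Q1_P (nat_lit 11)) i = 0 := allZ_sound0 Q1_m_11_0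
theorem Q1_m_12 : ∀ i < 2304, (matEnt (wdsP H15.XF42.P Q1_W) Q1_P (nat_lit 12)) i = 0 := allZ_sound0 Q1_m_12_0
theorem Q1_m : ∀ k < 13, ∀ i < 2304, (matEnt (wdsP H15.XF42.P Q1_W) Q1_P) k i = 0 :=
  letters_glue (letters_glue (letters_glue (letters_glue (letters_glue (letters_glue (letters_glue (letters_glue (letters_glue (letters_glue (letters_glue (letters_glue (letters_glue (letters_nil) Q1_m_0) Q1_m_1) Q1_m_2) Q1_m_3) Q1_m_4) Q1_m_5) Q1_m_6) Q1_m_7) Q1_m_8) Q1_m_9) Q1_m_10) Q1_m_11) Q1_m_12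
theorem Q1_act {G Ω : Type*} [Group G] [MulAction G Ω] {g : ℕ → G} {pt : ℕ → Ω}
    (M : Md g pt H15.XF42.P 2304 5 H15.XF42.B 35942400) : Act (wds g Q1_W) pt Q1_P 2304 13 :=
  act_mat (M.wact Q1_lt) Q1_m
theorem c1e : ∀ i < 1754, (cEnt Q1_P (nat_lit 2304) (nat_lit 8) (nat_lit 5) (nat_lit 6) H15.XF42.B c1s) i = 0 := range_glue (range_glue (allZ_sound0 c1e_0) c1e_1) c1e_2
theorem c1y_act {G Ω : Type*} [Group G] [MulAction G Ω] {g : ℕ → G} {pt : ℕ → Ω}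
    (M : Md g pt H15.XF42.P 2304 5 H15.XF42.B 35942400) : Act (wds g c1y_W) pt c1y_P 2304 5 :=
  M.wact c1y_lt
theorem c1C_act {G Ω : Type*} [Group G] [MulAction G Ω] {g : ℕ → G} {pt : ℕ → Ω}
    (M : Md g pt H15.XF42.P 2304 5 H15.XF42.B 35942400) : Act (wds g c1C_W) pt c1C_P 2304 12 :=
  M.wact c1C_lt
theorem c1Cl0_e : ∀ i < 1279, (dent c1Cl0 c1C_P (nat_lit 2304)) i = 0 := allZ_sound0 c1Cl0_e_0
theorem c1Cl0_ok : DOK c1Cl0 c1C_P 2304 := ⟨c1Cl0_h, c1Cl0_e⟩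
theorem c1Cl1_e : ∀ i < 15, (dent c1Cl1 c1C_P (nat_lit 2304)) i = 0 := allZ_sound0 c1Cl1_e_0
theorem c1Cl1_ok : DOK c1Cl1 c1C_P 2304 := ⟨c1Cl1_h, c1Cl1_e⟩
theorem c1C_low {G Ω : Type*} [Group G] [MulAction G Ω] {g : ℕ → G} {pt : ℕ → Ω}
    (M : Md g pt H15.XF42.P 2304 5 H15.XF42.B 35942400) : SLow (gi (wds g c1C_W)) pt 2304 [c1Cl0, c1Cl1] :=
  ((SLow.nil).cons c1Cl1_ok (c1C_act M) c1C_f1).cons c1Cl0_ok (c1C_act M) c1C_f0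
theorem c1C_card {G Ω : Type*} [Group G] [MulAction G Ω] {g : ℕ → G} {pt : ℕ → Ω}
    (M : Md g pt H15.XF42.P 2304 5 H15.XF42.B 35942400) : 20480 ≤ Nat.card (gen (wds g c1C_W) 12) :=
  by
    have := M.fin
    have := (c1C_low M).card_ge M.inj
    rwa [c1C_c.1, c1C_c.2, gen_gi] at this
theorem c1l : ∀ i < 1755, (liEnt c1s (nat_lit 5) (nat_lit 1) c1L) i = 0 := allZ_sound0 c1l_0
theorem c1 {G Ω : Type*} [Group G] [MulAction G Ω] {g : ℕ → G} {pt : ℕ → Ω}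
    (M : Md g pt H15.XF42.P 2304 5 H15.XF42.B 35942400) : 35942400 = (1754 + 1) * Nat.card (Subgroup.centralizer {(wds g Q1_W) 8}) ∧ ∃ n : ℕ → G, (∀ i, n i ∈ gen (wds g Q1_W) 8) ∧
      ∀ y, IsConj ((wds g Q1_W) 8) y → ∃ i < 1754 + 1, n i * (wds g Q1_W) (8 + c1s i % 5) * (n i)⁻¹ = y :=
  cls_cover2 M (Q1_act M) (by decide) (iv_of M (Q1_act M) c1i) (conj_of M (Q1_act M) (c1y_act M) c1c)
    (le_trans (by norm_num) (Nat.mul_le_mul_left _ (cent_ge M (Q1_act M) (c1C_act M) c1d (c1C_card M)))) c1e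
theorem c1n {G Ω : Type*} [Group G] [MulAction G Ω] {g : ℕ → G} {pt : ℕ → Ω}
    (M : Md g pt H15.XF42.P 2304 5 H15.XF42.B 35942400) : ∀ k < 8, (wds g Q1_W) k ∈ Subgroup.normalizer (gen (wds g Q1_W) 4 : Set G) :=
  norm_of M (Q1_act M) c1nc
theorem c1nP {G Ω : Type*} [Group G] [MulAction G Ω] {g : ℕ → G} {pt : ℕ → Ω}
    (M : Md g pt H15.XF42.P 2304 5 H15.XF42.B 35942400) : IsPGroup 5 (gen (wds g Q1_W) 4) :=
  pgroup_of M (Q1_act M) c1np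
theorem c1m {G Ω : Type*} [Group G] [MulAction G Ω] {g : ℕ → G} {pt : ℕ → Ω}
    (M : Md g pt H15.XF42.P 2304 5 H15.XF42.B 35942400) {A : Subgroup G} (hA : Nat.card A = 15600) (h1 : gen (wds g Q0_W) 4 ≤ A)
    {y : G} (hy : y ∈ A) (hx : IsConj y (wds g cv2r_W 1)) : ∃ γ : G, ∀ k ∈ A, k • γ • pt 0 = γ • pt 0 :=
  have := M.fin
  core_inv M (Q1_act M) (c1n M) (c1 M) c1l c1a (fun j hj h A hA h1 h2 => (c1w j hj h).elim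
    (fun h => fix_of_half M (ZS_act M) zf zx (le_trans (by norm_num) (Nat.mul_le_mul_left 2 (ZS_card M))) hA
      (h.le M (Q1_act M) (ZS_act M) ⟨by decide, by omega⟩ h1 h2))
    fun h => absurd ((ZT_card M).trans (hA ▸ Subgroup.card_le_of_le (h.le M (Q1_act M) (ZT_act M) ⟨by decide, by omega⟩ h1 h2)))
      (by norm_num)) hA
    ((gen_le.2 fun k hk => (show wds g Q1_W k = wds g Q0_W k from congrArg (evA g) (c1q.2 k hk)) ▸ mem_gen _ hk).trans h1) hy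
    ((show wds g cv2r_W 1 = wds g Q1_W 8 from congrArg (evA g) c1q.1) ▸ hx.symm)
theorem cl {G Ω : Type*} [Group G] [MulAction G Ω] {g : ℕ → G} {pt : ℕ → Ω}
    (M : Md g pt H15.XF42.P 2304 5 H15.XF42.B 35942400) : ∀ A : Subgroup G, Nat.card A = 15600 → ∃ γ : G, ∀ h, h ∈ A ↔ h • γ • pt 0 = γ • pt 0 :=
  fun A hA => by
    have := M.fin
    have := Fact.mk Nat.prime_five
    have := Fact.mk Nat.prime_two
    obtain ⟨γ, h1⟩ := exists_cjS 5 (c0nP M) A (by rw [index_eq (n := 2304) (M.card.trans (by norm_num)) hA]; norm_num)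
    have h2 := (card_cjS γ A).trans hA
    obtain ⟨y, hy⟩ := exists_prime_orderOf_dvd_card' (G := cjS γ A) 2 (by rw [h2]; norm_num)
    have h3 : (y : G) ^ 2 = 1 := congrArg Subtype.val (hy ▸ pow_orderOf_eq_one y)
    obtain ⟨δ, h4⟩ : ∃ δ : G, ∀ k ∈ cjS γ A, k • δ • pt 0 = δ • pt 0 := by
      rcases cv2 M (e := 1) h3 h3 with h | ⟨r, hr, h⟩
      · rw [show y = 1 from Subtype.ext h, orderOf_one] at hy; omega
      · obtain rfl | rfl : r = 0 ∨ r = 1 := by omega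
        exacts [c0m M h2 h1 y.2 h, c1m M h2 h1 y.2 h]
    exact cl_of_fix (RuH.tr0 M).hK (hA.trans (RuH.cK M).symm) h4

end H15.RuI
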