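/-
S5806: generators of 2-subgroups of `SL₂³`.
-/
import Cfsg.Agent.H12.SP1

set_option autoImplicit false
set_option linter.unusedSectionVars false

namespace H15.S6
open Matrix Cfsg H6.SP H11.SP H12.SP Subgroup
open scoped MatrixGroups
universe u

section
variable {A : Type*} [Group A] {N H K K' L : Subgroup A} {n m : ℕ}

/-- `H` lies in the group generated by `N`, `K` and `n` elements -/
def gn (N : Subgroup A) (n : ℕ) (H K : Subgroup A) : Prop :=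
  ∃ l : List A, l.length ≤ n ∧ ∀ M : Subgroup A, N ≤ M → (∀ x ∈ l, x ∈ M) → K ≤ M → H ≤ M

theorem gn.tr (h : gn N n H K) (h' : gn N m K' L) (e : K ≤ K') : gn N (n + m) H L :=
  let ⟨l, a, b⟩ := h
  let ⟨l', a', b'⟩ := h'
  ⟨l ++ l', by simp; omega, fun M s t u => b M s (fun x hx => t x (by simp [hx])) (e.trans (b' M s (fun x hx => t x (by simp [hx])) u))⟩

theorem gn.le (h : gn N n H K) (e : n ≤ m) : gn N m H K := let ⟨l, a, b⟩ := h; ⟨l, a.trans e, b⟩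

theorem gn0 (h : H ≤ N) : gn N 0 H K := ⟨[], le_rfl, fun _ s _ _ => h.trans s⟩

theorem idx : ∀ (l : List A) (N : Subgroup A), (∀ x, x * x ∈ N) → (∀ M, N ≤ M → (∀ x ∈ l, x ∈ M) → ⊤ ≤ M) → N.index ≤ 2 ^ l.length
  | [], N, _, h => by rw [top_le_iff.1 (h N le_rfl (by simp))]; simp
  | x :: l, N, s, h => by
    have : N.Normal := ⟨fun n hn g => by
      have := mul_mem (mul_mem (s (g * n)) (inv_mem hn)) (s g⁻¹)
      rwa [show g * n * (g * n) * n⁻¹ * (g⁻¹ * g⁻¹) = g * n * g⁻¹ by group] at this⟩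
    have i := idx l (N ⊔ zpowers x) (fun y => mem_sup_left (s y)) fun M a b => h M (le_sup_left.trans a)
      (List.forall_mem_cons.2 ⟨a (mem_sup_right (mem_zpowers x)), b⟩)
    rw [← relIndex_mul_index (le_sup_left (b := zpowers x)), relIndex_sup_left, List.length_cons, pow_succ']
    refine Nat.mul_le_mul (Nat.le_of_dvd two_pos (relIndex_dvd_two_iff.2 ⟨x, mem_zpowers x, ?_⟩)) i
    rintro _ ⟨n, rfl⟩
    obtain ⟨m, rfl | rfl⟩ := Int.even_or_odd' n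
    exacts [.inr (by convert s (x ^ m) using 1; group), .inl (by convert s (x ^ (m + 1)) using 1; group)]

theorem gn.idx (h : gn N n ⊤ ⊥) (s : ∀ x, x * x ∈ N) : N.index ≤ 2 ^ n :=
  let ⟨l, a, b⟩ := h
  (S6.idx l N s fun M c d => b M c d bot_le).trans (Nat.pow_le_pow_right two_pos a)

theorem pw (hA : IsPGroup 2 A) {x : A} (h : x ∉ K) : ∃ n : ℕ, x ^ n ∉ K ∧ x ^ n * x ^ n ∈ K := by
  by_contra c
  push Not at c
  have : ∀ n : ℕ, x ^ 2 ^ n ∉ K := fun n => by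
    induction n with
    | zero => simpa
    | succ n i => rw [pow_succ, pow_mul, pow_two]; exact c _ i
  obtain ⟨n, e⟩ := hA x
  exact this n (e ▸ one_mem _)
end

section
variable {F : Type u} [Field F] {x y k : SL(2, F)}

/-- the scalars -/
abbrev Zs : Subgroup SL(2, F) := zpowers (-1)

theorem mz : x ∈ Zs ↔ x = 1 ∨ x = -1 := ⟨by
  rintro ⟨n, rfl⟩
  obtain ⟨m, rfl | rfl⟩ := Int.even_or_odd' n <;> simp [_root_.zpow_add, _root_.zpow_mul, zpow_two], by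
  rintro (rfl | rfl); exacts [one_mem _, mem_zpowers _]⟩

instance : (Zs (F := F)).Normal := ⟨fun n hn g => by rcases mz.1 hn with rfl | rfl <;> simp⟩

theorem sq1 (h2 : (2 : F) ≠ 0) (h : x * x = 1) : x ∈ Zs := by
  have d := x.2
  have e := congrArg Subtype.val h
  have e1 := congrFun₂ e 0 0
  have e2 := congrFun₂ e 0 1
  have e3 := congrFun₂ e 1 0
  rw [det_fin_two] at d
  simp [Matrix.mul_apply, Fin.sum_univ_two] at e1 e2 e3
  have b : x.1 0 1 = 0 := mul_left_cancel₀ h2 (by linear_combination x.1 0 0 * e2 - x.1 0 1 * (e1 + d))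
  have c : x.1 1 0 = 0 := mul_left_cancel₀ h2 (by linear_combination x.1 0 0 * e3 - x.1 1 0 * (e1 + d))
  rw [b] at e1 d
  rw [mz]
  refine (mul_self_eq_one_iff.1 (show x.1 0 0 * x.1 0 0 = 1 by simpa using e1)).imp (fun a => ?_) fun a => ?_ <;>
  · rw [a] at d
    ext i j; fin_cases i <;> fin_cases j <;> simp [a, b, c]
    grind

theorem m1 (h2 : (2 : F) ≠ 0) (h : x ∉ Zs) (h' : x * x ∈ Zs) : x * x = -1 := (mz.1 h').resolve_left fun e => h (sq1 h2 e)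

theorem zz (h : x ∈ Zs) : x * x = 1 := by rcases mz.1 h with rfl | rfl <;> simp

theorem ne1 (h2 : (2 : F) ≠ 0) : (-1 : SL(2, F)) ≠ 1 := fun e => by
  have := congrFun₂ (congrArg Subtype.val e) 0 0
  simp at this
  exact h2 (by linear_combination -this)

theorem cm2 (h2 : (2 : F) ≠ 0) (hk : k * k = -1) (hx : Commute x k) (hy : Commute y k) : Commute x y := by
  have t := tr0 (congrArg Subtype.val hk) k.2
  have d := k.2
  have e : x.1 * k.1 = k.1 * x.1 := congrArg Subtype.val hx.eq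
  have e' : y.1 * k.1 = k.1 * y.1 := congrArg Subtype.val hy.eq
  have e1 := congrFun₂ e 0 0
  have e2 := congrFun₂ e 0 1
  have e3 := congrFun₂ e 1 0
  have f1 := congrFun₂ e' 0 0
  have f2 := congrFun₂ e' 0 1
  have f3 := congrFun₂ e' 1 0
  rw [trace_fin_two] at t
  rw [det_fin_two] at d
  simp only [Matrix.mul_apply, Fin.sum_univ_two, ← neg_eq_of_add_eq_zero_right t] at e1 e2 e3 f1 f2 f3 d
  have cx : ∀ {a b c d u v w : F}, u * -u - v * w = 1 → a * u + b * w = u * a + v * c → a * v + b * -u = u * b + v * d →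
      c * u + d * w = w * a + -u * c → ∃ t, a = d + t * u ∧ 2 * b = t * v ∧ 2 * c = t * w := fun {a b c d u v w} h e1 e2 e3 =>
    ⟨-(u * (a - d) + w * b + v * c), by grind, by grind, by grind⟩
  obtain ⟨s, a, b, c⟩ := cx d e1 e2 e3
  obtain ⟨s', a', b', c'⟩ := cx d f1 f2 f3
  refine Subtype.ext (show x.1 * y.1 = y.1 * x.1 from Matrix.ext fun i j => mul_left_cancel₀ (mul_ne_zero h2 h2) ?_)
  clear e e' e1 e2 e3 f1 f2 f3 t d hk hx hy cx
  fin_cases i <;> fin_cases j <;> simp only [Matrix.mul_apply, Fin.sum_univ_two, Fin.zero_eta, Fin.mk_one, a, a'] <;> grind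

theorem ac2 (h2 : (2 : F) ≠ 0) (h : x * k = -(k * x)) : x * x = -1 := by
  have : x = -(k * x * k⁻¹) := by rw [← neg_mul, ← h]; simp
  have t := congrArg (fun y : SL(2, F) => y.1.trace) this
  change x.1.trace = (-(k.1 * x.1 * (k⁻¹).1)).trace at t
  rw [trace_neg, trace_mul_cycle, show (k⁻¹).1 * k.1 = 1 from congrArg Subtype.val (inv_mul_cancel k), one_mul] at t
  exact Subtype.ext (sq_of_tr0 (mul_left_cancel₀ h2 (by linear_combination t)) x.2)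

variable {A : Type*} [Group A] [Finite A] {N H C : Subgroup A} {z : A} {a b c : A →* SL(2, F)}

theorem dc (h2 : (2 : F) ≠ 0) (hA : IsPGroup 2 A) (H : Subgroup A) (a : A →* SL(2, F)) : ∃ C ≤ H,
    (∀ x ∈ C, ∀ y ∈ C, Commute (a x) (a y)) ∧ (∀ x ∈ H, ∀ d ∈ H, x ∉ C → d ∉ C → x * d ∈ C) ∧
    ∀ d ∈ H, d ∉ C → a d * a d = -1 ∧ ∃ k ∈ H, a k * a k = -1 ∧ ¬ Commute (a d) (a k) := by
  let f := (QuotientGroup.mk' Zs).comp a
  have mk : ∀ x, f x = 1 ↔ a x ∈ Zs := fun x => QuotientGroup.eq_one_iff _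
  by_cases h : H.map f = ⊥
  · refine ⟨H, le_rfl, fun x hx y _ => ?_, fun x hx _ _ n => absurd hx n, fun x hx n => absurd hx n⟩
    rcases mz.1 ((mk x).1 (mem_bot.1 (h ▸ mem_map_of_mem f hx))) with e | e <;> simp [e]
  have := (nontrivial_iff_ne_bot _).2 h
  have : Finite (H.map f) := .of_surjective _ (f.subgroupMap_surjective H)
  obtain ⟨⟨⟨_, k, hk, rfl⟩, ck⟩, nk⟩ := @exists_ne _ ((hA.to_subgroup H).map f).center_nontrivial 1
  obtain ⟨n, n1, n2⟩ := pw (K := Zs.comap a) (x := k) hA fun e => nk (Subtype.ext (Subtype.ext ((mk k).2 e)))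
  have kk : a (k ^ n) * a (k ^ n) = -1 := m1 h2 n1 (map_mul a _ _ ▸ n2)
  have ac : ∀ x ∈ H, ¬ Commute (a x) (a (k ^ n)) → a x * a (k ^ n) = -(a (k ^ n) * a x) := fun x hx nc => by
    have c : Commute (f x) (f k) := congrArg Subtype.val (mem_center_iff.1 ck ⟨_, mem_map_of_mem f hx⟩)
    have := (mk (x * k ^ n * (k ^ n * x)⁻¹)).1 (by simp only [map_mul, map_inv, map_pow, (c.pow_right n).eq, mul_inv_cancel])
    simp only [map_mul, map_inv, mz, mul_inv_eq_iff_eq_mul, one_mul, neg_mul] at this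
    exact this.resolve_left nc
  refine ⟨H ⊓ (centralizer {a (k ^ n)}).comap a, inf_le_left, fun x hx y hy => cm2 h2 kk (mem_centralizer_singleton_iff.1 hx.2)
    (mem_centralizer_singleton_iff.1 hy.2), fun x hx d hd n1 n2 => ⟨mul_mem hx hd, mem_centralizer_singleton_iff.2 ?_⟩, fun d hd n1 => ?_⟩
  · rw [map_mul, mul_assoc, ac d hd fun e => n2 ⟨hd, mem_centralizer_singleton_iff.2 e⟩, mul_neg, ← mul_assoc,
      ac x hx fun e => n1 ⟨hx, mem_centralizer_singleton_iff.2 e⟩, neg_mul, neg_neg, mul_assoc]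
  have nc : ¬ Commute (a d) (a (k ^ n)) := fun e => n1 ⟨hd, mem_centralizer_singleton_iff.2 e⟩
  exact ⟨ac2 h2 (ac d hd nc), _, pow_mem hk n, kk, nc⟩

theorem g1 (h2 : (2 : F) ≠ 0) (s : ∀ x, x * x ∈ N) (h : ∀ x ∈ C, ∀ y ∈ C, Commute (a x) (a y)) : gn N 1 C (C ⊓ Zs.comap a) := by
  have : Finite (C.map a) := .of_surjective _ (a.subgroupMap_surjective C)
  let q : C.map a →* C.map a := .mk' (fun x => x * x) fun ⟨_, x, hx, e⟩ ⟨_, y, hy, e'⟩ => by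
    subst e e'; exact Subtype.ext ((h x hx y hy).mul_mul_mul_comm _ _).symm
  have : q.range.index ∣ 2 := by
    rw [index_range]
    refine (card_dvd_of_injective (((C.map a).subtype.comp q.ker.subtype).codRestrict Zs fun x => sq1 h2 (congrArg Subtype.val x.2))
      fun _ _ e => Subtype.ext (Subtype.ext (by simpa using congrArg Subtype.val e))).trans ?_
    rw [Nat.card_zpowers]; exact orderOf_dvd_of_pow_eq_one (by simp)
  obtain ⟨⟨_, c, hc, rfl⟩, i⟩ := index_dvd_two_iff.1 this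
  refine ⟨[c], le_rfl, fun M l1 l2 l3 x hx => ?_⟩
  have k : ∀ w ∈ C, (∃ y : C.map a, y.1 * y.1 = a w) → w ∈ M := fun w hw ⟨⟨_, y, hy, e⟩, e'⟩ => by
    subst e
    have := mul_mem (l3 (x := w * (y * y)⁻¹) ⟨C.mul_mem hw (C.inv_mem (C.mul_mem hy hy)), by simp [← e']⟩) (l1 (s y))
    rwa [inv_mul_cancel_right] at this
  rcases i ⟨_, x, hx, rfl⟩ with ⟨y, e⟩ | ⟨y, e⟩
  · exact (mul_mem_cancel_right (l2 c (by simp))).1 (k _ (mul_mem hx hc) ⟨y, map_mul a x c ▸ congrArg Subtype.val e⟩)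
  exact k x hx ⟨y, congrArg Subtype.val e⟩

theorem ext2 {M : Subgroup A} {d : A} (h : ∀ x ∈ H, ∀ d ∈ H, x ∉ C → d ∉ C → x * d ∈ C) (hd : d ∈ H) (n : d ∉ C) (m : d ∈ M)
    (l : C ≤ M) : H ≤ M := fun x hx => by
  by_cases k : x ∈ C
  exacts [l k, (mul_mem_cancel_right m).1 (l (h x hx d hd k n))]

theorem g2 (h2 : (2 : F) ≠ 0) (hA : IsPGroup 2 A) (s : ∀ x, x * x ∈ N) (H : Subgroup A) (a : A →* SL(2, F)) :
    gn N 2 H (H ⊓ Zs.comap a) := by
  obtain ⟨C, l, c1, c2, -⟩ := dc h2 hA H a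
  obtain ⟨L, n, k⟩ := g1 h2 s c1
  by_cases h : H ≤ C
  · exact ⟨L, by omega, fun M a b c => h.trans (k M a b ((inf_le_inf_right _ l).trans c))⟩
  obtain ⟨d, hd, nd⟩ := SetLike.not_le_iff_exists.1 h
  exact ⟨d :: L, by simpa, fun M a b c => ext2 c2 hd nd (b d (by simp)) (k M a (fun x hx => b x (by simp [hx]))
    ((inf_le_inf_right _ l).trans c))⟩

/-- a 2-subgroup of `SL₂³` without elements of order four supported on one factor -/
structure Sy (N : Subgroup A) (z : A) (a b c : A →* SL(2, F)) : Prop where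
  two : (2 : F) ≠ 0
  pg : IsPGroup 2 A
  sq : ∀ x, x * x ∈ N
  zN : z ∈ N
  za : a z = -1
  zb : b z = -1
  zc : c z = -1
  inj : ∀ x, a x = 1 → b x = 1 → c x = 1 → x = 1
  ha : ∀ x, b x = 1 → c x = 1 → a x * a x ≠ -1
  hb : ∀ x, a x = 1 → c x = 1 → b x * b x ≠ -1
  hc : ∀ x, a x = 1 → b x = 1 → c x * c x ≠ -1

def Tt (a b c : A →* SL(2, F)) : Prop := ∃ t, a t = -1 ∧ b t = 1 ∧ c t = 1

theorem Tt.sy (h : Tt a b c) : Tt a c b := let ⟨t, x, y, z⟩ := h; ⟨t, x, z, y⟩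

namespace Sy
variable (S : Sy N z a b c) {x t : A}
include S

theorem s1 : Sy N z b a c := ⟨S.two, S.pg, S.sq, S.zN, S.zb, S.za, S.zc, fun x p q => S.inj x q p, S.hb, S.ha, fun x p q => S.hc x q p⟩
theorem s2 : Sy N z a c b := ⟨S.two, S.pg, S.sq, S.zN, S.za, S.zc, S.zb, fun x p q r => S.inj x p r q, fun x p q => S.ha x q p, S.hc, S.hb⟩

theorem na (p : b x = 1) (q : c x = 1) : a x ∈ Zs := by
  by_contra h
  obtain ⟨n, n1, n2⟩ := pw (K := Zs.comap a) S.pg h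
  exact S.ha (x ^ n) (by simp [p]) (by simp [q]) (m1 S.two n1 (map_mul a _ _ ▸ n2))

theorem or (h : a t = -1 ∧ b t = 1 ∧ c t = 1) (p : b x = 1) (q : c x = 1) : x = 1 ∨ x = t :=
  (mz.1 (S.na p q)).imp (fun e => S.inj x e p q) fun e => mul_inv_eq_one.1 (S.inj _ (by simp [e, h.1]) (by simp [p, h.2.1]) (by simp [q, h.2.2]))

theorem ut (m : t ∈ N) (h : a t = -1 ∧ b t = 1 ∧ c t = 1) : b.ker ⊓ c.ker ≤ N := fun _ hx => by
  rcases S.or h hx.1 hx.2 with rfl | rfl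
  exacts [one_mem _, m]

theorem un (h : ¬ Tt a b c) : b.ker ⊓ c.ker ≤ N := fun x hx =>
  S.inj x ((mz.1 (S.na hx.1 hx.2)).resolve_right fun e => h ⟨x, e, hx.1, hx.2⟩) hx.1 hx.2 ▸ one_mem _

theorem y1 (p : b x ∈ Zs) (q : c x ∈ Zs) (r : a x ∉ Zs) : (a (x * x) = -1 ∧ b (x * x) = 1 ∧ c (x * x) = 1) ∧ b x = -c x ∧ ¬ Tt b a c := by
  have p' : b (x * x) = 1 := map_mul b x x ▸ zz p
  have q' : c (x * x) = 1 := map_mul c x x ▸ zz q
  have k : ∀ y, a y ∈ Zs → b (x * y) = 1 → c (x * y) = 1 → False := fun y h1 h2 h3 =>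
    r ((mul_mem_cancel_right h1).1 (map_mul a x y ▸ S.na h2 h3))
  have zz : a z ∈ Zs := mz.2 (.inr S.za)
  refine ⟨⟨map_mul a x x ▸ m1 S.two r (map_mul a x x ▸ S.na p' q'), p', q'⟩, ?_, fun ⟨t, t1, t2, t3⟩ => ?_⟩ <;>
  rcases mz.1 p with p | p <;> rcases mz.1 q with q | q
  exacts [(k 1 (by simp) (by simpa) (by simpa)).elim, by simp [p, q], by simp [p, q],
    (k z zz (by simp [p, S.zb]) (by simp [q, S.zc])).elim, k 1 (by simp) (by simpa) (by simpa),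
    k (z * t) (by simpa [t2]) (by simp [p, S.zb, t1]) (by simp [q, S.zc, t3]), k t (by simp [t2]) (by simp [p, t1]) (by simp [q, t3]),
    k z zz (by simp [p, S.zb]) (by simp [q, S.zc])]

theorem adj {M : Subgroup A} (l : N ≤ M) (h : ∀ x, a x = 1 → b x ∈ Zs → c x ∈ Zs → x ∈ M) :
    Zs.comap a ⊓ (Zs.comap b ⊓ Zs.comap c) ≤ M := fun x hx => by
  rcases mz.1 hx.1 with e | e
  · exact h x e hx.2.1 hx.2.2
  exact (mul_mem_cancel_right (l S.zN)).1 (h _ (by simp [e, S.za]) (map_mul b x z ▸ mul_mem hx.2.1 (mz.2 (.inr S.zb)))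
    (map_mul c x z ▸ mul_mem hx.2.2 (mz.2 (.inr S.zc))))

theorem eN (p : b.ker ⊓ c.ker ≤ N) (q : a.ker ⊓ c.ker ≤ N) (r : a.ker ⊓ b.ker ≤ N) : Zs.comap a ⊓ (Zs.comap b ⊓ Zs.comap c) ≤ N :=
  S.adj le_rfl fun x e h h' => by
    rcases mz.1 h with h | h
    · exact r ⟨e, h⟩
    rcases mz.1 h' with h' | h'
    · exact q ⟨e, h'⟩
    exact (mul_mem_cancel_right S.zN).1 (p ⟨by simp [h, S.zb], by simp [h', S.zc]⟩)

theorem e1 : gn N 1 (Zs.comap a ⊓ (Zs.comap b ⊓ Zs.comap c)) (a.ker ⊓ b.ker) := by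
  by_cases h : ∃ t, a t = 1 ∧ b t = -1
  · obtain ⟨t, t1, t2⟩ := h
    refine ⟨[t], le_rfl, fun M l m k => S.adj l fun x e h _ => ?_⟩
    rcases mz.1 h with h | h
    exacts [k ⟨e, h⟩, (mul_mem_cancel_right (m t (by simp))).1 (k ⟨by simp [e, t1], by simp [h, t2]⟩)]
  exact ⟨[], by simp, fun M l _ k => S.adj l fun x e h' _ => k ⟨e, (mz.1 h').resolve_right fun e' => h ⟨x, e, e'⟩⟩⟩

theorem ku (T : Tt a b c) : Zs.comap a ≤ Zs.comap b ⊓ Zs.comap c ∨ b.ker ⊓ c.ker ≤ N := by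
  refine or_iff_not_imp_left.2 fun h => ?_
  obtain ⟨x, hx, nx⟩ := SetLike.not_le_iff_exists.1 h
  obtain ⟨n, n1, n2⟩ := pw S.pg nx
  have p : a (x ^ n) ∈ Zs := pow_mem hx n
  have q : b (x ^ n) ∉ Zs := fun e => (S.s2.s1.y1 p e fun e' => n1 ⟨e, e'⟩).2.2 T.sy
  have r : c (x ^ n) ∉ Zs := fun e => (S.s1.y1 p e q).2.2 T
  exact S.ut (mul_mem (S.sq (x ^ n)) S.zN) ⟨by rw [map_mul, map_mul, zz p, S.za, one_mul],
    by rw [map_mul, map_mul, m1 S.two q (map_mul b _ _ ▸ n2.1), S.zb]; simp, by rw [map_mul, map_mul, m1 S.two r (map_mul c _ _ ▸ n2.2), S.zc]; simp⟩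

theorem ge (h : Zs.comap a ≤ Zs.comap b ⊓ Zs.comap c) : gn N 3 ⊤ (a.ker ⊓ b.ker) :=
  (g2 S.two S.pg S.sq ⊤ a).tr S.e1 (le_inf inf_le_right (inf_le_right.trans h))

theorem c2 (Ta : ¬ Tt a b c) (Tb : ¬ Tt b a c) : gn N 3 ⊤ ⊥ := by
  have ac : ∀ x, a x ∈ Zs → c x ∈ Zs → b x ∈ Zs := fun x p q => by
    by_contra r; exact Tb ⟨_, (S.s1.y1 p q r).1⟩
  by_cases h : Zs.comap a ≤ Zs.comap c ⊓ Zs.comap b
  · exact (S.s2.ge h).tr (gn0 (S.s1.un Tb)) le_rfl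
  have w : ∀ x, a x ∈ Zs → c x * c x = -1 → b x ∈ Zs := fun x p q => by
    by_contra r
    exact Ta ⟨x * x * z, by rw [map_mul, map_mul, zz p, S.za, one_mul], by
      rw [map_mul, map_mul, m1 S.two r (map_mul b _ _ ▸ ac _ (map_mul a x x ▸ mul_mem p p) (mz.2 (.inr (map_mul c x x ▸ q)))), S.zb]; simp,
      by rw [map_mul, map_mul, q, S.zc]; simp⟩
  obtain ⟨x, hx, nx⟩ := SetLike.not_le_iff_exists.1 h
  obtain ⟨n, n1, n2⟩ := pw S.pg nx
  have p : a (x ^ n) ∈ Zs := pow_mem hx n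
  have r : c (x ^ n) ∉ Zs := fun e => n1 ⟨e, ac _ p e⟩
  have E := S.eN (S.un Ta) (S.s1.un Tb) (S.s2.s1.ut (S.sq _) (S.s2.s1.y1 p (w _ p (m1 S.two r (map_mul c _ _ ▸ n2.1))) r).1)
  obtain ⟨C, l, c1, -, c3⟩ := dc S.two S.pg (Zs.comap a) c
  obtain rfl : C = Zs.comap a := l.antisymm fun d hd => by
    by_contra nd
    obtain ⟨dd, k, hk, kk, nc⟩ := c3 d hd nd
    have nz : ∀ {y : SL(2, F)}, y * y = -1 → y ∉ Zs := fun e m => ne1 S.two (e.symm.trans (zz m))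
    have e1 := (S.s2.s1.y1 hd (w d hd dd) (nz dd)).2.1
    have e2 := (S.s2.s1.y1 hk (w k hk kk) (nz kk)).2.1
    have : c (d * k) ∈ Zs := by
      by_contra m
      have e3 := (S.s2.s1.y1 (mul_mem hd hk) (map_mul b d k ▸ mul_mem (w d hd dd) (w k hk kk)) m).2.1
      rw [map_mul, map_mul, e1, e2, neg_mul_neg] at e3
      exact ne1 S.two (mul_right_cancel (b := b d * b k) (by rw [neg_one_mul, one_mul, ← e3]))
    rw [map_mul, mz, mul_eq_one_iff_eq_inv, ← neg_eq_iff_eq_neg, ← neg_mul, mul_eq_one_iff_eq_inv, neg_eq_iff_eq_neg] at this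
    rcases this with e | e <;> exact nc (by simp [e])
  exact ((g2 S.two S.pg S.sq ⊤ a).tr (g1 S.two S.sq c1) inf_le_right).tr (gn0 E) fun y hy => ⟨hy.1, ac y hy.1 hy.2, hy.2⟩

theorem t3 (Ta : Tt a b c) (Tb : Tt b a c) : Tt c a b :=
  let ⟨t, t1, t2, t3⟩ := Ta
  let ⟨s, s1, s2, s3⟩ := Tb
  ⟨t * s * z, by simp [t3, s3, S.zc], by simp [t1, s2, S.za], by simp [t2, s1, S.zb]⟩

theorem cs : gn N 3 ⊤ ⊥ ∨ Tt a b c ∧ Tt b a c ∧ Tt c a b := by
  by_cases Ta : Tt a b c <;> by_cases Tb : Tt b a c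
  · exact .inr ⟨Ta, Tb, S.t3 Ta Tb⟩
  · exact .inl (S.s1.s2.c2 (fun h => Tb h.sy) fun h => Tb (S.s2.t3 Ta.sy h.sy))
  · exact .inl (S.s2.c2 (fun h => Ta h.sy) fun h => Ta (S.s1.s2.t3 Tb.sy h.sy))
  exact .inl (S.c2 Ta Tb)

theorem ab (T : Tt a b c) : Zs.comap a ⊓ Zs.comap b ≤ Zs.comap a ⊓ (Zs.comap b ⊓ Zs.comap c) := fun x hx => ⟨hx.1, hx.2, by
  by_contra r; exact (S.s2.s1.y1 hx.1 hx.2 r).2.2 T.sy⟩

theorem g4 (T : Tt c a b) (h : Zs.comap a ≤ Zs.comap b ⊓ Zs.comap c) : gn N 4 ⊤ ⊥ :=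
  let ⟨t, ht⟩ := T
  S.ge h |>.tr (m := 1) ⟨[t], le_rfl, fun M _ m _ x hx => by
    rcases S.s2.s1.or ht hx.1 hx.2 with rfl | rfl
    exacts [one_mem _, m _ (by simp)]⟩ le_rfl

theorem four : gn N 4 ⊤ ⊥ := by
  rcases S.cs with h | ⟨Ta, Tb, Tc⟩
  · exact h.le (by decide)
  rcases S.ku Ta with h | p
  · exact S.g4 Tc h
  rcases S.s1.ku Tb with h | q
  · exact S.s1.g4 Tc.sy h
  rcases S.s2.s1.ku Tc with h | r
  · exact S.s2.s1.g4 Tb.sy h
  exact ((g2 S.two S.pg S.sq ⊤ a).tr (g2 S.two S.pg S.sq _ b) inf_le_right).tr (gn0 (S.eN p q r)) (S.ab Ta)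

theorem three (σ : A → A) (s : ∀ x, x * σ x ∈ N)
    (h : ∀ x, ∀ e ∈ Zs, (b x = e → a (σ x) = e) ∧ (a x = e → b (σ x) = e) ∧ (c x = e → c (σ x) = e)) : gn N 3 ⊤ ⊥ := by
  rcases S.cs with h | ⟨Ta, Tb, Tc⟩
  · exact h
  have o := one_mem (Zs (F := F))
  have r : a.ker ⊓ b.ker ≤ N := by
    obtain ⟨t, t1, t2, t3⟩ := Ta
    exact S.s2.s1.ut (mul_mem (s t) S.zN) ⟨by simp [t3, (h t 1 o).2.2 t3, S.zc], by simp [t1, (h t 1 o).1 t2, S.za],
      by simp [t2, (h t _ (mem_zpowers _)).2.1 t1, S.zb]⟩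
  rcases S.ku Ta with k | p
  · exact (S.ge k).tr (gn0 r) le_rfl
  have E := (S.ab Ta).trans (S.eN p (fun x hx => (mul_mem_cancel_right (p ⟨(h x 1 o).2.1 hx.1, (h x 1 o).2.2 hx.2⟩)).1 (s x)) r)
  obtain ⟨C, -, c1, c2, -⟩ := dc S.two S.pg ⊤ b
  by_cases k : Zs.comap a ≤ C
  · exact ((g2 S.two S.pg S.sq ⊤ a).tr (g1 S.two S.sq fun x hx y hy => c1 x (k hx) y (k hy)) inf_le_right).tr (gn0 E) le_rfl
  obtain ⟨d, hd, nd⟩ := SetLike.not_le_iff_exists.1 k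
  obtain ⟨L, n, k⟩ := g1 S.two S.sq c1
  exact (gn.tr (n := 1) ⟨L, n, fun M l m w => ext2 c2 trivial nd (w hd) (k M l m fun x hx =>
    (mul_mem_cancel_right (w (show a (σ x) ∈ Zs from (h x _ hx.2).1 rfl ▸ hx.2))).1 (l (s x)))⟩ (g2 S.two S.pg S.sq _ b) le_rfl).tr
    (gn0 E) le_rfl
end Sy
end

end H15.S6
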