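/-
S5806: the pieces `MO`, `R4` (Sylow 2-subgroups of `Sp₆(q)`, sectional rank).
-/
import Cfsg.Agent.H15.S6a
import Cfsg.Agent.H11.SL

set_option autoImplicit false
set_option linter.unusedSectionVars false

namespace H15.S6
open Matrix Cfsg H6.SP H11.SP H12.SP Subgroup
open scoped MatrixGroups
universe u

section
variable {F : Type u} [Field F]

/-- the embedding of `SL₂³` -/
noncomputable def ι : SL(2, F) × SL(2, F) × SL(2, F) →* G6 F := MonoidHom.toHomUnits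
  { toFun := fun x => kr (bl x.1.1 x.2.1.1 x.2.2.1), map_one' := by simp [bl_one, kr_one]
    map_mul' := fun x y => by simp [← kr_mul, bl_mul] }

/-- the exchange of two planes -/
def ws : G6 F := ⟨kr sw, kr sw, by rw [← kr_mul, sw_sw, kr_one], by rw [← kr_mul, sw_sw, kr_one]⟩

theorem ι_inj : Function.Injective (ι (F := F)) := fun _ _ e =>
  let ⟨a, b, c⟩ := bl_inj (kr_inj (congrArg Units.val e))
  Prod.ext (Subtype.ext a) (Prod.ext (Subtype.ext b) (Subtype.ext c))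

theorem ws_ι (a b c : SL(2, F)) : ws * ι (a, b, c) = ι (b, a, c) * ws :=
  Units.ext (((kr_mul _ _).symm.trans (congrArg kr sw_bl)).trans (kr_mul _ _))

theorem ws_ws : (ws : G6 F) * ws = 1 := Units.ext ws.val_inv

theorem inB {g : G6 F} : InB g ↔ ∃ x, g = ι x ∨ g = ι x * ws :=
  ⟨fun ⟨a, b, c, h⟩ => ⟨(a, b, c), h.imp Units.ext fun e => Units.ext (e.trans (kr_mul _ _))⟩,
    fun ⟨x, h⟩ => ⟨x.1, x.2.1, x.2.2, h.imp (congrArg Units.val) fun e => (congrArg Units.val e).trans (kr_mul _ _).symm⟩⟩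

theorem ι_neg : ι (-1, -1, -1) = (-1 : G6 F) := Units.ext (show kr (bl (-1) (-1) (-1)) = -1 by rw [← bl_neg, bl_one, kr_neg, kr_one])

theorem kr_mv (A : M32 F) (u : V6 F) (s : I6) :
    (kr A *ᵥ u) s = ∑ j, (A (sd s).1 j (sd s).2 0 * u (.inl j) + A (sd s).1 j (sd s).2 1 * u (.inr j)) := by
  rw [Finset.sum_add_distrib, mulVec, dotProduct, Fintype.sum_sum_type]; rfl

theorem ι_val (x : SL(2, F) × SL(2, F) × SL(2, F)) : (ι x).val = kr (bl x.1.1 x.2.1.1 x.2.2.1) := rfl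

theorem m_e {R : Type*} (a b c d e f g h i : R) : let m := !![a, b, c; d, e, f; g, h, i]
    m 0 0 = a ∧ m 0 1 = b ∧ m 0 2 = c ∧ m 1 0 = d ∧ m 1 1 = e ∧ m 1 2 = f ∧ m 2 0 = g ∧ m 2 1 = h ∧ m 2 2 = i :=
  ⟨rfl, rfl, rfl, rfl, rfl, rfl, rfl, rfl, rfl⟩

theorem ι_mem (x : SL(2, F) × SL(2, F) × SL(2, F)) : ι x ∈ S6 F := mem_S6.2 fun u v => by
  rw [ι_val]
  obtain ⟨⟨a, ha⟩, ⟨b, hb⟩, ⟨c, hc⟩⟩ := x
  rw [det_fin_two] at ha hb hc
  simp only [fm_ap, Fin.sum_univ_three, kr_mv, sd, Sum.elim_inl, Sum.elim_inr]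
  simp only [bl, m_e, Matrix.zero_apply]
  linear_combination (u (.inr 0) * v (.inl 0) - u (.inl 0) * v (.inr 0)) * ha + (u (.inr 1) * v (.inl 1) - u (.inl 1) * v (.inr 1)) * hb +
    (u (.inr 2) * v (.inl 2) - u (.inl 2) * v (.inr 2)) * hc

theorem ws_mem : ws ∈ S6 F := mem_S6.2 fun u v => by
  rw [show (ws (F := F)).val = kr sw from rfl]
  simp only [fm_ap, Fin.sum_univ_three, kr_mv, sd, Sum.elim_inl, Sum.elim_inr]
  simp only [sw, m_e, Matrix.zero_apply, one_apply_eq, one_apply_ne zero_ne_one, one_apply_ne one_ne_zero]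
  ring

/-- the monomial subgroup -/
def Bg : Subgroup (G6 F) where
  carrier := {g | ∃ x, g = ι x ∨ g = ι x * ws}
  one_mem' := ⟨1, .inl (map_one _).symm⟩
  mul_mem' := by
    rintro _ _ ⟨x, rfl | rfl⟩ ⟨⟨a, b, c⟩, rfl | rfl⟩
    exacts [⟨_, .inl (map_mul _ _ _).symm⟩, ⟨_, .inr (by rw [← mul_assoc, ← map_mul])⟩,
      ⟨_, .inr (by rw [mul_assoc, ws_ι, ← mul_assoc, ← map_mul])⟩,
      ⟨_, .inl (by rw [mul_assoc, ← mul_assoc ws, ws_ι, mul_assoc, ws_ws, mul_one, ← map_mul])⟩]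
  inv_mem' := by
    rintro _ ⟨x, rfl | rfl⟩
    exacts [⟨_, .inl (map_inv _ _).symm⟩, ⟨_, .inr (by rw [_root_.mul_inv_rev, ← map_inv, inv_eq_of_mul_eq_one_right ws_ws, ws_ι])⟩]

theorem mo : MO.{u} := fun F _ _ h2 S hS pS => by
  have l : Bg ≤ S6 F := by rintro _ ⟨x, rfl | rfl⟩; exacts [ι_mem x, mul_mem (ι_mem x) ws_mem]
  have l' : ι.range ≤ Bg (F := F) := by rintro _ ⟨x, rfl⟩; exact ⟨x, .inl rfl⟩
  have i2 : (ι (F := F)).range.relIndex Bg = 2 := by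
    refine ((Nat.dvd_prime Nat.prime_two).1 (relIndex_dvd_two_iff.2 ⟨ws, show ws ∈ Bg from ⟨1, .inr (by simp)⟩, ?_⟩)).resolve_left fun e => ?_
    · rintro _ ⟨x, rfl | rfl⟩
      exacts [.inr ⟨x, rfl⟩, .inl ⟨x, by rw [mul_assoc, ws_ws, mul_one]⟩]
    obtain ⟨x, e⟩ := relIndex_eq_one.1 e (show ws ∈ Bg from ⟨1, .inr (by simp)⟩)
    exact zero_ne_one (congrFun₂ (kr_inj (congrArg Units.val e)) 0 1)
  have c := ((ι (F := F)).range.subgroupOf (S6 F)).index_mul_card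
  rw [Nat.card_congr (subgroupOfEquivOfLe (l'.trans l)).toEquiv, ← relIndex, ← relIndex_mul_relIndex _ _ _ l' l, i2, H27.Asch.card_spGL, ← Nat.card_congr (MonoidHom.ofInjective ι_inj).toEquiv, Nat.card_prod,
    Nat.card_prod, H11.card_sl_two] at c
  have od : ¬ 2 ∣ Bg.relIndex (S6 F) := by
    rintro ⟨n, hn⟩
    obtain ⟨m, hm⟩ := Nat.odd_iff.2 (FiniteField.odd_card_of_char_ne_two (F := F) fun e => h2 (by simpa [e] using ringChar.Nat.cast_ringChar (R := F)))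
    have q1 := Fintype.one_lt_card (α := F)
    simp only [Finset.prod_range_succ, Finset.prod_range_zero, hn] at c
    generalize Fintype.card F = q at *
    have p : ∀ i, 1 ≤ q ^ i := fun i => Nat.one_le_pow _ _ (by omega)
    have p2 : 1 < q ^ 2 := Nat.one_lt_pow (by simp) q1
    zify [p] at c hm p2 q1
    have : (4 * n : ℤ) = q ^ 6 * (q ^ 2 + 1) * (q ^ 4 + q ^ 2 + 1) :=
      mul_right_cancel₀ (b := ((q : ℤ) * (q ^ 2 - 1)) ^ 3) (pow_ne_zero _ (mul_ne_zero (by omega) (by omega))) (by linear_combination c)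
    have := congrArg (Int.cast : ℤ → ZMod 4) this
    rw [hm] at this
    push_cast at this
    generalize (m : ZMod 4) = m, (n : ZMod 4) = n at this
    revert m n; decide
  obtain ⟨q, hq⟩ := (pS.comap_subtype (K := S6 F)).nonempty_fixed_point_of_prime_not_dvd_card (S6 F ⧸ Bg.subgroupOf (S6 F)) od
  obtain ⟨g, rfl⟩ := QuotientGroup.mk_surjective q
  refine ⟨g.1⁻¹, inv_mem g.2, fun s hs => inB.2 ?_⟩
  have := QuotientGroup.eq.1 (hq ⟨⟨s, hS hs⟩, hs⟩).symm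
  rw [inv_inv, mul_assoc]
  exact this

theorem rk_bl {x : SL(2, F) × SL(2, F) × SL(2, F)} {a b c : M2 F} (i : Fin 3) (d : Fin 3 → F) (h : d = Pi.single i 1)
    (e : x.1.1 - 1 = d 0 • a ∧ x.2.1.1 - 1 = d 1 • b ∧ x.2.2.1 - 1 = d 2 • c)
    (ha : IsUnit a) (hb : IsUnit b) (hc : IsUnit c) : rk (ι x) = 2 := by
  classical
  obtain ⟨a', ha⟩ := ha.exists_right_inv
  obtain ⟨b', hb⟩ := hb.exists_right_inv
  obtain ⟨c', hc⟩ := hc.exists_right_inv
  have k : kr (bl (d 0 • 1) (d 1 • 1) (d 2 • 1)) = diagonal fun s => d (sd s).1 := by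
    rw [show bl (d 0 • 1) (d 1 • 1) (d 2 • 1) = diagonal fun i => d i • (1 : M2 F) from
      Matrix.ext fun i j => by fin_cases i <;> fin_cases j <;> rfl]
    ext s t
    rcases s with s | s <;> rcases t with t | t <;> by_cases h : s = t <;> simp [kr, sd, Matrix.one_apply, h]
  have : (ι x).val - 1 = diagonal (fun s => d (sd s).1) * kr (bl a b c) := by
    rw [ι_val, ← k, ← kr_mul, bl_mul, ← kr_one, ← kr_sub, ← bl_one, smul_one_mul, smul_one_mul, smul_one_mul, ← e.1, ← e.2.1, ← e.2.2,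
      sub_eq_add_neg, bl_neg]
    simp [bl, sub_eq_add_neg]
  rw [rk, this, rank_mul_eq_left_of_isUnit_det _ _ (isUnit_det_of_right_inverse (B := kr (bl a' b' c')) (by
    rw [← kr_mul, bl_mul, ha, hb, hc, bl_one, kr_one])), rank_diagonal, h, Fintype.card_subtype, show Finset.univ.filter _ = {.inl i, .inr i} by
    ext s; rcases s with s | s <;> simp [sd, Pi.single_apply]]
  rfl

theorem sr {A : Type*} [Group A] [Finite A] (h2 : (2 : F) ≠ 0) (hA : IsPGroup 2 A) (j : A →* G6 F) (hj : Function.Injective j)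
    (hB : ∀ a, InB (j a)) (h4 : ∀ a, j a ^ 4 = 1 → j a ^ 2 ≠ 1 → rk (j a) ≠ 2) {z : A} (hz : j z = -1) {N : Subgroup A} (zN : z ∈ N)
    (s : ∀ a, a * a ∈ N) : N.index ≤ 16 := by
  let p := (MonoidHom.ofInjective ι_inj).symm.toMonoidHom.comp (j.subgroupComap ι.range)
  have hp : ∀ x, ι (p x) = j x := fun x => MonoidHom.apply_ofInjective_symm ι_inj _
  have pz : p ⟨z, _, ι_neg.trans hz.symm⟩ = (-1, -1, -1) := ι_inj ((hp _).trans (hz.trans ι_neg.symm))
  have un : ∀ {k : SL(2, F)}, k * k = -1 → IsUnit (k.1 - 1) := fun {k} e => IsUnit.of_mul_eq_one ((-2 : F)⁻¹ • (k.1 + 1)) (by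
    have : k.1 * k.1 = -1 := congrArg Subtype.val e
    rw [mul_smul_comm, show (k.1 - 1) * (k.1 + 1) = (-2 : F) • 1 by rw [sub_mul, mul_add, this, neg_smul, two_smul, mul_one, one_mul]; abel,
      smul_smul, inv_mul_cancel₀ (neg_ne_zero.2 h2), one_smul])
  have n4 : ∀ x, p x ^ 4 = 1 → p x ^ 2 ≠ 1 → rk (ι (p x)) ≠ 2 := fun x a b => hp x ▸ h4 _ (by rw [← hp, ← map_pow, a, map_one])
    fun e => b (ι_inj (by rw [map_pow, hp, e, map_one]))
  have q4 : ∀ {k : SL(2, F)}, k * k = -1 → k ^ 4 = 1 ∧ k ^ 2 ≠ 1 := fun {k} e =>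
    ⟨by rw [show 4 = 2 + 2 from rfl, pow_add, sq, e]; simp, by rw [sq, e]; exact ne1 h2⟩
  have S : Sy (N.comap (ι.range.comap j).subtype) ⟨z, _, ι_neg.trans hz.symm⟩ ((MonoidHom.fst _ _).comp p)
      ((MonoidHom.fst _ _).comp ((MonoidHom.snd _ _).comp p)) ((MonoidHom.snd _ _).comp ((MonoidHom.snd _ _).comp p)) := by
    refine ⟨h2, hA.to_subgroup _, fun x => s x, zN, congrArg (·.1) pz, congrArg (·.2.1) pz, congrArg (·.2.2) pz,
      fun x a b c => Subtype.ext (hj (by rw [← hp, show p x = 1 from Prod.ext a (Prod.ext b c)]; simp)), ?_, ?_, ?_⟩ <;>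
    intro x a b e <;> refine n4 x ?_ (fun k => ?_) ?_ <;> simp only [MonoidHom.comp_apply, MonoidHom.coe_fst, MonoidHom.coe_snd] at a b e <;>
    generalize p x = y at * <;> obtain ⟨y1, y2, y3⟩ := y <;> subst a b
    any_goals simp [q4 e] at *
    exacts [rk_bl 0 _ rfl (by simp) (un e) isUnit_one isUnit_one, rk_bl 1 _ rfl (by simp) isUnit_one (un e) isUnit_one,
      rk_bl 2 _ rfl (by simp) isUnit_one isUnit_one (un e)]
  refine gn.idx (n := 4) ?_ s
  have tf : ∀ {n}, gn (N.comap (ι.range.comap j).subtype) n ⊤ ⊥ → gn N n (ι.range.comap j) ⊥ := fun ⟨l, a, b⟩ =>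
    ⟨l.map (·.1), by simpa, fun M c d _ x hx => b (M.comap (Subgroup.subtype _)) (comap_mono c) (fun y hy => d _ (List.mem_map_of_mem hy))
      bot_le (mem_top ⟨x, hx⟩)⟩
  by_cases h : ⊤ ≤ ι.range.comap j
  · exact (show gn N 0 ⊤ ⊤ from ⟨[], le_rfl, fun _ _ _ k => k⟩).tr (tf S.four) h
  obtain ⟨t, -, nt⟩ := SetLike.not_le_iff_exists.1 h
  obtain ⟨⟨u, v, w⟩, ht⟩ := inB.1 (hB t)
  replace ht := ht.resolve_left fun e => nt ⟨_, e.symm⟩
  have cj : ∀ a b c, j t * ι (a, b, c) * (j t)⁻¹ = ι (u * b * u⁻¹, v * a * v⁻¹, w * c * w⁻¹) := fun a b c => by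
    rw [ht, mul_assoc (ι _), ws_ι, mul_inv_eq_iff_eq_mul, ← mul_assoc, ← mul_assoc, ← map_mul, ← map_mul]; simp
  have m : ∀ x : ι.range.comap j, ι (u * (p x).2.1 * u⁻¹, v * (p x).1 * v⁻¹, w * (p x).2.2 * w⁻¹) = j (t * x * t⁻¹) := fun x => by
    rw [map_mul j, map_mul j, map_inv j, ← hp, cj]
  refine gn.tr (n := 1) ⟨[t], le_rfl, fun M _ b c x _ => ?_⟩ (tf (S.three (fun x => ⟨t * x * t⁻¹, _, m x⟩) (fun x => ?_) fun x e he => ?_)) le_rfl
  · obtain ⟨y, e | e⟩ := inB.1 (hB x)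
    · exact c ⟨_, e.symm⟩
    refine (mul_mem_cancel_right (inv_mem (b t (by simp)))).1 (c ⟨y * (u, v, w)⁻¹, ?_⟩)
    rw [map_mul j, map_mul ι, map_inv j, map_inv ι, e, ht]; group
  · have := mul_mem (mul_mem (s (x * t)) (inv_mem (s t))) (one_mem N)
    change x.1 * (t * x * t⁻¹) ∈ N
    convert this using 1; group
  have := ι_inj ((hp ⟨t * x * t⁻¹, _, m x⟩).trans (m x).symm)
  simp only [MonoidHom.comp_apply, MonoidHom.coe_fst, MonoidHom.coe_snd, this]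
  rcases mz.1 he with rfl | rfl <;> refine ⟨fun e => ?_, fun e => ?_, fun e => ?_⟩ <;> simp [e]

theorem key [Fintype F] (h2 : (2 : F) ≠ 0) {Y V : Type*} [Group Y] [Group V] (j : Y →* G6 F) (hj : Function.Injective j)
    (hS : ∀ y, j y ∈ S6 F) (h4 : ∀ a, j a ^ 4 = 1 → j a ^ 2 ≠ 1 → rk (j a) ≠ 2) {z : Y} (hz : j z = -1) (f : Y →* V)
    (fs : Function.Surjective f) (fz : f z = 1) (hV : ∀ v : V, v ^ 2 = 1) : Nat.card V ≤ 16 := by
  have : Finite Y := .of_injective j hj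
  obtain ⟨S, zS⟩ := IsPGroup.exists_le_sylow (p := 2) (P := zpowers z) (IsPGroup.of_card_dvd_pow (n := 1) (by
    rw [Nat.card_zpowers]; exact orderOf_dvd_of_pow_eq_one (hj (by simp [hz]))))
  have pA : IsPGroup 2 V := fun a => ⟨1, hV a⟩
  have eS : S.1.map f = ⊤ := ((S.mapSurjective fs).is_maximal' (pA.to_subgroup ⊤) le_top).symm
  obtain ⟨g, -, hg⟩ := mo F h2 (S.1.map j) (by rintro _ ⟨x, -, rfl⟩; exact hS x) (S.2.map j)
  have := sr h2 S.2 ((MulAut.conj g).toMonoidHom.comp (j.comp S.1.subtype)) ((MulAut.conj g).injective.comp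
    (hj.comp Subtype.val_injective)) (fun a => hg _ ⟨a, a.2, rfl⟩) (fun a p q => by
      have : rk (g * j a * g⁻¹) = rk (j a) := by
        rw [rk, show (g * j a * g⁻¹).val - 1 = g.val * ((j a).val - 1) * (g⁻¹).val by simp [mul_sub, sub_mul],
          rank_mul_eq_left_of_isUnit_det _ _ ((isUnit_iff_isUnit_det _).1 (g⁻¹).isUnit),
          rank_mul_eq_right_of_isUnit_det _ _ ((isUnit_iff_isUnit_det _).1 g.isUnit), rk]
      exact this.trans_ne (h4 a (by simpa using p) (by simpa using q)))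
    (z := ⟨z, zS (mem_zpowers z)⟩) (by simp [hz]) (N := (f.comp S.1.subtype).ker) fz fun a => by rw [MonoidHom.mem_ker, map_mul, ← sq, hV]
  rwa [index_ker, MonoidHom.range_comp, range_subtype, eS, card_top] at this

theorem r4 : R4.{u} := fun F G _ _ _ P π h2 h n1 n4 H N _ A _ hA => by
  have e : π ⟨-1, n1⟩ = 1 := (h.ker _).2 (.inr rfl)
  obtain ⟨ψ, hψ, e'⟩ : ∃ ψ : H.comap π →* H ⧸ N, Function.Surjective ψ ∧ ψ ⟨⟨-1, n1⟩, show π _ ∈ H from e ▸ one_mem _⟩ = 1 :=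
    ⟨(QuotientGroup.mk' N).comp (π.subgroupComap H), (QuotientGroup.mk'_surjective N).comp
      (π.subgroupComap_surjective_of_surjective H h.sur), (congrArg (QuotientGroup.mk' N) (Subtype.ext e)).trans (map_one _)⟩
  exact key h2 (P.subtype.comp ((H.comap π).subtype.comp (A.comap ψ).subtype))
    (Subtype.val_injective.comp (Subtype.val_injective.comp Subtype.val_injective)) (fun y => h.sp y.1.1.2) (fun y => n4 _ y.1.1.2)
    (z := ⟨_, show ψ _ ∈ A from e' ▸ one_mem _⟩) rfl _ (ψ.subgroupComap_surjective_of_surjective A hψ) (Subtype.ext e')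
    fun v => Subtype.ext (hA _ v.2)

end

end H15.S6
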