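import Cfsg.Agent.H15.Uniq3
import Cfsg.Agent.Eqns.Def_Sporadic_a

/-! The strongly regular graph with parameters (100, 22, 0, 6). -/

set_option autoImplicit false
set_option maxRecDepth 100000
set_option linter.unusedSectionVars false

namespace H15
open Cfsg Finset MulAction SimpleGraph
open scoped Pointwise

theorem trace_of_sq {V : Type*} [Fintype V] [DecidableEq V] {M : Matrix V V ℚ} {c : ℚ}
    (hc : c ≠ 0) (h : M * M = c • M) : ∃ r : ℕ, M.trace = c * r := by
  have e : IsIdempotentElem (Matrix.toLin' (c⁻¹ • M)) := by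
    rw [IsIdempotentElem, Module.End.mul_eq_comp, ← Matrix.toLin'_mul, Matrix.smul_mul,
      Matrix.mul_smul, h, smul_smul c⁻¹ c, inv_mul_cancel₀ hc, one_smul]
  have := (LinearMap.IsIdempotentElem.isProj_range _ e).trace
  rw [Matrix.trace_toLin'_eq, Matrix.trace_smul, smul_eq_mul] at this
  exact ⟨_, by rw [← this, mul_inv_cancel_left₀ hc]⟩

section
variable {V : Type*} [Fintype V] {G : SimpleGraph V} [DecidableRel G.Adj]

theorem card_cn (v w : V) :
    Fintype.card (G.commonNeighbors v w) = (univ.filter fun x => G.Adj v x ∧ G.Adj w x).card := by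
  classical
  rw [← Set.toFinset_card]
  congr 1
  ext x; simp [mem_commonNeighbors]

theorem degree_eq_filter (v : V) : G.degree v = (univ.filter fun x => G.Adj v x).card := by
  rw [← card_neighborFinset_eq_degree, neighborFinset_eq_filter]

theorem srg_of {n k l m : ℕ} (h0 : Fintype.card V = n)
    (h1 : ∀ v, (univ.filter fun x => G.Adj v x).card = k)
    (h2 : ∀ v w, G.Adj v w → (univ.filter fun x => G.Adj v x ∧ G.Adj w x).card = l)
    (h3 : ∀ v w, v ≠ w → ¬ G.Adj v w → (univ.filter fun x => G.Adj v x ∧ G.Adj w x).card = m) :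
    G.IsSRGWith n k l m :=
  ⟨h0, fun v => (degree_eq_filter v).trans (h1 v), fun v w h => (card_cn v w).trans (h2 v w h),
    fun v w a b => (card_cn v w).trans (h3 v w a b)⟩

variable {n k l m : ℕ}

theorem srg_deg (h : G.IsSRGWith n k l m) (v : V) : (univ.filter fun x => G.Adj v x).card = k :=
  (degree_eq_filter v).symm.trans (h.regular v)
theorem srg_adj (h : G.IsSRGWith n k l m) {v w : V} (e : G.Adj v w) :
    (univ.filter fun x => G.Adj v x ∧ G.Adj w x).card = l :=
  (card_cn v w).symm.trans (h.of_adj v w e)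
theorem srg_nadj (h : G.IsSRGWith n k l m) {v w : V} (e : v ≠ w) (e' : ¬ G.Adj v w) :
    (univ.filter fun x => G.Adj v x ∧ G.Adj w x).card = m :=
  (card_cn v w).symm.trans (h.of_not_adj e e')

theorem srg_iso {W : Type*} [Fintype W] {H : SimpleGraph W} [DecidableRel H.Adj] (e : H ≃g G)
    (h : G.IsSRGWith n k l m) : H.IsSRGWith n k l m := by
  have a : ∀ (p : W → Prop) (q : V → Prop) [DecidablePred p] [DecidablePred q],
      (∀ x, p x ↔ q (e x)) → (univ.filter p).card = (univ.filter q).card := fun p q _ _ hh =>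
    card_equiv e.toEquiv fun x => by simpa using hh x
  refine srg_of ((Fintype.card_congr e.toEquiv).trans h.card) (fun v => ?_) (fun v w b => ?_)
    fun v w b c => ?_
  · exact (a _ _ fun x => e.map_adj_iff.symm).trans (srg_deg h (e v))
  · exact (a _ _ fun x => and_congr e.map_adj_iff.symm e.map_adj_iff.symm).trans
      (srg_adj h (e.map_adj_iff.2 b))
  · exact (a _ _ fun x => and_congr e.map_adj_iff.symm e.map_adj_iff.symm).trans
      (srg_nadj h (e.injective.ne b) fun d => c (e.map_adj_iff.1 d))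

theorem srg_sq [DecidableEq V] (h : G.IsSRGWith n k l m) :
    G.adjMatrix ℚ * G.adjMatrix ℚ = (k - m : ℚ) • 1 + (l - m : ℚ) • G.adjMatrix ℚ +
      (m : ℚ) • Matrix.of 1 ∧ G.adjMatrix ℚ * Matrix.of 1 = (k : ℚ) • Matrix.of 1 ∧
      Matrix.of 1 * G.adjMatrix ℚ = (k : ℚ) • Matrix.of 1 ∧
      (Matrix.of 1 : Matrix V V ℚ) * Matrix.of 1 = (n : ℚ) • Matrix.of 1 := by
  refine ⟨?_, ?_, ?_, ?_⟩
  · rw [← sq, h.matrix_eq, ← G.one_add_adjMatrix_add_compl_adjMatrix_eq_of_one ℚ,
      G.compl_adjMatrix_eq_adjMatrix_compl ℚ]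
    simp only [← Nat.cast_smul_eq_nsmul ℚ]
    module
  · ext v w; simp [h.regular v]
  · ext v w; simp [h.regular w]
  · ext v w; simp [Matrix.mul_apply, h.card]

theorem srg_params (h : G.IsSRGWith 100 22 l m) : l = 0 ∧ m = 6 := by
  classical
  have h1 := h.param_eq G (by norm_num)
  obtain ⟨a⟩ : Nonempty V := Fintype.card_pos_iff.1 (h.card ▸ by norm_num)
  obtain ⟨b, hb⟩ := card_pos.1 (srg_deg h a ▸ (by norm_num : 0 < 22))
  have hb := (mem_filter.1 hb).2
  have h2 := hb.card_commonNeighbors_lt_degree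
  rw [h.of_adj a b hb, h.regular a] at h2
  obtain ⟨s1, s2, s3, s4⟩ := srg_sq h
  have t1 : (1 : Matrix V V ℚ).trace = 100 := by simp [h.card]
  have t2 : (Matrix.of 1 : Matrix V V ℚ).trace = 100 := by simp [Matrix.trace, h.card]
  have h3 : l = 0 ∧ m = 6 ∨ l = 7 ∧ m = 4 ∨ l = 14 ∧ m = 2 ∨ l = 21 ∧ m = 0 := by omega
  rcases h3 with h3 | ⟨rfl, rfl⟩ | ⟨rfl, rfl⟩ | ⟨rfl, rfl⟩
  · exact h3
  · exfalso
    obtain ⟨r, hr⟩ := trace_of_sq (M := (4 : ℚ) • G.adjMatrix ℚ + (12 : ℚ) • 1 - Matrix.of 1)
      (c := 36) (by norm_num) (by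
        simp only [Matrix.add_mul, Matrix.mul_add, Matrix.sub_mul, Matrix.mul_sub, Matrix.smul_mul,
          Matrix.mul_smul, Matrix.mul_one, Matrix.one_mul, s1, s2, s3, s4]
        push_cast
        module)
    rw [Matrix.trace_sub, Matrix.trace_add, Matrix.trace_smul, Matrix.trace_smul, t1, t2,
      trace_adjMatrix] at hr
    have : (1100 : ℚ) = 36 * r := by rw [← hr]; norm_num
    have : 1100 = 36 * r := by exact_mod_cast this
    omega
  · exfalso
    obtain ⟨d, h4, h5⟩ : ∃ d ∈ univ.filter fun x => G.Adj a x,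
        d ∉ insert b (univ.filter fun x => G.Adj a x ∧ G.Adj b x) := by
      refine exists_mem_notMem_of_card_lt_card ((card_insert_le _ _).trans_lt ?_)
      rw [srg_adj h hb, srg_deg h]; norm_num
    simp only [mem_filter, mem_univ, true_and, mem_insert, not_or, not_and] at h4 h5
    have c1 := card_union_add_card_inter (univ.filter fun x => G.Adj a x ∧ G.Adj b x)
      (univ.filter fun x => G.Adj a x ∧ G.Adj d x)
    have c2 : ((univ.filter fun x => G.Adj a x ∧ G.Adj b x) ∪
        (univ.filter fun x => G.Adj a x ∧ G.Adj d x)).card ≤ 22 :=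
      (card_le_card fun x hx => by
        simp only [mem_union, mem_filter, mem_univ, true_and] at hx ⊢; tauto).trans
        (srg_deg h a).le
    have c3 : ((univ.filter fun x => G.Adj a x ∧ G.Adj b x) ∩
        (univ.filter fun x => G.Adj a x ∧ G.Adj d x)).card ≤ 2 :=
      (card_le_card fun x hx => by
        simp only [mem_inter, mem_filter, mem_univ, true_and] at hx ⊢; tauto).trans
        (srg_nadj h (Ne.symm h5.1) (h5.2 h4)).le
    rw [srg_adj h hb, srg_adj h h4] at c1
    omega
  · exfalso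
    obtain ⟨r, hr⟩ := trace_of_sq (M := G.adjMatrix ℚ + 1) (c := 23) (by norm_num) (by
        simp only [Matrix.add_mul, Matrix.mul_add, Matrix.mul_one, Matrix.one_mul, s1]
        push_cast
        module)
    rw [Matrix.trace_add, t1, trace_adjMatrix] at hr
    have : (100 : ℚ) = 23 * r := by rw [← hr]; norm_num
    have : 100 = 23 * r := by exact_mod_cast this
    omega

theorem srg_tri (h : G.IsSRGWith n k 0 m) {u v w : V} (h1 : G.Adj u v) (h2 : G.Adj u w) :
    ¬ G.Adj v w := fun h3 =>
  notMem_empty w (card_eq_zero.1 (srg_adj h h1) ▸ mem_filter.2 ⟨mem_univ _, h2, h3⟩)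

/-- Three pairwise non-adjacent vertices have two common neighbours. -/
theorem srg_three (h : G.IsSRGWith 100 22 0 6) {a c d : V} (hac : a ≠ c) (nac : ¬ G.Adj a c)
    (had : a ≠ d) (nad : ¬ G.Adj a d) (hcd : c ≠ d) (ncd : ¬ G.Adj c d) :
    (univ.filter fun p => (G.Adj a p ∧ G.Adj c p) ∧ G.Adj d p).card = 2 := by
  classical
  set X := univ.filter fun p => G.Adj a p ∧ G.Adj c p with hX
  have mX : ∀ p, p ∈ X ↔ G.Adj a p ∧ G.Adj c p := fun p => by simp [hX]
  have cX : X.card = 6 := srg_nadj h hac nac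
  let x : V → ℤ := fun d => ∑ p ∈ X, if G.Adj p d then 1 else 0
  have s1 : ∑ d, x d = 132 := by
    rw [sum_comm, sum_congr rfl (g := fun _ => 22) fun p _ => by
      rw [sum_boole, srg_deg h p]; rfl]
    simp [cX]
  have s2 : ∑ d, x d ^ 2 = 312 := by
    have : ∀ p ∈ X, ∀ q ∈ X, (∑ d, (if G.Adj p d then 1 else 0) * if G.Adj q d then (1 : ℤ) else 0)
        = 6 + if p = q then 16 else 0 := fun p hp q hq => by
      simp only [ite_mul, one_mul, zero_mul, ← ite_and, sum_boole]
      split_ifs with e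
      · subst e; simp only [and_self, srg_deg h p]; rfl
      · rw [srg_nadj h e (srg_tri h ((mX p).1 hp).1 ((mX q).1 hq).1)]; rfl
    simp only [x, sq, sum_mul_sum]
    rw [sum_comm, sum_congr rfl (g := fun _ => 52) fun p hp => by
      rw [sum_comm, sum_congr rfl (this p hp), sum_add_distrib, sum_ite_eq, if_pos hp]
      simp [cX]]
    simp [cX]
  have s3 : ∑ d, (x d - 2) ^ 2 = 184 := by
    have : ∀ d, (x d - 2) ^ 2 = x d ^ 2 - 4 * x d + 4 := fun d => by ring
    simp only [this, sum_add_distrib, sum_sub_distrib, ← mul_sum, s1, s2, sum_const, card_univ,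
      h.card]
    rfl
  set N := (univ.filter fun p => G.Adj a p) ∪ (univ.filter fun p => G.Adj c p) with hN
  have mN : ∀ p, p ∈ N ↔ G.Adj a p ∨ G.Adj c p := fun p => by simp [hN]
  have cN : N.card = 38 := by
    have := card_union_add_card_inter (univ.filter fun p => G.Adj a p)
      (univ.filter fun p => G.Adj c p)
    rw [srg_deg h, srg_deg h, ← filter_and, ← hN, ← hX, cX] at this
    omega
  have x6 : ∀ v, (∀ p ∈ X, G.Adj p v) → x v = 6 := fun v hv => by
    simp only [x]
    rw [sum_congr rfl fun p hp => if_pos (hv p hp)]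
    simp [cX]
  have x0 : ∀ v ∈ N, x v = 0 := fun v hv => sum_eq_zero fun p hp => if_neg (by
    rcases (mN v).1 hv with e | e
    · exact srg_tri h ((mX p).1 hp).1 e
    · exact srg_tri h ((mX p).1 hp).2 e)
  have n1 : d ∉ insert a (insert c N) := by
    simp only [mem_insert, mN, not_or]; exact ⟨had.symm, hcd.symm, nad, ncd⟩
  have n2 : a ∉ insert c N := by
    simp only [mem_insert, mN, not_or]; exact ⟨hac, G.irrefl, fun e => nac e.symm⟩
  have n3 : c ∉ N := by simp only [mN, not_or]; exact ⟨nac, G.irrefl⟩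
  have s4 : ∑ v ∈ insert d (insert a (insert c N)), (x v - 2) ^ 2 ≤ ∑ d, (x d - 2) ^ 2 :=
    sum_le_sum_of_subset_of_nonneg (subset_univ _) fun _ _ _ => sq_nonneg _
  rw [s3, sum_insert n1, sum_insert n2, sum_insert n3, x6 a fun p hp => ((mX p).1 hp).1.symm,
    x6 c fun p hp => ((mX p).1 hp).2.symm, sum_congr rfl (g := fun _ => 4) fun v hv => by
      rw [x0 v hv]; rfl, sum_const, cN] at s4
  have s5 : x d = 2 := by
    have : (x d - 2) ^ 2 ≤ 0 := by simp only [nsmul_eq_mul] at s4; push_cast at s4; linarith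
    nlinarith [sq_nonneg (x d - 2)]
  simp only [x, sum_boole, hX, filter_filter] at s5
  simp only [G.adj_comm d]
  exact_mod_cast s5

end

/-! ### Point-block graphs -/

section
variable {α : Type*} {B : Set (Finset α)}

@[simp] theorem pb_nn : ¬ (pointBlockGraph B).Adj none none := (pointBlockGraph B).irrefl
@[simp] theorem pb_np (p : α) : (pointBlockGraph B).Adj none (some (.inl p)) := by
  simp [pointBlockGraph, pointBlockRel]
@[simp] theorem pb_pn (p : α) : (pointBlockGraph B).Adj (some (.inl p)) none := (pb_np p).symm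
@[simp] theorem pb_nb (b : B) : ¬ (pointBlockGraph B).Adj none (some (.inr b)) := by
  simp [pointBlockGraph, pointBlockRel]
@[simp] theorem pb_bn (b : B) : ¬ (pointBlockGraph B).Adj (some (.inr b)) none := fun h =>
  pb_nb b h.symm
@[simp] theorem pb_pp (p q : α) : ¬ (pointBlockGraph B).Adj (some (.inl p)) (some (.inl q)) := by
  simp [pointBlockGraph, pointBlockRel]
@[simp] theorem pb_pb (p : α) (b : B) :
    (pointBlockGraph B).Adj (some (.inl p)) (some (.inr b)) ↔ p ∈ b.1 := by
  simp [pointBlockGraph, pointBlockRel]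
@[simp] theorem pb_bp (p : α) (b : B) :
    (pointBlockGraph B).Adj (some (.inr b)) (some (.inl p)) ↔ p ∈ b.1 := by
  rw [adj_comm, pb_pb]
@[simp] theorem pb_bb (b c : B) :
    (pointBlockGraph B).Adj (some (.inr b)) (some (.inr c)) ↔ (blockGraph B).Adj b c := by
  simp [pointBlockGraph, pointBlockRel, blockGraph]
theorem bg_adj (b c : B) : (blockGraph B).Adj b c ↔ b ≠ c ∧ Disjoint b.1 c.1 := by
  simp only [blockGraph, fromRel_adj, disjoint_comm (a := c.1), or_self]

/-- Recognition of a point-block graph. -/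
noncomputable def pbIsoOf {V : Type*} (G : SimpleGraph V) (a : V) (i : α → V) (j : B → V)
    (hi : Function.Injective i) (hj : Function.Injective j) (h1 : ∀ p, G.Adj a (i p))
    (h2 : ∀ b, a ≠ j b ∧ ¬ G.Adj a (j b)) (h3 : ∀ v, v = a ∨ (∃ p, i p = v) ∨ ∃ b, j b = v)
    (h4 : ∀ p q, ¬ G.Adj (i p) (i q)) (h5 : ∀ p b, G.Adj (i p) (j b) ↔ p ∈ b.1)
    (h6 : ∀ b c, G.Adj (j b) (j c) ↔ (blockGraph B).Adj b c) : pointBlockGraph B ≃g G where
  toEquiv := Equiv.ofBijective (fun v => v.elim a (Sum.elim i j)) ⟨by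
    rintro (_ | p | b) (_ | q | c) e <;> simp only [Option.elim, Sum.elim_inl, Sum.elim_inr] at e
    · rfl
    · exact absurd e (h1 q).ne
    · exact absurd e (h2 c).1
    · exact absurd e (h1 p).ne'
    · rw [hi e]
    · exact absurd (e ▸ h1 p) (h2 c).2
    · exact absurd e.symm (h2 b).1
    · exact absurd (e ▸ h1 q) (h2 b).2
    · rw [hj e], fun v => by
    rcases h3 v with rfl | ⟨p, rfl⟩ | ⟨b, rfl⟩
    · exact ⟨none, rfl⟩
    · exact ⟨some (.inl p), rfl⟩
    · exact ⟨some (.inr b), rfl⟩⟩
  map_rel_iff' := by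
    intro u v
    change G.Adj (u.elim a (Sum.elim i j)) (v.elim a (Sum.elim i j)) ↔ _
    rcases u with (_ | p | b) <;> rcases v with (_ | q | c) <;>
      simp [h1, h2, h4, h5, h6, G.adj_comm _ a, G.adj_comm (j _) (i _)]

variable {β : Type*} [DecidableEq β] {B' : Set (Finset β)}

/-- An isomorphism of set systems induces one of the point-block graphs. -/
noncomputable def pbIso (e : α ≃ β) (h : (fun b => b.image e) '' B = B') :
    pointBlockGraph B ≃g pointBlockGraph B' :=
  pbIsoOf _ none (fun p => some (.inl (e p)))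
    (fun b => some (.inr ⟨b.1.image e, h ▸ Set.mem_image_of_mem _ b.2⟩))
    (fun p q hh => by simpa using hh)
    (fun b c hh => Subtype.ext (image_injective e.injective (by simpa using hh)))
    (by simp) (by simp) (by
      rintro (_ | p | ⟨b, hb⟩)
      · exact Or.inl rfl
      · exact Or.inr (Or.inl ⟨e.symm p, by simp⟩)
      · obtain ⟨c, hc, rfl⟩ := h ▸ hb
        exact Or.inr (Or.inr ⟨⟨c, hc⟩, rfl⟩))
    (by simp) (by simp) fun b c => by
      rw [pb_bb, bg_adj, bg_adj, disjoint_image e.injective, ne_eq, ne_eq, Subtype.ext_iff,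
        Subtype.ext_iff, (image_injective e.injective).eq_iff]

theorem pbIso_none (e : α ≃ β) (h : (fun b => b.image e) '' B = B') : pbIso e h none = none := rfl
theorem pbIso_inl (e : α ≃ β) (h : (fun b => b.image e) '' B = B') (p : α) :
    pbIso e h (some (.inl p)) = some (.inl (e p)) := rfl
theorem pbIso_inr (e : α ≃ β) (h : (fun b => b.image e) '' B = B') (b : B) :
    pbIso e h (some (.inr b)) =
      some (.inr ⟨b.1.image e, h ▸ Set.mem_image_of_mem _ b.2⟩) := rfl

theorem card_stab_pb [Fintype α] [DecidableEq α] :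
    Nat.card (stabilizer (pointBlockGraph B ≃g pointBlockGraph B) (none : Option (α ⊕ B))) =
      Nat.card (setSystemAut B) := by
  refine (Nat.card_congr (Equiv.ofBijective (fun g : setSystemAut B =>
    (⟨pbIso g.1 g.2, pbIso_none g.1 g.2⟩ :
      stabilizer (pointBlockGraph B ≃g pointBlockGraph B) (none : Option (α ⊕ B))))
      ⟨fun g g' e => Subtype.ext (Equiv.ext fun p => ?_), fun φ => ?_⟩)).symm
  · have := congrArg (fun φ : stabilizer (pointBlockGraph B ≃g pointBlockGraph B) none =>
      φ.1 (some (.inl p))) e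
    exact Sum.inl_injective (Option.some_injective _ this)
  · have h0 : φ.1 none = none := φ.2
    have h1 : ∀ p, ∃ q, φ.1 (some (.inl p)) = some (.inl q) := fun p => by
      have := φ.1.map_adj_iff.2 (pb_np p)
      rw [h0] at this
      generalize φ.1 (some (.inl p)) = v at this
      rcases v with _ | q | c
      · simp at this
      · exact ⟨q, rfl⟩
      · simp at this
    choose g hg using h1
    have h2 : Function.Injective g := fun p q e => by
      have := φ.1.injective ((hg p).trans (e ▸ (hg q).symm))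
      simpa using this
    let σ : Equiv.Perm α := Equiv.ofBijective g (Finite.injective_iff_bijective.1 h2)
    have h3 : ∀ b : B, ∃ c : B, φ.1 (some (.inr b)) = some (.inr c) ∧ c.1 = b.1.image σ :=
      fun b => by
        have a1 : ¬ (pointBlockGraph B).Adj none (φ.1 (some (.inr b))) := by
          intro e
          exact pb_nb b (φ.1.map_adj_iff.1 (h0.symm ▸ e))
        have a2 : φ.1 (some (.inr b)) ≠ none := by
          intro e
          simpa using φ.1.injective (e.trans h0.symm)
        have a3 : ∀ p, (pointBlockGraph B).Adj (some (.inl (σ p))) (φ.1 (some (.inr b))) ↔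
            p ∈ b.1 := fun p => by
          rw [show σ p = g p from rfl, ← hg, φ.1.map_adj_iff, pb_pb]
        generalize φ.1 (some (.inr b)) = v at a1 a2 a3
        rcases v with _ | q | c
        · simp at a2
        · simp at a1
        · refine ⟨c, rfl, ?_⟩
          ext p
          obtain ⟨p, rfl⟩ := σ.surjective p
          rw [← pb_pb, a3, σ.injective.mem_finset_image]
    refine ⟨⟨σ, mem_setSystemAut_of_mapsTo fun b hb => ?_⟩, Subtype.ext (RelIso.ext ?_)⟩
    · obtain ⟨c, -, h4⟩ := h3 ⟨b, hb⟩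
      exact (show b.image σ ∈ B from h4 ▸ c.2)
    · rintro (_ | p | b)
      · exact h0.symm
      · exact (hg p).symm
      · obtain ⟨c, h4, h5⟩ := h3 b
        rw [h4]
        exact congrArg (fun c => some (Sum.inr c)) (Subtype.ext h5.symm)

end

/-- The design on the neighbours of a vertex. -/
theorem srg_design {V : Type*} [Fintype V] {G : SimpleGraph V} [DecidableRel G.Adj]
    (h : G.IsSRGWith 100 22 0 6) (a : V) : ∃ B : Set (Finset (G.neighborSet a)),
      IsSteinerSystem 3 6 B ∧ Nonempty (pointBlockGraph B ≃g G) := by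
  classical
  let blk : V → Finset (G.neighborSet a) := fun c => univ.filter fun p => G.Adj c p
  have mb : ∀ c p, p ∈ blk c ↔ G.Adj c p := fun c p => by simp [blk]
  have cb : ∀ (s : Finset (G.neighborSet a)) (q : V → Prop) [DecidablePred q],
      (∀ p, p ∈ s ↔ q p) → s.card = (univ.filter fun p => G.Adj a p ∧ q p).card :=
    fun s q _ hh => card_bij (fun p _ => p.1) (fun p hp => mem_filter.2 ⟨mem_univ _, p.2, (hh p).1 hp⟩)
      (fun _ _ _ _ => Subtype.ext) fun p hp => ⟨⟨p, (mem_filter.1 hp).2.1⟩,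
        (hh _).2 (mem_filter.1 hp).2.2, rfl⟩
  set R := univ.filter fun c => a ≠ c ∧ ¬ G.Adj a c with hR
  have mR : ∀ c, c ∈ R ↔ a ≠ c ∧ ¬ G.Adj a c := fun c => by simp [hR]
  have cR : R.card = 77 := by
    have : R = univ \ insert a (univ.filter fun x => G.Adj a x) := by
      ext c; simp [mR, eq_comm]
    rw [this, card_sdiff_of_subset (subset_univ _), card_insert_of_notMem (by simp), srg_deg h,
      card_univ, h.card]
  have b6 : ∀ c ∈ R, (blk c).card = 6 := fun c hc =>
    (cb _ _ (mb c)).trans (srg_nadj h ((mR c).1 hc).1 ((mR c).1 hc).2)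
  have b0 : ∀ c d, G.Adj c d → Disjoint (blk c) (blk d) := fun c d e =>
    disjoint_left.2 fun p h1 h2 => srg_tri h e ((mb _ _).1 h1) ((mb _ _).1 h2)
  have b2 : ∀ c ∈ R, ∀ d ∈ R, c ≠ d → ¬ G.Adj c d → (blk c ∩ blk d).card = 2 :=
    fun c hc d hd e e' => by
      rw [cb _ (fun p => G.Adj c p ∧ G.Adj d p) fun p => by rw [mem_inter, mb, mb],
        ← srg_three h ((mR c).1 hc).1 ((mR c).1 hc).2 ((mR d).1 hd).1 ((mR d).1 hd).2 e e']
      simp only [and_assoc]
  have b3 : ∀ c ∈ R, ∀ d ∈ R, 3 ≤ (blk c ∩ blk d).card → c = d := fun c hc d hd e => by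
    by_contra hne
    by_cases e' : G.Adj c d
    · rw [disjoint_iff_inter_eq_empty.1 (b0 c d e')] at e; simp at e
    · rw [b2 c hc d hd hne e'] at e; omega
  have cα : Fintype.card (G.neighborSet a) = 22 := (card_neighborSet_eq_degree G a).trans (h.regular a)
  refine ⟨blk '' R, ⟨by rintro _ ⟨c, hc, rfl⟩; exact b6 c hc, fun s hs =>
    existsUnique_of_exists_of_unique ?_ ?_⟩, ?_⟩
  · have : R.biUnion (fun c => powersetCard 3 (blk c)) = powersetCard 3 univ := by
      refine eq_of_subset_of_card_le (fun t ht => ?_) ?_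
      · obtain ⟨c, -, ht⟩ := mem_biUnion.1 ht
        exact powersetCard_mono (subset_univ _) ht
      · rw [card_biUnion, sum_congr rfl (g := fun _ => 20) fun c hc => by
          rw [card_powersetCard, b6 c hc]; rfl, card_powersetCard, card_univ, cα, sum_const, cR]
        · decide +kernel
        · intro c hc d hd e
          refine disjoint_left.2 fun t h1 h2 => e (b3 c hc d hd ?_)
          rw [mem_powersetCard] at h1 h2
          exact h1.2 ▸ card_le_card (subset_inter h1.1 h2.1)
    obtain ⟨c, hc, h1⟩ := mem_biUnion.1 (this ▸ mem_powersetCard.2 ⟨subset_univ s, hs⟩)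
    exact ⟨_, ⟨c, hc, rfl⟩, (mem_powersetCard.1 h1).1⟩
  · rintro _ _ ⟨⟨c, hc, rfl⟩, h1⟩ ⟨⟨d, hd, rfl⟩, h2⟩
    rw [b3 c hc d hd (hs ▸ card_le_card (subset_inter h1 h2))]
  · have hj : ∀ b : blk '' R, ∃ c ∈ R, blk c = b := fun b => b.2
    choose j j1 j2 using hj
    have ji : Function.Injective j := fun b c e => Subtype.ext (by rw [← j2, ← j2, e])
    refine ⟨pbIsoOf G a Subtype.val j Subtype.val_injective ji (fun p => p.2)
      (fun b => (mR _).1 (j1 b)) (fun v => ?_) (fun p q => srg_tri h p.2 q.2)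
      (fun p b => by rw [← j2, mb, adj_comm]) fun b c => ?_⟩
    · by_cases e : G.Adj a v
      · exact Or.inr (Or.inl ⟨⟨v, e⟩, rfl⟩)
      · by_cases e' : a = v
        · exact Or.inl e'.symm
        · have hv := (mR v).2 ⟨e', e⟩
          refine Or.inr (Or.inr ⟨⟨_, v, hv, rfl⟩, b3 _ (j1 _) _ hv ?_⟩)
          rw [j2, inter_self, b6 v hv]; norm_num
    · rw [bg_adj, ← j2, ← j2]
      refine ⟨fun e => ⟨fun e' => e.ne (congrArg j e'), b0 _ _ e⟩, fun ⟨e, e'⟩ => ?_⟩
      by_contra hh
      have := b2 _ (j1 b) _ (j1 c) (ji.ne e) hh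
      rw [disjoint_iff_inter_eq_empty.1 e'] at this
      simp at this

theorem pb_iso_of_steiner {α β : Type*} [Fintype α] [Fintype β] (hα : Fintype.card α = 22)
    (hβ : Fintype.card β = 22) {B : Set (Finset α)} {B' : Set (Finset β)}
    (hB : IsSteinerSystem 3 6 B) (hB' : IsSteinerSystem 3 6 B') :
    Nonempty (pointBlockGraph B ≃g pointBlockGraph B') := by
  classical
  obtain ⟨f, h⟩ := canon22 hα hB
  obtain ⟨f', h'⟩ := canon22 hβ hB'
  obtain ⟨e, he⟩ := h.iso h'
  exact ⟨pbIso e he⟩

theorem pb_iso_srg {α V : Type*} [Fintype α] [Fintype V] (hα : Fintype.card α = 22)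
    {B : Set (Finset α)} (hB : IsSteinerSystem 3 6 B) {G : SimpleGraph V} [DecidableRel G.Adj]
    (h : G.IsSRGWith 100 22 0 6) : Nonempty (pointBlockGraph B ≃g G) := by
  obtain ⟨a⟩ : Nonempty V := Fintype.card_pos_iff.1 (h.card ▸ by norm_num)
  obtain ⟨B', h1, ⟨e⟩⟩ := srg_design h a
  obtain ⟨e'⟩ := pb_iso_of_steiner hα
    ((card_neighborSet_eq_degree G a).trans (h.regular a)) hB h1
  exact ⟨e'.trans e⟩

theorem srg100_unique {V W : Type*} [Fintype V] [Fintype W] {G : SimpleGraph V}
    {H : SimpleGraph W} [DecidableRel G.Adj] [DecidableRel H.Adj] (hG : G.IsSRGWith 100 22 0 6)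
    (hH : H.IsSRGWith 100 22 0 6) : Nonempty (G ≃g H) := by
  obtain ⟨a⟩ : Nonempty V := Fintype.card_pos_iff.1 (hG.card ▸ by norm_num)
  obtain ⟨B, h1, ⟨e⟩⟩ := srg_design hG a
  obtain ⟨e'⟩ := pb_iso_srg ((card_neighborSet_eq_degree G a).trans (hG.regular a)) h1 hH
  exact ⟨e.symm.trans e'⟩

end H15
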