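import Cfsg.Agent.H15.Dod

/-! The ternary Golay code. -/

set_option autoImplicit false
set_option maxRecDepth 100000

namespace H15.Tern
open Cfsg Finset MulAction
open scoped Pointwise

/-- Index of a position. -/
def ia (p : ArrayPt) : ℕ := 3 * p.1.val + p.2.val
/-- Position with a given index. -/
def ai (n : ℕ) : ArrayPt := (Fin.ofNat 4 (n / 3), (n : ZMod 3))
/-- A basis of the code. -/
def tg (j : Fin 6) (p : ArrayPt) : ZMod 3 := (getT 0xa950009249001988405844108a8404950401 2 3 (12 * j.val + ia p) : ℕ)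
/-- An information set. -/
def ip (j : Fin 6) : ArrayPt := ai (getT 0x643210 4 15 j.val)
/-- The word with given information symbols. -/
def tw (v : Fin 6 → ZMod 3) (p : ArrayPt) : ZMod 3 :=
  v 0 * tg 0 p + v 1 * tg 1 p + v 2 * tg 2 p + v 3 * tg 3 p + v 4 * tg 4 p + v 5 * tg 5 p
/-- The defining conditions in decidable form. -/
def IsT (x : ArrayPt → ZMod 3) : Prop :=
  ∃ s : ZMod 3, (∀ i : Fin 4, x (i, 0) + x (i, 1) + x (i, 2) = -s) ∧ ∀ u v : ZMod 3,
    x (0, v) + x (1, u) + x (2, u + v) + x (3, u + 2 * v) = s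

instance (x : ArrayPt → ZMod 3) : Decidable (IsT x) := by unfold IsT; infer_instance

theorem mem_iff {x : ArrayPt → ZMod 3} : x ∈ ternaryGolayCode ↔ IsT x := by
  refine exists_congr fun s => and_congr (forall_congr' fun i => ?_) ?_
  · rw [show ∑ r : ZMod 3, x (i, r) = _ from Fin.sum_univ_three fun r : Fin 3 => x (i, r)]; rfl
  · simp only [tetracode, Submodule.mem_span_pair, forall_exists_index]
    constructor
    · intro h u v
      simpa [Fin.sum_univ_four, mul_comm] using h _ u v rfl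
    · rintro h _ u v rfl
      simpa [Fin.sum_univ_four, mul_comm] using h u v

theorem tg_mem (j : Fin 6) : tg j ∈ ternaryGolayCode := mem_iff.2 (by revert j; decide +kernel)

theorem tw_eq (v : Fin 6 → ZMod 3) : tw v = ∑ j, v j • tg j := by
  ext p; simp [tw, Fin.sum_univ_six]

theorem tw_mem (v : Fin 6 → ZMod 3) : tw v ∈ ternaryGolayCode :=
  tw_eq v ▸ sum_mem fun j _ => Submodule.smul_mem _ _ (tg_mem j)

theorem tg_ip : ∀ i j, tg i (ip j) = if i = j then 1 else 0 := by decide +kernel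

theorem tw_ip (v : Fin 6 → ZMod 3) (j : Fin 6) : tw v (ip j) = v j := by
  simp [tw_eq, tg_ip]

theorem eq_tw {x : ArrayPt → ZMod 3} (hx : x ∈ ternaryGolayCode) : x = tw fun j => x (ip j) := by
  have h : ∀ a b c d e f : ZMod 3, IsT (fun p => ![![0, 0, 0], ![0, 0, a], ![0, b, c], ![d, e, f]]
      p.1 p.2) → (a = 0 ∧ b = 0 ∧ c = 0) ∧ d = 0 ∧ e = 0 ∧ f = 0 := by decide +kernel
  have h1 := sub_mem hx (tw_mem fun j => x (ip j))
  have h2 : ∀ j, (x - tw fun j => x (ip j)) (ip j) = 0 := fun j => by simp [tw_ip]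
  rw [← sub_eq_zero]
  generalize x - _ = y at h1 h2
  have h3 : y = fun p => ![![0, 0, 0], ![0, 0, y (1, 2)], ![0, y (2, 1), y (2, 2)],
      ![y (3, 0), y (3, 1), y (3, 2)]] p.1 p.2 := by
    ext ⟨i, r⟩
    fin_cases i <;> fin_cases r
    exacts [h2 0, h2 1, h2 2, h2 3, h2 4, rfl, h2 5, rfl, rfl, rfl, rfl, rfl]
  obtain ⟨⟨k1, k2, k3⟩, k4, k5, k6⟩ := h _ _ _ _ _ _ (h3 ▸ mem_iff.1 h1)
  rw [h3, k1, k2, k3, k4, k5, k6]
  decide +kernel

theorem forall_tw {Q : (ArrayPt → ZMod 3) → Prop}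
    (h : ∀ a b c d e f : ZMod 3, Q (tw ![a, b, c, d, e, f])) : ∀ x ∈ ternaryGolayCode, Q x := by
  intro x hx
  rw [eq_tw hx]
  convert h (x (ip 0)) (x (ip 1)) (x (ip 2)) (x (ip 3)) (x (ip 4)) (x (ip 5)) with j
  fin_cases j <;> rfl

theorem ncard_tw (Q : (ArrayPt → ZMod 3) → Prop) [DecidablePred Q] :
    {x | x ∈ ternaryGolayCode ∧ Q x}.ncard = (univ.filter fun t : (ZMod 3 × ZMod 3 × ZMod 3) ×
      ZMod 3 × ZMod 3 × ZMod 3 => Q (tw ![t.1.1, t.1.2.1, t.1.2.2, t.2.1, t.2.2.1, t.2.2.2])).card := by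
  rw [← Set.ncard_coe_finset]
  symm
  refine Set.ncard_congr (fun t _ => tw ![t.1.1, t.1.2.1, t.1.2.2, t.2.1, t.2.2.1, t.2.2.2])
    (fun t ht => ⟨tw_mem _, by simpa using ht⟩) (fun s t _ _ e => ?_) fun x hx => ?_
  · have := fun j => congrFun e (ip j)
    simp only [tw_ip] at this
    exact Prod.ext (Prod.ext (this 0) (Prod.ext (this 1) (this 2)))
      (Prod.ext (this 3) (Prod.ext (this 4) (this 5)))
  · have : tw ![x (ip 0), x (ip 1), x (ip 2), x (ip 3), x (ip 4), x (ip 5)] = x := by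
      conv_rhs => rw [eq_tw hx.1]
      congr 1; ext j; fin_cases j <;> rfl
    exact ⟨((x (ip 0), x (ip 1), x (ip 2)), x (ip 3), x (ip 4), x (ip 5)),
      by simpa [this] using hx.2, this⟩

/-- Index of the point of the standard dodecad attached to a position. -/
def bi (p : ArrayPt) : ℕ := getT 0x81a494358418820 5 31 (ia p)

theorem bi_spec : (∀ p, bi p < 24 ∧ pt (bi p) ∈ S 340831 ∧ ∀ q, pt (bi p) = pt (bi q) → p = q) ∧
    ∀ y ∈ S 340831, ∃ p, pt (bi p) = y := by decide +kernel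

theorem words : ∀ x ∈ ternaryGolayCode, (x = 0 ∨ (ternarySupport x).card = 6 ∨
    (ternarySupport x).card = 9 ∨ (ternarySupport x).card = 12) ∧ ∑ p, x p * x p = 0 ∧
    ((ternarySupport x).card = 6 → isH (∑ p ∈ ternarySupport x, 2 ^ bi p) = true) :=
  forall_tw (by decide +kernel)

/-- The supports of the words of weight six. -/
abbrev TB : Set (Finset ArrayPt) :=
  {h | ∃ x ∈ ternaryGolayCode, ternarySupport x = h ∧ h.card = 6}

theorem image_mem {h : Finset ArrayPt} (hh : h ∈ TB) :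
    h.image (fun p => pt (bi p)) ∈ hexadsOn (S 340831) := by
  obtain ⟨x, h1, rfl, h2⟩ := hh
  have h3 : msk ((ternarySupport x).image fun p => pt (bi p)) = ∑ p ∈ ternarySupport x, 2 ^ bi p := by
    rw [msk, sum_image fun p _ q _ => (bi_spec.1 p).2.2 q]
    exact sum_congr rfl fun p _ => by rw [ix_pt (bi_spec.1 p).1]
  rw [← S_msk (image _ _), isH_iff (msk_lt _), h3]
  exact (words x h1).2.2 h2

theorem diag (c : ArrayPt → (ZMod 3)ˣ) (h : ∀ x ∈ ternaryGolayCode,
    monomialMap 1 c x ∈ ternaryGolayCode) (p : ArrayPt) : c p = c (1, 2) := by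
  have h1 : ∀ j q, tg j q ≠ 0 → c q = c (ip j) := fun j q hq => by
    have := congrFun (eq_tw (h _ (tg_mem j))) q
    simp only [tw_eq, monomialMap, Equiv.Perm.one_symm, Equiv.Perm.coe_one, id, tg_ip, mul_ite,
      mul_one, mul_zero, Finset.sum_apply, Pi.smul_apply, smul_eq_mul, ite_mul, zero_mul,
      sum_ite_eq, mem_univ, if_true] at this
    exact Units.ext (mul_right_cancel₀ hq this)
  obtain ⟨j, k, q, h2, h3, h4, h5⟩ : ∃ j k q, tg j p ≠ 0 ∧ tg j q ≠ 0 ∧ tg k q ≠ 0 ∧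
      tg k (1, 2) ≠ 0 := by revert p; decide +kernel
  rw [h1 j p h2, ← h1 j q h3, h1 k q h4, h1 k _ h5]

theorem support_mono (σ : Equiv.Perm ArrayPt) (c : ArrayPt → (ZMod 3)ˣ) (x : ArrayPt → ZMod 3) :
    ternarySupport (monomialMap σ c x) = σ • ternarySupport x := by
  ext p
  rw [← inv_apply_mem_iff]
  simp [ternarySupport, monomialMap, Equiv.Perm.inv_def]

/-- The permutation parts of the monomial automorphisms. -/
def TP : Subgroup (Equiv.Perm ArrayPt) :=
  let M : Submonoid (Equiv.Perm ArrayPt) :=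
    { carrier := {σ | ∃ c : ArrayPt → (ZMod 3)ˣ, ∀ x ∈ ternaryGolayCode,
        monomialMap σ c x ∈ ternaryGolayCode}
      one_mem' := ⟨1, fun x hx => by convert hx; ext; exact one_mul _⟩
      mul_mem' := by
        rintro σ τ ⟨c, hc⟩ ⟨d, hd⟩
        refine ⟨fun i => c i * d (σ.symm i), fun x hx => ?_⟩
        convert hc _ (hd x hx) using 1
        ext i; simp [monomialMap, mul_assoc, Equiv.Perm.mul_def] }
  { M with
    inv_mem' := fun {σ} hσ => (Submonoid.powers_le (P := M)).2 hσ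
      (mem_powers_iff_mem_zpowers.2 (inv_mem (Subgroup.mem_zpowers σ))) }

theorem TP_smul {σ : Equiv.Perm ArrayPt} (hσ : σ ∈ TP) : ∀ s ∈ TB, σ • s ∈ TB := by
  rintro _ ⟨x, h1, rfl, h2⟩
  obtain ⟨c, hc⟩ := hσ
  exact ⟨_, hc x h1, support_mono σ c x, (card_smul_finset _ _).trans h2⟩

/-- The elements of `M12` induced by monomial automorphisms. -/
def TK : Subgroup (Equiv.Perm GolayPt) where
  carrier := {g | g ∈ Spor.M12 ∧ ∃ σ ∈ TP, ∀ p, g (pt (bi p)) = pt (bi (σ p))}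
  one_mem' := ⟨one_mem _, 1, one_mem _, fun _ => rfl⟩
  mul_mem' := by
    rintro g k ⟨h1, σ, h2, h3⟩ ⟨h4, τ, h5, h6⟩
    exact ⟨mul_mem h1 h4, σ * τ, mul_mem h2 h5, fun p => by
      rw [Equiv.Perm.mul_apply, h6, h3, Equiv.Perm.mul_apply]⟩
  inv_mem' := by
    rintro g ⟨h1, σ, h2, h3⟩
    exact ⟨inv_mem h1, σ⁻¹, inv_mem h2, fun p => by rw [Equiv.Perm.inv_eq_iff_eq, h3, app_inv]⟩

theorem inK_tern {g : ℕ} (hg : InK Spor.M12 g) (r c : ℕ)
    (h : Function.Injective (fun p => ai (getT r 4 15 (ia p))) ∧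
      (∀ p, ap g (bi p) = bi (ai (getT r 4 15 (ia p)))) ∧ ∀ j, IsT fun p =>
        (if tb c (ia p) then -1 else 1) * tg j (ai (getT r 4 15 (ia p)))) : InK TK g := by
  obtain ⟨σ, h1, h2⟩ := hg
  refine ⟨σ, ⟨h1, Equiv.ofBijective _ (Finite.injective_iff_bijective.1 h.1),
    (inv_mem_iff).1 ⟨fun p => if tb c (ia p) then -1 else 1, fun x hx => ?_⟩,
    fun p => h2.app_eq (bi_spec.1 p).1 (h.2.1 p)⟩, h2⟩
  convert sum_mem fun j (_ : j ∈ univ) => Submodule.smul_mem _ (x (ip j)) (mem_iff.2 (h.2.2 j))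
  ext p
  conv_lhs => rw [eq_tw hx, tw_eq]
  simp only [monomialMap, Equiv.Perm.inv_def, Equiv.symm_symm, Equiv.ofBijective_apply,
    Finset.sum_apply, Pi.smul_apply, smul_eq_mul, mul_sum]
  refine sum_congr rfl fun j _ => ?_
  split_ifs <;> simp

theorem M12_le_TK : Spor.M12 ≤ TK := by
  have h0 : TK ≤ Spor.M12 := fun _ h => h.1
  have ha := (inK_tern (c11a_mem.mono M11_le_M12) 0x4236b5a91780 2530 (by decide +kernel))
  have := step_le h0 (F := 0) (b := 0) (by norm_num) m12_bd0 (lev_sound (m12_tab ha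
    (inK_tern c12c_mem 0x94586a3270b1 3270 (by decide +kernel))) (J := m12J0) (by decide +kernel))
    (M11_eq.ge.trans (M11_le_of_gens h0 ha
      (inK_tern (c11b_mem.mono M11_le_M12) 0x25671b3a9840 1410 (by decide +kernel))))
  rwa [inf_Fx_zero] at this

theorem steiner : IsSteinerSystem 5 6 TB := by
  refine ⟨fun b ⟨_, _, _, h⟩ => h, fun s hs => ?_⟩
  have hi : Function.Injective fun p => pt (bi p) := fun p q => (bi_spec.1 p).2.2 q
  obtain ⟨x, h1, h2, h3⟩ := exists_enum hs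
  have h4 : ternarySupport (tg 0) ∈ TB := ⟨_, tg_mem 0, rfl, by decide +kernel⟩
  obtain ⟨y, h5, h6⟩ := exists_inj (s := ternarySupport (tg 0)) (n := 5) (by decide +kernel)
  obtain ⟨g, h7, h8⟩ := m12_five _ _ (hi.comp h5) (fun i => (bi_spec.1 _).2.1) (hi.comp h1)
    (fun i => (bi_spec.1 _).2.1)
  obtain ⟨-, σ, h9, h10⟩ := M12_le_TK h7
  refine existsUnique_of_exists_of_unique ⟨_, TP_smul h9 _ h4, fun p hp => ?_⟩ fun b c hb hc => ?_
  · obtain ⟨i, rfl⟩ := h3 p hp
    rw [← hi ((h10 _).symm.trans (h8 i)), apply_mem_smul_iff]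
    exact h6 i
  · refine image_injective hi (hexad_eq_of_inter _ (image_mem hb.1) _ (image_mem hc.1) ?_)
    rw [← image_inter _ _ hi, card_image_of_injective _ hi, ← hs]
    exact card_le_card (subset_inter hb.2 hc.2)

theorem TP_eq : TP = setSystemAut TB ∧ Nat.card TP = 95040 := by
  obtain ⟨e⟩ := steiner_aut_M12 (by decide) steiner
  have h1 : TP ≤ setSystemAut TB := fun _ h => mem_setSystemAut_of_mapsTo (TP_smul h)
  choose σ h2 h3 using fun g : Spor.M12 => (M12_le_TK g.2).2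
  have h4 : TP = setSystemAut TB := Subgroup.eq_of_le_of_card_ge h1 (by
    rw [Nat.card_congr e.toEquiv]
    refine Nat.card_le_card_of_injective (fun g => (⟨σ g, h2 g⟩ : TP)) fun g k h => ?_
    rw [← inv_mul_eq_one]
    refine Subtype.ext (m12_faith (g⁻¹ * k).2 fun y hy => ?_)
    obtain ⟨p, rfl⟩ := bi_spec.2 y hy
    rw [Subgroup.coe_mul, Equiv.Perm.mul_apply, h3, Subgroup.coe_inv, Equiv.Perm.inv_eq_iff_eq, h3,
      show σ g = σ k from congrArg Subtype.val h])
  exact ⟨h4, by rw [h4, Nat.card_congr e.toEquiv, card_M12]⟩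

end H15.Tern
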