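import Cfsg.Agent.H15.M.Ru
import Cfsg.Agent.H15.M.Tits
import Cfsg.Agent.H16.Facts

/-! The Tits group inside the point stabiliser of the permutation model of the Rudvalis group. -/

set_option autoImplicit false

namespace H15.TitsRu
open H16

/-- words in the letters of the point stabiliser for the letters of the Tits model -/
noncomputable def Ws : List (List ℕ) := [[2, 1, 3, 0, 2, 0, 3, 0, 0, 4],
  [0, 2, 0, 3, 0, 0, 3, 3, 0, 2],
  [0, 0, 0, 3, 1, 3, 3, 1, 1, 4],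
  [2, 1, 3, 1, 3, 1, 3, 1, 2, 3],
  [2, 1, 4, 1, 2, 4],
  [2, 3, 0, 4, 1, 1, 4, 0, 4, 5, 1, 5, 0, 0, 5, 0]]

theorem chk : H16.allL (ltAll 6) Ws = true ∧ H16.allL (ltAll 7) Ws = true ∧
    H16.allL (fixL (wdsP Ru.P Ws) 6 Ru.B) Tits.Rl = true ∧
    ltAll 7 (nth [] Ws 0) = 0 ∧ 9 < 4060 ∧ apW Ru.P (nth [] Ws 0) 9 ≠ 9 := by decide +kernel

/-- the letters -/
noncomputable def h : ℕ → Equiv.Perm (Fin 4060) := wds Ru.g Ws

theorem le : gen h 6 ≤ gen Ru.g 6 := gen_wds_le chk.1 6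

theorem rels : Rels h Tits.Rl :=
  rels_of_base (Ru.act.wds chk.2.1 6) Ru.Blt (Ru.isBase.mono (gen_wds_le chk.2.1 6)) chk.2.2.1

theorem h0_ne : h 0 ≠ 1 := by
  have := Ru.act.ne_one (ptF_inj 4060) chk.2.2.2
  unfold h wds
  exact this

theorem exists_equiv : ∃ e : gen Tits.g 6 ≃* gen h 6,
    ∀ k (hk : k < 6), e ⟨Tits.g k, mem_gen _ hk⟩ = ⟨h k, mem_gen h hk⟩ :=
  haveI := Tits.simple
  Tits.bound.exists_equiv_of_simple Tits.rels Tits.card rels (j := 0) (by decide) h0_ne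

theorem stab_eq : MulAction.stabilizer (gen Ru.g 7) (0 : Fin 4060) =
    (gen Ru.g 6).subgroupOf (gen Ru.g 7) := by
  have := Ru.chain.stabilizer_eq (ptF_inj 4060)
  rwa [show Ru.l0.Pt 0 = 0 from Ru.lv0b.2.2] at this

theorem card_stab : Nat.card (MulAction.stabilizer (gen Ru.g 7) (0 : Fin 4060)) = 35942400 := by
  have := Ru.chain.card_stabilizer (ptF_inj 4060)
  rw [show Ru.l0.Pt 0 = 0 from Ru.lv0b.2.2] at this
  exact this.trans (by decide +kernel)

end H15.TitsRu
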